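import Cfsg.Agent.MaxSub.CSixU.Dichotomy
import Cfsg.Agent.MaxSub.SLFour.PairMain

/-!
The normaliser of a symplectic-type group of order 64 is maximal in `SU_4(p)`, `p ≡ 3 mod 4`.
-/

set_option autoImplicit false
set_option linter.unusedSectionVars false

namespace Cfsg.Agent.SU4

open Cfsg.Agent.MaxSub CSix CSixU Module
open Cfsg.Agent.Classical.U
open scoped MatrixGroups

universe u

variable {F : Type u} [Field F] [Fintype F] {q : ℕ}

/-- Groups between the normaliser and `SU_4(p)`, through the extension by one quarter turn. -/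
theorem between_four (hF : SqField F q) (hq : q.Prime) (hq4 : q % 4 = 3) :
    Between 4 F q hF := by
  intro i R G hD hR hU hinv hmul hscal hsub hpair _
  haveI : Nonempty (Fin 4) := ⟨0⟩
  haveI : Nontrivial (Fin 4 → F) := inferInstance
  have hP : MaxSub.SLFour.Pair.PGrp i R G :=
    ⟨hinv, hmul, hscal, hsub, fun x hx hxx hxns y hy hyy hyns =>
      hpair x hx y hy hxx hyy hxns hyns⟩
  let P : Set (Module.End F (Fin 4 → F)) → Prop := fun G₁ => Simil q G₁ →
    ∀ (e : Fin 4 → F) (a : F) (h : TrvCond q e a),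
      ((trv hF h).1 : Module.End F (Fin 4 → F)) ∈ G₁
  have hdich : ∀ G₁ : Set (Module.End F (Fin 4 → F)), Grp i R G₁ →
      (∀ g ∈ G₁, Nrm R g) ∨ P G₁ := fun G₁ hG₁ => by
    by_cases hU₁ : Simil q G₁
    · rcases dichotomy_four hF hq hq4 i R G₁ hD hG₁ hR hU₁ with h | h
      · exact Or.inl h
      · exact Or.inr fun _ e a hc => (h e hc.1).2 a hc
    · exact Or.inr fun h => absurd h hU₁
  rcases MaxSub.SLFour.Pair.normalises_or_dich hD hP (Module.finrank_fin_fun F) P hdich with
    h | h | ⟨a, haR, ha, hans, h⟩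
  · exact Or.inl h
  · exact Or.inr (h hU)
  refine Or.inr fun e b hc => ?_
  -- the extension consists of similitudes
  have hsa : ∀ u v, herm q (a u) v = herm q u (a v) := fun u v => by
    conv_rhs => rw [← hR a haR, ← Module.End.mul_apply a a v, ha, Module.End.one_apply]
  have ht : ∀ u v, herm q (MaxSub.SLFour.Pair.qt i a u) (MaxSub.SLFour.Pair.qt i a v) =
      2 * herm q u v := fun u v => by
    simp only [MaxSub.SLFour.Pair.qt, LinearMap.add_apply, LinearMap.smul_apply,
      Module.End.one_apply, herm_add_left, hF.herm_add_right, herm_smul_left, herm_smul_right,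
      i_pow hF hq4 hD.sq_i, hR a haR, hsa]
    linear_combination (-herm q u v) * hD.sq_i
  have hUext : Simil q (MaxSub.SLFour.Pair.ext i G a) := by
    rintro f (hf | hf)
    · exact hU f hf.1
    · obtain ⟨c, hc'⟩ := hU _ hf.1
      refine ⟨2 * c, fun u v => ?_⟩
      have e1 : ∀ w, f w = MaxSub.SLFour.Pair.qt i a ((MaxSub.SLFour.Pair.qt' i a * f) w) :=
        fun w => by
          rw [← Module.End.mul_apply, ← mul_assoc, MaxSub.SLFour.Pair.qt_mul_qt' hD ha, one_mul]
      rw [e1 u, e1 v, ht, hc', mul_assoc]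
  -- a transvection is the square of one
  have hee := hc.1
  have hb := hc.2
  have hc2 : TrvCond q e ((2 : F)⁻¹ * b) := ⟨hee, by
    rw [mul_pow, inv_pow, show (2 : F) ^ q = 2 by
      haveI := Fact.mk hq
      haveI := CSixU.char_eq_of_prime hF hq
      exact map_ofNat (frobenius F q) 2, hb, mul_neg]⟩
  have hsq := MaxSub.SLFour.Pair.sq_mem_of_ext hD hP haR ha (h hUext e _ hc2)
  convert hsq using 1
  refine LinearMap.ext fun w => ?_
  rw [Module.End.mul_apply, LinearEquiv.coe_coe, LinearEquiv.coe_coe, trv_apply hF hc2, trv_apply hF hc2,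
    trv_apply hF hc, herm_add_left, herm_smul_left, hee, mul_zero, add_zero]
  have hh := inv_mul_cancel₀ hD.two_ne
  match_scalars <;> first | ring1 | linear_combination (-(b * herm q w e)) * hh

/-- Class six in `SU_4(p)`. -/
theorem suGL_symplecticType_maximal (hF : SqField F q) (hq : q.Prime) (hq4 : q % 4 = 3)
    {R : Subgroup (GL (Fin 4) F)} (hst : Geo.IsSymplecticTypeGroup 2 R)
    (hirr : Geo.ActsAbsolutelyIrreducibly (Geo.matrixSet R)) (hRU : R ≤ Cfsg.GU 4 F q)
    (hZ : Nat.card (Subgroup.center R) = 4) :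
    Geo.IsMaximalIn (Cfsg.GU 4 F q ⊓ Geo.specialLinear (Fin 4) F)
      (Geo.subgroupNormalizer R ⊓ (Cfsg.GU 4 F q ⊓ Geo.specialLinear (Fin 4) F)) := by
  refine suGL_normalizer_maximal_of hF hq hq4 le_rfl (dvd_refl 4) (fun h => ?_)
    (between_four hF hq hq4) hst hirr hRU hZ
  have h2 := (Nat.prime_dvd_prime_iff_eq hq Nat.prime_two).1
    (hq.dvd_of_dvd_pow (show q ∣ 2 ^ 2 by simpa using h))
  omega

end Cfsg.Agent.SU4
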