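import Cfsg.Agent.DecompMax.UnitTop

/-!
The stabilisers of decompositions into two non-degenerate planes are maximal in `SU_4(q)`.
-/

set_option autoImplicit false
set_option linter.style.haveILetI false
set_option linter.unusedSectionVars false

namespace Cfsg.Agent.SU4

open Matrix Cfsg.Geo Module Cfsg.Agent.Classical.U Cfsg.Agent.GeoClasses Cfsg.Agent.ClassicalMax
open Cfsg.Agent.DecompMax Cfsg.Agent.DecompMax.UN
open scoped MatrixGroups Matrix

universe u

variable {F : Type u} [Field F] {q : ℕ} (hF : SqField F q) {D : Fin 2 → Submodule F (Fin 4 → F)}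
variable {M : Subgroup (UG 4 F q)}
  (hM : ∀ g ∈ SUG 4 F q, (∀ i, ∃ j, ∀ v ∈ D i, g.1 v ∈ D j) → g ∈ M)
  (H : IsUDec q 2 D)

omit hM H in
theorem two_proj (C : Components D) {a b : Fin 2} (hab : a ≠ b) (v : Fin 4 → F) :
    C.proj a v + C.proj b v = v := by
  conv_rhs => rw [← C.sum_eq v, Fin.sum_univ_two]
  rcases a with ⟨_ | _ | a, ha⟩ <;> rcases b with ⟨_ | _ | b, hb⟩
  all_goals first | exact absurd rfl hab | omega | rfl | exact add_comm _ _

include hF H

omit hM in
theorem two_herm (C : Components D) {a b : Fin 2} (hab : a ≠ b) {u : Fin 4 → F}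
    (hu : herm q u u = 0) :
    herm q (C.proj a u) (C.proj a u) + herm q (C.proj b u) (C.proj b u) = 0 := by
  have h := hu
  conv_lhs at h => rw [← two_proj C hab u]
  rw [herm_add_left, hF.herm_add_right, hF.herm_add_right, H.orth a b hab _ (C.mem a u) _ (C.mem b u),
    H.orth b a hab.symm _ (C.mem b u) _ (C.mem a u)] at h
  linear_combination h

include hM

/-- One centre with anisotropic components gives every centre of this kind. -/
theorem aniso_all (C : Components D) {v : Fin 4 → F} (hv : v ∈ ctr hF M) {a b : Fin 2} (hab : a ≠ b)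
    (hva : herm q (C.proj a v) (C.proj a v) ≠ 0) {p z : Fin 4 → F} (hp : p ∈ D a) (hz : z ∈ D b)
    (hpp : herm q p p ≠ 0) (hzz : herm q z z = -herm q p p) : p + z ∈ ctr hF M := by
  set A := herm q (C.proj a v) (C.proj a v) with hA
  have hB : herm q (C.proj b v) (C.proj b v) = -A :=
    eq_neg_of_add_eq_zero_right (two_herm hF H C hab hv.1)
  obtain ⟨l, hl⟩ := hF.exists_norm (c := herm q p p / A) (by
    rw [div_pow, hF.herm_symm, hA, hF.herm_symm])
  rw [pow_succ'] at hl
  set v' := l • v with hv'def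
  have hv' : v' ∈ ctr hF M := ctr_smul hF hv l
  have hN : ∀ i, herm q (C.proj i v') (C.proj i v') =
      herm q p p / A * herm q (C.proj i v) (C.proj i v) := fun i => by
    rw [hv'def, map_smul, herm_smul_left, herm_smul_right, ← mul_assoc, hl]
  have hNa : herm q (C.proj a v') (C.proj a v') = herm q p p := by
    rw [hN, ← hA, div_mul_cancel₀ _ hva]
  have hNb : herm q (C.proj b v') (C.proj b v') = -herm q p p := by
    rw [hN, hB, mul_neg, div_mul_cancel₀ _ hva]
  have hne : ∀ {i : Fin 2} {u : Fin 4 → F} {c : F}, herm q (C.proj i u) (C.proj i u) = c → c ≠ 0 →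
      C.proj i u ≠ 0 := fun hc hc0 e => hc0 (by rw [← hc, e, herm_zero_left])
  have h1 := ctr_move hF hM H C hv' hp (fun e => hpp (by rw [e, herm_zero_left])) (hne hNa hpp)
    hNa.symm (H.good_of hF C hab.symm (Or.inr (Or.inl (by rw [hNb]; exact neg_ne_zero.2 hpp))))
  have e1 : v' - C.proj a v' + p = p + C.proj b v' := by
    conv_lhs => arg 1; arg 1; rw [← two_proj C hab v']
    abel
  rw [e1] at h1
  have ea : C.proj a (p + C.proj b v') = p := by
    rw [map_add, C.of_mem hp, C.of_mem_ne hab.symm (C.mem b v'), add_zero]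
  have eb : C.proj b (p + C.proj b v') = C.proj b v' := by
    rw [map_add, C.of_mem_ne hab hp, C.of_mem (C.mem b v'), zero_add]
  have h2 := ctr_move hF hM H C h1 hz (fun e => neg_ne_zero.2 hpp (by rw [← hzz, e, herm_zero_left]))
    (i := b) (by rw [eb]; exact hne hNb (neg_ne_zero.2 hpp)) (by rw [eb, hNb, hzz])
    (H.good_of hF C hab (Or.inr (Or.inl (by rw [ea]; exact hpp))))
  rwa [eb, add_sub_cancel_right] at h2

omit hM H in
theorem exists_scalar_generic (hq : 3 ≤ q) : ∃ x : F, x ^ q ≠ x ∧ x + x ^ q ≠ 0 := by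
  classical
  by_contra h
  push Not at h
  obtain ⟨e, he, he0, he1⟩ := UN.exists_fixed_ne hF hq
  obtain ⟨δ, hδ0, hδ⟩ := hF.exists_skew
  rcases ne_or_eq (2 : F) 0 with h2 | h2
  · rcases eq_or_ne ((1 + δ) ^ q) (1 + δ) with hh | hh
    · rw [hF.add_pow, one_pow, hδ] at hh
      exact mul_ne_zero h2 hδ0 (by linear_combination -hh)
    · have := h _ hh
      rw [hF.add_pow, one_pow, hδ] at this
      exact h2 (by linear_combination this)
  · obtain ⟨t, ht⟩ := hF.exists_trace (c := (1 : F)) (one_pow q)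
    rcases eq_or_ne (t ^ q) t with hh | hh
    · rw [hh] at ht
      exact one_ne_zero (show (1 : F) = 0 by linear_combination -ht + t * h2)
    · exact one_ne_zero (ht.symm.trans (h _ hh))

/-- A centre with anisotropic components. -/
theorem exists_aniso (hq : 3 ≤ q) (C : Components D) {w : Fin 4 → F} (hw : w ∈ ctr hF M)
    {a b : Fin 2} (hab : a ≠ b) (ha : C.proj a w ≠ 0) (hb : C.proj b w ≠ 0) :
    ∃ v ∈ ctr hF M, herm q (C.proj a v) (C.proj a v) ≠ 0 := by
  rcases ne_or_eq (herm q (C.proj a w) (C.proj a w)) 0 with h | hpp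
  · exact ⟨w, hw, h⟩
  have hrr : herm q (C.proj b w) (C.proj b w) = 0 := by
    have := two_herm hF H C hab hw.1
    rwa [hpp, zero_add] at this
  set p := C.proj a w
  set r := C.proj b w
  obtain ⟨x, hx1, hx2⟩ := exists_scalar_generic hF hq
  have hx0 : x ≠ 0 := fun e => hx1 (by rw [e, zero_pow hF.q_ne_zero])
  obtain ⟨p', hp', hpp', hp'p'⟩ := H.exists_affine hF a (C.mem a w) ha x (β := 0)
    (zero_pow hF.q_ne_zero) fun _ => hx0
  obtain ⟨r', hr', hrr', hr'r'⟩ := H.exists_affine hF b (C.mem b w) hb (-x ^ q) (β := 0)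
    (zero_pow hF.q_ne_zero) fun _ => neg_ne_zero.2 (pow_ne_zero _ hx0)
  have h1 : herm q (p' - p) (p' - p) = -x - x ^ q := by
    rw [herm_sub_left, hF.herm_sub_right, hF.herm_sub_right, hp'p', hpp, hpp', ← hF.herm_symm p p',
      hpp']
    ring
  have h2 : herm q (r' - r) (r' - r) = x + x ^ q := by
    rw [herm_sub_left, hF.herm_sub_right, hF.herm_sub_right, hr'r', hrr, hrr', ← hF.herm_symm r r',
      hrr', hF.neg_pow, hF.pow_pow]
    ring
  have hxq0 := pow_ne_zero q hx0
  have hc1 : x⁻¹ + (x⁻¹) ^ q + x⁻¹ * (x⁻¹) ^ q * herm q (p' - p) (p' - p) = 0 := by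
    rw [h1, inv_pow]; field_simp; ring
  have hc2 : (-x ^ q)⁻¹ + ((-x ^ q)⁻¹) ^ q + (-x ^ q)⁻¹ * ((-x ^ q)⁻¹) ^ q * herm q (r' - r) (r' - r) = 0 := by
    rw [h2, inv_pow, hF.neg_pow, hF.pow_pow]; field_simp; ring
  set g := href hF hc1 * href hF hc2 with hg
  have hx1' : p' - p ∈ D a := (D a).sub_mem hp' (C.mem a w)
  have hx2' : r' - r ∈ D b := (D b).sub_mem hr' (C.mem b w)
  have hgS : g ∈ SUG 4 F q := by
    rw [mem_SUG, hg, Subgroup.coe_mul, map_mul]
    refine Units.ext ?_
    rw [Units.val_mul, det_href hF hc1, det_href hF hc2, h1, h2, Units.val_one]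
    field_simp
    ring
  have hkeep : ∀ {i : Fin 2} {y : Fin 4 → F}, y ∈ D i → ∀ {c : F}
      (h : c + c ^ q + c * c ^ q * herm q y y = 0), ∀ s, ∀ v ∈ D s, (href hF h).1 v ∈ D s := by
    intro i y hy c h s v hv
    rw [href_apply]
    rcases eq_or_ne s i with rfl | hsi
    · exact (D s).add_mem hv ((D s).smul_mem _ hy)
    · rw [H.orth s i hsi v hv y hy, mul_zero, zero_smul, add_zero]
      exact hv
  have hgM : g ∈ M := hM g hgS fun s => ⟨s, fun v hv => by
    rw [hg, Subgroup.coe_mul, LinearEquiv.mul_apply]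
    exact hkeep hx1' hc1 s _ (hkeep hx2' hc2 s v hv)⟩
  have hw' := ctr_map hF hw hgM
  have e2 : herm q w (r' - r) = -x ^ q := by
    rw [H.herm_proj' hF C hx2', hF.herm_sub_right, hrr', hrr, sub_zero]
  have e1 : herm q w (p' - p) = x := by
    rw [H.herm_proj' hF C hx1', hF.herm_sub_right, hpp', hpp, sub_zero]
  have eg : g.1 w = p' + r' := by
    rw [hg, Subgroup.coe_mul, LinearEquiv.mul_apply, href_apply, href_apply, e2, herm_add_left,
      herm_smul_left, H.orth b a hab.symm _ hx2' _ hx1', e1, mul_zero, add_zero,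
      inv_mul_cancel₀ (neg_ne_zero.2 hxq0), inv_mul_cancel₀ hx0, one_smul, one_smul]
    nth_rw 1 [← two_proj C hab w]
    abel
  rw [eg] at hw'
  have hval : herm q (p' + r') w = x ^ q - x := by
    rw [herm_add_left, H.herm_proj hF C hp', H.herm_proj hF C hr', ← hF.herm_symm p p', hpp',
      ← hF.herm_symm r r', hrr', hF.neg_pow, hF.pow_pow]
    ring
  have hv := ctr_line_sub hF hw' hw (by rw [hval]; exact sub_ne_zero.2 hx1)
    (by rw [hval, hF.sub_pow, hF.pow_pow]; ring)
  refine ⟨_, hv, ?_⟩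
  rw [map_sub, map_add, C.of_mem hp', C.of_mem_ne hab.symm hr', add_zero, h1]
  exact fun e => hx2 (by linear_combination -e)

/-- One centre outside the planes gives all. -/
theorem SUG_le_of_ctr (hq : 3 ≤ q) (C : Components D) {w : Fin 4 → F} (hw : w ∈ ctr hF M)
    {a b : Fin 2} (hab : a ≠ b) (ha : C.proj a w ≠ 0) (hb : C.proj b w ≠ 0) : SUG 4 F q ≤ M := by
  obtain ⟨v₀, hv₀, hv₀a⟩ := exists_aniso hF hM H hq C hw hab ha hb
  have han : ∀ p ∈ D a, ∀ z ∈ D b, herm q p p ≠ 0 → herm q z z = -herm q p p → p + z ∈ ctr hF M :=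
    fun p hp z hz => aniso_all hF hM H C hv₀ hab hv₀a hp hz
  have main : ∀ v, herm q v v = 0 → v ∈ ctr hF M := by
    intro v hvv
    set p := C.proj a v with hp
    set r := C.proj b v with hr
    have hsum : p + r = v := two_proj C hab v
    rcases eq_or_ne p 0 with hp0 | hp0
    · rw [hp0, zero_add] at hsum
      exact ctr_of_mem hF hM H (i := b) (by rw [← hsum]; exact C.mem b v) hvv
    rcases eq_or_ne r 0 with hr0 | hr0
    · rw [hr0, add_zero] at hsum
      exact ctr_of_mem hF hM H (i := a) (by rw [← hsum]; exact C.mem a v) hvv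
    have h2 := two_herm hF H C hab hvv
    rcases ne_or_eq (herm q p p) 0 with hpp | hpp
    · rw [← hsum]
      exact han p (C.mem a v) r (C.mem b v) hpp (eq_neg_of_add_eq_zero_right h2)
    have hrr : herm q r r = 0 := by rwa [← hp, ← hr, hpp, zero_add] at h2
    obtain ⟨τ, hτ0, hτ⟩ := hF.exists_skew
    obtain ⟨e, he, he0, he1⟩ := UN.exists_fixed_ne hF hq
    have hσ : (e * τ) ^ q = -(e * τ) := by rw [mul_pow, he, hτ]; ring
    have hσ0 : e * τ ≠ 0 := mul_ne_zero he0 hτ0
    have hσ2 : τ - e * τ ≠ 0 := by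
      rw [← one_sub_mul]; exact mul_ne_zero (sub_ne_zero.2 (Ne.symm he1)) hτ0
    obtain ⟨y, hy, hpy, hyy⟩ := H.exists_affine hF a (C.mem a v) hp0 (e * τ) (β := 1) (one_pow q)
      fun _ => hσ0
    obtain ⟨z, hz, hrz, hzz⟩ := H.exists_affine hF b (C.mem b v) hr0 (τ - e * τ) (β := -1)
      (by rw [hF.neg_pow, one_pow]) fun _ => hσ2
    rw [← hp] at hpy
    rw [← hr] at hrz
    have h1 : y + z ∈ ctr hF M := han y hy z hz (by rw [hyy]; exact one_ne_zero) (by rw [hzz, hyy])
    have hy' : herm q (p - y) (p - y) = 1 := by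
      rw [herm_sub_left, hF.herm_sub_right, hF.herm_sub_right, hpp, hyy, hpy, ← hF.herm_symm p y, hpy,
        hσ]
      ring
    have hz' : herm q (r - z) (r - z) = -1 := by
      rw [herm_sub_left, hF.herm_sub_right, hF.herm_sub_right, hrr, hzz, hrz, ← hF.herm_symm r z, hrz,
        hF.sub_pow, hσ, hτ]
      ring
    have h3 : p - y + (r - z) ∈ ctr hF M := han _ ((D a).sub_mem (C.mem a v) hy) _
      ((D b).sub_mem (C.mem b v) hz) (by rw [hy']; exact one_ne_zero) (by rw [hz', hy'])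
    have hval : herm q (p - y + (r - z)) (y + z) = τ := by
      simp only [herm_add_left, herm_sub_left, hF.herm_add_right, hpy, hyy, hrz, hzz,
        H.orth a b hab p (C.mem a v) z hz, H.orth a b hab y hy z hz,
        H.orth b a hab.symm r (C.mem b v) y hy, H.orth b a hab.symm z hz y hy]
      ring
    have := ctr_line_add hF h3 h1 (by rw [hval]; exact hτ0) (by rw [hval, hτ]; ring)
    rw [← hsum]
    convert this using 1
    abel
  rw [SUG_eq_TG hF (by omega) (by omega), TG, Subgroup.closure_le]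
  rintro g ⟨e, c, hec, hg⟩
  rw [mem_TG_generator hF hec hg]
  exact (main e hec.1).2 _ _

omit hM H

/-- Stabilisers of decompositions into two non-degenerate planes are maximal. -/
theorem suGL_decomp_maximal (hq : 3 ≤ q)
    (hD : IsNondegenerateMDecomposition (Cfsg.hermForm 4 F q) 2 D) :
    IsMaximalIn (suGL 4 F q) (decompositionStabilizer D ⊓ suGL 4 F q) := by
  have H : IsUDec q 2 D :=
    ⟨le_rfl, hD.decomp, fun i j hij u hu v hv => hD.orthogonal i j hij u hu v hv,
      fun i x hx hx0 => (hD.nondegenerate i x hx hx0).2, le_rfl, fun h => absurd h (by omega)⟩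
  refine ⟨lt_of_le_not_ge inf_le_right fun hle =>
    suGL_not_le_decompositionStabilizer hF hD.decomp le_rfl (hle.trans inf_le_left), fun M hM hMK => ?_⟩
  by_cases hMD : M ≤ decompositionStabilizer D
  · exact Or.inl (le_antisymm (le_inf hMD hMK) hM)
  refine Or.inr (le_antisymm hMK ?_)
  set M' := M.comap (ugToGL 4 F q) with hM'
  suffices hS : SUG 4 F q ≤ M' by
    intro g hg
    obtain ⟨k, hk, rfl⟩ := exists_ugToGL_eq hg
    exact hS hk
  have hmemP : ∀ p ∈ SUG 4 F q, (∀ i, ∃ j, ∀ v ∈ D i, p.1 v ∈ D j) → p ∈ M' :=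
    fun p hp hperm => hM ⟨mem_stabilizer_of_forall_mem hD.decomp fun i x hx => by
      obtain ⟨j, hj⟩ := hperm i
      exact ⟨j, by rw [ugToGL_mulVec]; exact hj x hx⟩, ugToGL_mem_suGL hp⟩
  obtain ⟨g0, hg0M, hg0D⟩ := SetLike.not_le_iff_exists.1 hMD
  obtain ⟨g, -, rfl⟩ := exists_ugToGL_eq (hMK hg0M)
  obtain ⟨C⟩ := exists_components hD.decomp
  obtain ⟨w, hw, j, l, hjl, hj, hl⟩ := exists_ctr_two hF H C hmemP (show g ∈ M' from hg0M) hg0D
  exact SUG_le_of_ctr hF hmemP H hq C hw hjl hj hl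

end Cfsg.Agent.SU4
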