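import Cfsg.Agent.SU4.FrameNoFix
import Cfsg.Agent.DecompMax.UnitFrame

/-!
Stabilisers of orthonormal frames are maximal in the four-dimensional special unitary groups, except
over nine elements.
-/

set_option autoImplicit false
set_option linter.style.haveILetI false
set_option linter.unusedSectionVars false

namespace Cfsg.Agent.SU4

open Matrix Cfsg.Geo Module Cfsg.Agent.Classical.U Cfsg.Agent.GeoClasses Cfsg.Agent.ClassicalMax
open Cfsg.Agent.DecompMax
open Cfsg.Agent.DecompMax.UCount Cfsg.Agent.DecompMax.UN Cfsg.Agent.DecompMax.UF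
open scoped MatrixGroups Matrix

universe u

variable {F : Type u} [Field F] {q : ℕ} (hF : SqField F q)
include hF

section

variable {M : Subgroup (UG 4 F q)} (hM : ∀ g ∈ SUG 4 F q, MonU g → g ∈ M)
include hM

/-- A non-monomial element fixing a frame line gives all transvection centres. -/
theorem SUG_le_of_fix (hq : 3 ≤ q) {g : UG 4 F q} (hg : g ∈ M) (hgm : ¬ MonU g) {b : Fin 4} {c : F}
    (hc : g.1 (sv F b) = c • sv F b) : SUG 4 F q ≤ M := by
  classical
  haveI : Finite F := hF.1
  obtain ⟨a, hab, ha⟩ : ∃ a, a ≠ b ∧ 2 ≤ (supp (g.1 (sv F a))).card := by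
    by_contra hcon
    push Not at hcon
    refine hgm fun a => ?_
    rcases eq_or_ne a b with rfl | hab
    · exact ⟨a, fun l hl => by rw [hc]; simp [Pi.single_eq_of_ne hl]⟩
    · obtain ⟨i, hi⟩ : ∃ i, ∀ l ∈ supp (g.1 (sv F a)), l = i := by
        rcases (supp (g.1 (sv F a))).eq_empty_or_nonempty with e | ⟨i, hi⟩
        · exact ⟨a, fun l hl => by rw [e] at hl; simp at hl⟩
        · exact ⟨i, fun l hl => Finset.card_le_one.1 (Nat.lt_succ_iff.1 (hcon a hab)) l hl i hi⟩
      exact ⟨i, fun l hl => by_contra fun h => hl (hi l (mem_supp.2 h))⟩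
  have hx₀ := (Cen.sv_cen hF hM hab).map hF hg hc
  obtain ⟨x, hx, hxs⟩ : ∃ x, Cen M b x ∧ 3 ≤ (supp x).card := by
    by_cases h3 : 3 ≤ (supp (g.1 (sv F a))).card
    · exact ⟨_, hx₀, h3⟩
    · obtain ⟨z, hz, hlt⟩ := hx₀.grow hF hM hq ha (by omega)
      exact ⟨z, hz, by omega⟩
  obtain ⟨y, hy, hyx, hne⟩ := hx.exists_unit hF hM hq hxs
  have hw := hx.ctr_sub hF hy hyx
  have hwb : (y - x) b = 0 := by rw [Pi.sub_apply, hy.1, hx.1, sub_self]
  have h2 : 2 ≤ (supp (y - x)).card := by
    by_contra hlt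
    push Not at hlt
    obtain ⟨p, hp⟩ := Function.ne_iff.1 (sub_ne_zero.2 hne)
    have h0 := hw.1
    rw [herm_def, Finset.sum_eq_single p (fun l _ hl' => ?_) (by simp)] at h0
    · exact mul_ne_zero hp (pow_ne_zero _ hp) h0
    · have : (y - x) l = 0 := by
        by_contra h'
        exact hl' (Finset.card_le_one.1 (Nat.lt_succ_iff.1 hlt) l (mem_supp.2 h') p (mem_supp.2 hp))
      rw [this, zero_mul]
  obtain ⟨u, hu, huc⟩ := exists_two_supp hF hM hq hw hwb h2
  have hall := ctr_all hF hM (by norm_num) hq hu huc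
  rw [SUG_eq_TG hF (by norm_num) (by omega), TG, Subgroup.closure_le]
  rintro p ⟨e, s, hes, hp⟩
  rw [mem_TG_generator hF hes hp]
  exact (hall e hes.1).2 _ _

/-- A non-monomial element gives all transvection centres over four elements. -/
theorem SUG_le_two (hq : q = 2) {g : UG 4 F q} (hg : g ∈ M) (hgm : ¬ MonU g) : SUG 4 F q ≤ M := by
  classical
  haveI : Finite F := hF.1
  haveI : Fintype F := Fintype.ofFinite F
  subst hq
  have h20 : (2 : F) = 0 := by
    obtain ⟨p, e, hp, hc', he⟩ := hF.exists_char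
    have hp2 : p = 2 := (Nat.prime_dvd_prime_iff_eq hp Nat.prime_two).1
      (by rw [he]; exact dvd_pow_self p (by rintro rfl; simp at he))
    subst hp2
    exact CharTwo.two_eq_zero
  have hN : ∀ a : F, a ≠ 0 → a * a ^ 2 = 1 := fun a ha => by
    have h1 : (a * a ^ 2) ^ 2 = a * a ^ 2 := DecompMax.UF.norm_fixed hF _
    rw [sq] at h1
    exact (mul_eq_right₀ (mul_ne_zero ha (pow_ne_zero 2 ha))).1 h1
  have hcast : ∀ w : Fin 4 → F, herm 2 w w = ((supp w).card : F) := fun w => by
    rw [herm_of_supp hF (subset_refl (supp w)), Finset.sum_congr rfl (fun x hx => hN _ (mem_supp.1 hx)),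
      Finset.sum_const, nsmul_one]
  have hle4 : ∀ w : Fin 4 → F, (supp w).card ≤ 4 := fun w =>
    (Finset.card_le_univ _).trans (by simp)
  have hiso : ∀ w : Fin 4 → F, herm 2 w w = 0 →
      (supp w).card = 0 ∨ (supp w).card = 2 ∨ (supp w).card = 4 := fun w hw => by
    rw [hcast] at hw
    have := hle4 w
    interval_cases h : (supp w).card
    · simp
    · simp at hw
    · simp
    · exfalso
      push_cast at hw
      exact one_ne_zero (show (1 : F) = 0 by linear_combination hw - h20)
    · simp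
  have hsupp2 : ∀ v : Fin 4 → F, herm 2 v v = 0 → (supp v).card = 2 → v ∈ ctr hF M := by
    intro v hv h
    obtain ⟨i, j, hij, hs⟩ := Finset.card_eq_two.1 h
    refine ⟨hv, fun a ha => hM _ (det_uni hF _) fun x => ?_⟩
    have hv0 : ∀ y, y ≠ i → y ≠ j → v y = 0 := fun y a b => by
      by_contra h'; have := mem_supp.2 h'; rw [hs] at this; simp [a, b] at this
    have hcol : ∀ y, (trv hF ha).1 (sv F x) y = sv F x y + a * v x ^ 2 * v y := fun y => by
      rw [trv_apply, herm_one_single]; simp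
    rcases eq_or_ne a 0 with rfl | ha0
    · exact ⟨x, fun y hy => by rw [hcol, show sv F x y = 0 from Pi.single_eq_of_ne hy _]; ring⟩
    have ha1 : a = 1 := by
      have e : a ^ 2 = -a := ha.2
      rw [sq] at e
      exact mul_right_cancel₀ ha0 (by linear_combination e - a * h20)
    subst ha1
    have hvi : v i ≠ 0 := mem_supp.1 (by rw [hs]; simp)
    have hvj : v j ≠ 0 := mem_supp.1 (by rw [hs]; simp)
    rcases eq_or_ne x i with hxi | hxi
    · refine ⟨j, fun y hy => ?_⟩
      rw [hcol, hxi]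
      rcases eq_or_ne y i with hyi | hyi
      · rw [hyi]; simp; linear_combination hN _ hvi + h20
      · rw [hv0 y hyi hy, show sv F i y = 0 from Pi.single_eq_of_ne hyi _]; ring
    rcases eq_or_ne x j with hxj | hxj
    · refine ⟨i, fun y hy => ?_⟩
      rw [hcol, hxj]
      rcases eq_or_ne y j with hyj | hyj
      · rw [hyj]; simp; linear_combination hN _ hvj + h20
      · rw [hv0 y hy hyj, show sv F j y = 0 from Pi.single_eq_of_ne hyj _]; ring
    · exact ⟨x, fun y hy => by rw [hcol, hv0 x hxi hxj, show sv F x y = 0 from Pi.single_eq_of_ne hy _]; simp⟩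
  have hunit : ∀ a : Fin 4, (supp (g.1 (sv F a))).card = 1 ∨ (supp (g.1 (sv F a))).card = 3 := fun a => by
    have hv : ((supp (g.1 (sv F a))).card : F) = 1 := by
      rw [← hcast, UG_app, herm_sv hF]; simp
    have := hle4 (g.1 (sv F a))
    interval_cases h : (supp (g.1 (sv F a))).card
    · simp at hv
    · simp
    · exfalso; push_cast at hv; exact one_ne_zero (show (1 : F) = 0 by linear_combination -hv + h20)
    · simp
    · exfalso; push_cast at hv; exact one_ne_zero (show (1 : F) = 0 by linear_combination -hv + 2 * h20)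
  obtain ⟨a, ha⟩ : ∃ a, (supp (g.1 (sv F a))).card = 3 := by
    by_contra hcon
    push Not at hcon
    refine hgm fun j => ?_
    obtain ⟨i, hi⟩ := Finset.card_eq_one.1 ((hunit j).resolve_right (hcon j))
    refine ⟨i, fun l hl => by_contra fun h => hl ?_⟩
    have := mem_supp.2 h
    rwa [hi, Finset.mem_singleton] at this
  set y := g.1 (sv F a) with hy
  obtain ⟨m, -, hm⟩ := Finset.exists_mem_notMem_of_card_lt_card (s := supp y) (t := Finset.univ)
    (by rw [ha]; simp)
  rw [mem_supp, not_not] at hm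
  obtain ⟨c, hc⟩ : ∃ c, g.1 (sv F c) m ≠ 0 := by
    by_contra hcon
    push Not at hcon
    have h0 : (g⁻¹ : UG 4 F 2).1 (sv F m) = 0 := funext fun x => by
      rw [inv_apply_coord hF, hcon x]; simp
    have := congrArg g.1 h0
    rw [app_inv hF, map_zero] at this
    simpa using congrFun this m
  have hca : c ≠ a := fun e => hc (e ▸ hm)
  set z := g.1 (sv F c) with hz
  set S := (Finset.univ.erase m).filter fun x => y x ≠ 0 ∧ z x ≠ 0
  have hS : S.card ≤ 2 := by
    have hsub : S ⊆ (supp z).erase m := fun x hx => by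
      simp only [S, Finset.mem_filter, Finset.mem_erase] at hx
      exact Finset.mem_erase.2 ⟨hx.1.1, mem_supp.2 hx.2.2⟩
    refine (Finset.card_le_card hsub).trans ?_
    rw [Finset.card_erase_of_mem (mem_supp.2 hc)]
    have := hunit c
    rw [← hz] at this
    omega
  obtain ⟨ζ, hζ0, hζ⟩ := Finset.exists_mem_notMem_of_card_lt_card (s := S.image fun x => -(y x / z x))
    (t := Finset.univ.erase (0 : F)) (by
      refine Finset.card_image_le.trans_lt (hS.trans_lt ?_)
      rw [Finset.card_erase_of_mem (Finset.mem_univ _), Finset.card_univ, card_F hF]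
      norm_num)
  rw [Finset.mem_erase] at hζ0
  set e : Fin 4 → F := sv F a + ζ • sv F c with he
  have he2 : supp e = {a, c} := by
    ext x
    rw [mem_supp, he, Pi.add_apply, Pi.smul_apply, smul_eq_mul, Finset.mem_insert, Finset.mem_singleton]
    rcases eq_or_ne x a with rfl | hxa
    · simp [Pi.single_eq_of_ne (Ne.symm hca)]
    rcases eq_or_ne x c with rfl | hxc
    · simp [Pi.single_eq_of_ne hca, hζ0.1]
    · simp [Pi.single_eq_of_ne hxa, Pi.single_eq_of_ne hxc, hxa, hxc]
  have hee : herm 2 e e = 0 := by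
    rw [hcast, he2, Finset.card_pair (Ne.symm hca)]
    push_cast
    exact h20
  have hw := ctr_map hF (hsupp2 e hee (by rw [he2, Finset.card_pair (Ne.symm hca)])) hg
  set w := g.1 e with hwdef
  have hwv : ∀ x, w x = y x + ζ * z x := fun x => by
    rw [hwdef, he, map_add, map_smul]; simp [hy, hz]
  have hwf : ∀ x, w x ≠ 0 := fun x hx => by
    rw [hwv] at hx
    rcases eq_or_ne x m with rfl | hxm
    · rw [hm, zero_add] at hx
      exact mul_ne_zero hζ0.1 hc hx
    have hyx : y x ≠ 0 := fun h => by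
      have hsub : supp y ⊆ (Finset.univ.erase m).erase x := fun t ht =>
        Finset.mem_erase.2 ⟨fun e => mem_supp.1 ht (e ▸ h),
          Finset.mem_erase.2 ⟨fun e => mem_supp.1 ht (e ▸ hm), Finset.mem_univ _⟩⟩
      have := Finset.card_le_card hsub
      rw [ha, Finset.card_erase_of_mem (Finset.mem_erase.2 ⟨hxm, Finset.mem_univ _⟩),
        Finset.card_erase_of_mem (Finset.mem_univ _), Finset.card_univ, Fintype.card_fin] at this
      omega
    rcases eq_or_ne (z x) 0 with hzx | hzx
    · rw [hzx, mul_zero, add_zero] at hx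
      exact hyx hx
    refine hζ (Finset.mem_image.2 ⟨x, by simp [S, hxm, hyx, hzx], ?_⟩)
    field_simp
    linear_combination -hx
  have four : ∀ v : Fin 4 → F, (∀ x, v x ≠ 0) → v ∈ ctr hF M := by
    intro v hv
    set l₀ : Fin 4 → NU F 2 := fun x => NU.mk (v x / w x) (hN _ (div_ne_zero (hv x) (hwf x)))
    set d := ∏ x, l₀ x with hd
    have hd3 : d ^ 3 = 1 := Subtype.ext (Units.ext (by
      simpa [pow_succ'] using NU.mul_pow_eq d))
    have hl : ∏ x, d⁻¹ * l₀ x = 1 := by
      rw [Finset.prod_mul_distrib, Finset.prod_const, Finset.card_univ, Fintype.card_fin, ← hd, inv_pow,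
        show d ^ 4 = d ^ 3 * d by rw [← pow_succ], hd3, one_mul, inv_mul_cancel]
    have := ctr_dia hF hM (ctr_smul hF hw ((d : Fˣ) : F)) hl
    have hv' : (dia hF fun x => d⁻¹ * l₀ x).1 (((d : Fˣ) : F) • w) = v := funext fun x => by
      rw [dia_apply, Pi.smul_apply, smul_eq_mul, Subgroup.coe_mul, Units.val_mul, Subgroup.coe_inv,
        Units.val_inv_eq_inv_val]
      simp only [l₀, NU.mk_val]
      have := hwf x
      have := NU.ne_zero d
      field_simp
    rwa [hv'] at this
  have hall : ∀ v, herm 2 v v = 0 → v ∈ ctr hF M := fun v hv => by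
    rcases hiso v hv with h | h | h
    · exact ctr_zero_of_small hF hM hw hv (by omega)
    · exact hsupp2 v hv h
    · exact four v fun x => mem_supp.1 (by
        rw [Finset.eq_univ_of_card (supp v) (by simpa using h)]
        exact Finset.mem_univ x)
  rw [SUG_eq_TG hF (by norm_num) (by omega), TG, Subgroup.closure_le]
  rintro p ⟨e', s, hes, hp⟩
  rw [mem_TG_generator hF hes hp]
  exact (hall e' hes.1).2 _ _

/-- An overgroup with a non-monomial element contains the special unitary group. -/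
theorem SUG_le_of_not_mon (hq : q ≠ 3) {g : UG 4 F q} (hg : g ∈ M) (hgm : ¬ MonU g) :
    SUG 4 F q ≤ M := by
  by_cases hq2 : q = 2
  · exact SUG_le_two hF hM hq2 hg hgm
  have hq4 : 4 ≤ q := by have := hF.one_lt; omega
  by_cases hN : ∀ g ∈ M, ∀ k, ∀ s : F, g.1 (sv F k) = s • sv F k → MonU g
  · exact absurd (eq_mon_four hF (NoFix.mk hM hN) hq4 g hg) hgm
  push Not at hN
  obtain ⟨g₂, hg₂, k, s, hs, hm⟩ := hN
  exact SUG_le_of_fix hF hM (by omega) hg₂ hm hs

end

/-- Stabilisers of orthonormal frames are maximal. -/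
theorem suGL_frame_maximal (hq : q ≠ 3) {D : Fin 4 → Submodule F (Fin 4 → F)}
    (hD : IsNondegenerateMDecomposition (Cfsg.hermForm 4 F q) 1 D) :
    IsMaximalIn (suGL 4 F q) (decompositionStabilizer D ⊓ suGL 4 F q) := by
  classical
  obtain ⟨e, P, he⟩ := exists_frame_iso hF hD
  refine ⟨lt_of_le_not_ge inf_le_right fun hle => suGL_not_le_frameStabilizer hF (by norm_num)
    (by omega) hD rfl (hle.trans inf_le_left), fun M hM hMK => ?_⟩
  by_cases hMD : M ≤ decompositionStabilizer D
  · exact Or.inl (le_antisymm (le_inf hMD hMK) hM)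
  refine Or.inr (le_antisymm hMK ?_)
  set M' := M.comap (ugToGL 4 F q) with hM'
  suffices hS : SUG 4 F q ≤ M' by
    intro g hg
    obtain ⟨k, hk, rfl⟩ := exists_ugToGL_eq hg
    exact hS hk
  set c : UG 4 F q →* UG 4 F q := (MulAut.conj P).toMonoidHom
  set M'' := M'.comap c
  have hperm : ∀ g : UG 4 F q, MonU g →
      ugToGL 4 F q (P * g * P⁻¹) ∈ decompositionStabilizer D := by
    intro g hgm
    refine mem_stabilizer_of_forall_mem hD.decomp fun i x hx => ?_
    obtain ⟨a, rfl⟩ := e.surjective i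
    rw [he] at hx
    obtain ⟨s, rfl⟩ := Submodule.mem_span_singleton.1 hx
    obtain ⟨j, hj⟩ := hgm a
    refine ⟨e j, ?_⟩
    have hga : g.1 (sv F a) = g.1 (sv F a) j • sv F j := funext fun l => by
      rcases eq_or_ne l j with rfl | hl
      · simp
      · simp [hj l hl, Pi.single_eq_of_ne hl]
    rw [ugToGL_mulVec, map_smul]
    refine Submodule.smul_mem _ _ ?_
    show P.1 (g.1 ((P⁻¹ : UG 4 F q).1 (P.1 (sv F a)))) ∈ D (e j)
    rw [inv_app hF, hga, map_smul, he]
    exact Submodule.smul_mem _ _ (Submodule.mem_span_singleton_self _)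
  have hmono : ∀ g ∈ SUG 4 F q, MonU g → g ∈ M'' := fun g hg hgm =>
    hM ⟨hperm g hgm, ugToGL_mem_suGL ((SUG_normal).conj_mem g hg P)⟩
  obtain ⟨g1, hg1M, hg1D⟩ := SetLike.not_le_iff_exists.1 hMD
  obtain ⟨g, -, rfl⟩ := exists_ugToGL_eq (hMK hg1M)
  set g0 := P⁻¹ * g * P
  have hgP : P * g0 * P⁻¹ = g := by simp [g0, mul_assoc]
  have hg0 : g0 ∈ M'' := by
    show P * g0 * P⁻¹ ∈ M'
    rw [hgP]
    exact hg1M
  have hg0m : ¬ MonU g0 := fun hm => hg1D (hgP ▸ hperm g0 hm)
  have hS'' : SUG 4 F q ≤ M'' := SUG_le_of_not_mon hF hmono hq hg0 hg0m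
  intro g hg
  have hconj : P⁻¹ * g * P ∈ SUG 4 F q := by
    have := (SUG_normal).conj_mem g hg P⁻¹
    rwa [inv_inv] at this
  have h := hS'' hconj
  change P * (P⁻¹ * g * P) * P⁻¹ ∈ M' at h
  rwa [show P * (P⁻¹ * g * P) * P⁻¹ = g by group] at h

end Cfsg.Agent.SU4
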