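import Cfsg.Agent.DecompMax.UnitPlane
import Cfsg.Agent.DecompMax.UnitInvol
import Cfsg.Agent.DecompMax.UnitDvd

/-!
Four-dimensional unitary groups over more than nine elements: an overgroup of the monomial special
unitary group in which only monomial elements fix a frame line is monomial.
-/

set_option autoImplicit false
set_option linter.style.haveILetI false
set_option linter.unusedSectionVars false

namespace Cfsg.Agent.SU4

open Matrix Cfsg.Geo Module Cfsg.Agent.Classical.U Cfsg.Agent.DecompMax.UCount Cfsg.Agent.DecompMax.UN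
open Cfsg.Agent.DecompMax.UF
open scoped MatrixGroups Matrix

universe u

theorem others_four (b c : Fin 4) (h : b ≠ c) :
    ∃ i d, i ≠ d ∧ i ≠ b ∧ i ≠ c ∧ d ≠ b ∧ d ≠ c ∧ ∀ z, z = b ∨ z = c ∨ z = i ∨ z = d := by
  revert b c; decide

variable {F : Type u} [Field F] {q : ℕ} (hF : SqField F q)
include hF

theorem conj_pair_apply {n : ℕ} (g : UG n F q) {i j : Fin n} (hij : i ≠ j) (μ : NU F q) (u : Fin n → F) :
    (g * dia hF (pairFun i j μ) * g⁻¹).1 u =
      u + ((((μ : Fˣ) : F) - 1) * herm q u (g.1 (sv F i))) • g.1 (sv F i) +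
        (((((μ⁻¹ : NU F q) : Fˣ) : F) - 1) * herm q u (g.1 (sv F j))) • g.1 (sv F j) := by
  have hz : ∀ z, (g⁻¹ : UG n F q).1 u z = herm q u (g.1 (sv F z)) := fun z => by
    rw [← herm_sv hF ((g⁻¹ : UG n F q).1 u) z, ← UG_app g ((g⁻¹ : UG n F q).1 u) (sv F z), app_inv hF]
  have e := congrArg g.1 (eq_add_of_sub_eq (dia_pair_sub hF i j hij μ ((g⁻¹ : UG n F q).1 u)))
  rw [map_add, map_add, map_smul, map_smul, app_inv hF, hz, hz] at e
  simp only [Subgroup.coe_mul, LinearEquiv.mul_apply]
  rw [e]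
  abel

theorem inv_val (μ : NU F q) : (((μ⁻¹ : NU F q) : Fˣ) : F) = ((μ : Fˣ) : F) ^ q := by
  rw [Subgroup.coe_inv, Units.val_inv_eq_inv_val]
  exact inv_eq_of_mul_eq_one_right (NU.mul_pow_eq μ)

theorem exists_pow_four_ne (hq : 4 ≤ q) : ∃ μ : NU F q, ((μ : Fˣ) : F) ^ 4 ≠ 1 := by
  obtain ⟨μ, hμ⟩ := exists_NU_order hF
  refine ⟨μ, fun h => ?_⟩
  have h1 : μ ^ 4 = 1 := Subtype.ext (Units.ext (by simpa using h))
  have := Nat.le_of_dvd (by norm_num) (orderOf_dvd_of_pow_eq_one h1)
  omega

variable {M : Subgroup (UG 4 F q)} (H : NoFix M)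
include H

/-- A column has at most one zero entry. -/
theorem two_zeros_four {g : UG 4 F q} (hg : g ∈ M) (hgm : ¬ MonU g) (hq : 4 ≤ q) {k b b' : Fin 4}
    (hbb : b ≠ b') (hb : g.1 (sv F k) b = 0) (hb' : g.1 (sv F k) b' = 0) : False := by
  classical
  obtain ⟨i, j, hij, h1, h2⟩ := H.pair_rows hF hg hgm (by omega) hbb hb hb'
  obtain ⟨x, y, hxy, hxi, hxj, hyi, hyj, -⟩ := others_four i j hij
  obtain ⟨c, c', hcc, hcb, hcb', hc'b, hc'b', hcov⟩ := others_four b b' hbb
  have hz : ∀ {z z' : Fin 4}, (g⁻¹ : UG 4 F q).1 (sv F z') z = 0 → g.1 (sv F z) z' = 0 := fun {z z'} h => by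
    rw [inv_apply_coord hF] at h
    exact (pow_eq_zero_iff hF.q_ne_zero).1 h
  set v := g.1 (sv F x) with hv
  set w := g.1 (sv F y) with hw
  have hvb : v b = 0 := hz (h1 x hxi hxj)
  have hvb' : v b' = 0 := hz (h2 x hxi hxj)
  have hwb : w b = 0 := hz (h1 y hyi hyj)
  have hwb' : w b' = 0 := hz (h2 y hyi hyj)
  have hsub : ∀ {u : Fin 4 → F}, u b = 0 → u b' = 0 → supp u ⊆ {c, c'} := fun {u} e e' z hz => by
    rcases hcov z with rfl | rfl | rfl | rfl
    · exact absurd e (mem_supp.1 hz)
    · exact absurd e' (mem_supp.1 hz)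
    all_goals simp
  have hne : ∀ {z z' : Fin 4}, z = c ∧ z' = c' ∨ z = c' ∧ z' = c → v z ≠ 0 := by
    intro z z' hzz e
    refine hgm (H.single hF hg (k := x) (j := z') (c := v z') (funext fun p => ?_))
    show v p = _
    rcases eq_or_ne p z' with rfl | hp
    · simp
    · rw [Pi.smul_apply, show sv F z' p = 0 from Pi.single_eq_of_ne hp _, smul_zero]
      by_contra hvp
      have := hsub hvb hvb' (mem_supp.2 hvp)
      simp only [Finset.mem_insert, Finset.mem_singleton] at this
      rcases hzz with ⟨rfl, rfl⟩ | ⟨rfl, rfl⟩ <;> rcases this with rfl | rfl <;>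
        first | exact hvp e | exact hp rfl
  have hvc : v c ≠ 0 := hne (Or.inl ⟨rfl, rfl⟩)
  have hvc' : v c' ≠ 0 := hne (Or.inr ⟨rfl, rfl⟩)
  have e1 : v c * v c ^ q + v c' * v c' ^ q = 1 := by
    rw [← Finset.sum_pair hcc (f := fun z => v z * v z ^ q), ← herm_of_supp hF (hsub hvb hvb'), hv,
      UG_app, herm_sv hF]
    simp
  have e2 : w c * w c ^ q + w c' * w c' ^ q = 1 := by
    rw [← Finset.sum_pair hcc (f := fun z => w z * w z ^ q), ← herm_of_supp hF (hsub hwb hwb'), hw,
      UG_app, herm_sv hF]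
    simp
  have e3 : w c * v c ^ q + w c' * v c' ^ q = 0 := by
    rw [← Finset.sum_pair hcc (f := fun z => w z * v z ^ q), ← herm_of_supp hF (hsub hwb hwb'), hw, hv,
      UG_app, herm_sv hF]
    exact Pi.single_eq_of_ne hxy _
  have e4 : v c * w c ^ q + v c' * w c' ^ q = 0 := by
    rw [← Finset.sum_pair hcc (f := fun z => v z * w z ^ q), ← herm_of_supp hF (hsub hvb hvb'), hw, hv,
      UG_app, herm_sv hF]
    exact Pi.single_eq_of_ne (Ne.symm hxy) _
  set Nv := v c * v c ^ q with hNv
  set Nw := w c * w c ^ q with hNw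
  have hsum : Nv + Nw = 1 := by
    linear_combination (v c * w c ^ q) * e3 - (w c' * v c' ^ q) * e4 + (w c' * w c' ^ q) * e1 +
      (1 - Nv) * e2
  have hX : v c ^ q * v c' + w c ^ q * w c' = 0 := by
    refine (mul_eq_zero.1 (show v c' ^ q * (v c ^ q * v c' + w c ^ q * w c') = 0 by
      linear_combination v c ^ q * e1 + w c ^ q * e3 - v c ^ q * hsum)).resolve_left (pow_ne_zero _ hvc')
  obtain ⟨μ, hμ⟩ := exists_pow_four_ne hF hq
  set ν := ((μ : Fˣ) : F) with hν
  have hνν : ν * ν ^ q = 1 := NU.mul_pow_eq μ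
  set d := g * dia hF (pairFun x y μ) * g⁻¹ with hd
  have hdM : d ∈ M := mul_mem (mul_mem hg (H.dia_pair_mem hF hxy μ)) (inv_mem hg)
  have hdb : d.1 (sv F b) = (1 : F) • sv F b := by
    rw [hd, conj_pair_apply hF g hxy, herm_one_single, herm_one_single, ← hv, ← hw, hvb, hwb,
      zero_pow hF.q_ne_zero]
    simp
  obtain ⟨p, hp⟩ := H.nofix d hdM b 1 hdb c
  have hcol : d.1 (sv F c) = sv F c + ((ν - 1) * v c ^ q) • v + ((ν ^ q - 1) * w c ^ q) • w := by
    rw [hd, conj_pair_apply hF g hxy, herm_one_single, herm_one_single, inv_val hF]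
  by_cases hpc : p = c'
  · have h := hp c (hpc ▸ hcc)
    rw [hcol] at h
    simp only [Pi.add_apply, Pi.smul_apply, smul_eq_mul, sv, Pi.single_eq_same] at h
    have h5 : Nv * (ν ^ 2 - 1) + 1 = 0 := by
      linear_combination ν * h + (1 - ν ^ q) * ν * hsum + (Nv - 1) * hνν
    have h6 : Nv * ((ν ^ q) ^ 2 - 1) + 1 = 0 := by
      have := congrArg (· ^ q) h5
      rw [zero_pow hF.q_ne_zero] at this
      simp only [hF.add_pow, mul_pow, one_pow, hF.sub_pow] at this
      rw [show (Nv) ^ q = Nv from DecompMax.UF.norm_fixed hF _] at this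
      linear_combination this
    have h7 : Nv * (ν ^ 4 - 1) = 0 := by
      linear_combination ν ^ 2 * h5 - ν ^ 2 * h6 + Nv * (ν * ν ^ q + 1) * hνν
    rcases mul_eq_zero.1 h7 with h | h
    · rw [h] at h5; simp at h5
    · exact hμ (sub_eq_zero.1 h)
  · have h := hp c' (Ne.symm hpc)
    rw [hcol] at h
    simp only [Pi.add_apply, Pi.smul_apply, smul_eq_mul, show sv F c c' = 0 from
      Pi.single_eq_of_ne (Ne.symm hcc) _, zero_add] at h
    have h5 : (ν - ν ^ q) * (v c ^ q * v c') = 0 := by linear_combination h - (ν ^ q - 1) * hX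
    rcases mul_eq_zero.1 h5 with h6 | h6
    · apply hμ
      linear_combination (ν ^ 2 + 1) * ν * h6 + (ν ^ 2 + 1) * hνν
    · exact mul_ne_zero (pow_ne_zero _ hvc) hvc' h6

/-- No column has a zero entry when a scaling of one coordinate lies in the group. -/
theorem full_of_rf_four (hq : 4 ≤ q) {ω : NU F q} (hω : ω ≠ 1) (hr : ∀ b, rf hF b ω ∈ M)
    {g : UG 4 F q} (hg : g ∈ M) (hgm : ¬ MonU g) (k b : Fin 4) : g.1 (sv F k) b ≠ 0 := by
  classical
  intro hb
  have hgm' : ¬ MonU (g⁻¹ : UG 4 F q) := fun h => hgm (by simpa using h.inv' hF)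
  set m := (g⁻¹ : UG 4 F q) * rf hF b ω * g
  have hmM : m ∈ M := mul_mem (mul_mem (inv_mem hg) (hr b)) hg
  set r := (g⁻¹ : UG 4 F q).1 (sv F b)
  have hmv : ∀ v, m.1 v = v + ((((ω : Fˣ) : F) - 1) * herm q v r) • r := fun v => by
    have := conj_rf_apply hF (g⁻¹) b ω v
    rwa [inv_inv] at this
  have hkr : herm q (sv F k) r = 0 := by
    rw [herm_one_single, show r k = _ from inv_apply_coord hF g k b, hb]
    simp [hF.q_ne_zero]
  have hm : MonU m := H.nofix m hmM k 1 (by rw [one_smul, hmv, hkr]; simp)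
  have hrr : herm q r r = 1 := by rw [UG_app, herm_sv hF]; simp
  have h2 : (supp r).card ≤ 2 := hm.supp_le_two hF hmv (v := r) (by
    rw [hrr, mul_one]
    exact sub_ne_zero.2 fun e => hω (Subtype.ext (Units.ext e)))
  obtain ⟨x, y, hx, hy, hxy⟩ := Finset.one_lt_card_iff.1
    (show 1 < (supp r)ᶜ.card by rw [Finset.card_compl, Fintype.card_fin]; omega)
  simp only [Finset.mem_compl, mem_supp, not_not] at hx hy
  exact two_zeros_four hF H (inv_mem hg) hgm' hq hxy hx hy

set_option maxHeartbeats 1000000 in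
/-- In a column, the norms agree on a pair of coordinates or on the complementary pair. -/
theorem pair_norm_four (hq : 4 ≤ q) (h2 : (2 : F) ≠ 0) (hr : ∀ b, rf hF b (NU.negOne hF) ∈ M)
    {g : UG 4 F q} (hg : g ∈ M) (hgm : ¬ MonU g) (k : Fin 4) {b c i d : Fin 4} (hbc : b ≠ c)
    (hcov : ∀ z, z = b ∨ z = c ∨ z = i ∨ z = d) :
    g.1 (sv F k) b * g.1 (sv F k) b ^ q = g.1 (sv F k) c * g.1 (sv F k) c ^ q ∨
      g.1 (sv F k) i * g.1 (sv F k) i ^ q = g.1 (sv F k) d * g.1 (sv F k) d ^ q := by
  classical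
  haveI : Finite F := hF.1
  haveI : Finite (UG 4 F q) := Finite.of_injective (fun g => (g.1 : (Fin 4 → F) → (Fin 4 → F)))
    fun g g' e => Subtype.ext (LinearEquiv.ext fun w => congrFun e w)
  have hne : NU.negOne hF ≠ 1 := fun e => h2 (by
    have := congrArg (fun x : NU F q => ((x : Fˣ) : F)) e
    have h : (-1 : F) = 1 := by simpa [NU.negOne] using this
    linear_combination -h)
  have hfull := fun {g : UG 4 F q} (hg : g ∈ M) (hgm : ¬ MonU g) => full_of_rf_four hF H hq hne hr hg hgm
  have h2' : (-2 : F) ≠ 0 := neg_ne_zero.2 h2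
  set v := g.1 (sv F k)
  have hv0 : ∀ i, v i ≠ 0 := hfull hg hgm k
  have hvv : herm q v v = 1 := by rw [UG_app, herm_sv hF]; simp
  set t := dia hF (pairFun b c (NU.negOne hF))
  set r := g * rf hF k (NU.negOne hF) * g⁻¹
  have htM : t ∈ M := H.dia_pair_mem hF hbc _
  have hrM : r ∈ M := mul_mem (mul_mem hg (hr k)) (inv_mem hg)
  have h1v : (((NU.negOne hF : NU F q) : Fˣ) : F) = -1 := rfl
  have ht : ∀ w, t.1 w = w + ((-2 : F) * w b) • sv F b + ((-2 : F) * w c) • sv F c := fun w => by
    have e := dia_pair_sub hF b c hbc (NU.negOne hF) w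
    have h1' : ((((NU.negOne hF)⁻¹ : NU F q) : Fˣ) : F) = -1 := by
      rw [Subgroup.coe_inv, Units.val_inv_eq_inv_val, h1v]; simp
    rw [h1v, h1'] at e
    rw [eq_add_of_sub_eq e]
    module
  have hrv : ∀ w, r.1 w = w + ((-2 : F) * herm q w v) • v := fun w => by
    rw [conj_rf_apply]
    show w + (((-1 : F) - 1) * herm q w v) • v = _
    norm_num
  have htt : t * t = 1 := eq_of_apply_single fun j => by
    rw [Subgroup.coe_mul, LinearEquiv.mul_apply, ht, ht (sv F j)]
    show _ = sv F j
    simp only [Pi.add_apply, Pi.smul_apply, smul_eq_mul, sv, Pi.single_eq_same,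
      Pi.single_eq_of_ne hbc, Pi.single_eq_of_ne (Ne.symm hbc)]
    module
  have hrr : r * r = 1 := eq_of_apply_single fun j => by
    rw [Subgroup.coe_mul, LinearEquiv.mul_apply, hrv, hrv (sv F j), herm_add_left, herm_smul_left, hvv]
    show _ = sv F j
    module
  -- the product has even order, by determinants
  set y := t * r
  have heven : Even (orderOf y) := by
    have e1 : ((LinearEquiv.det t.1 : Fˣ) : F) = 1 := by
      rw [show t = DecompMax.UF.mon hF 1 (pairFun b c (NU.negOne hF)) from rfl, det_mon, ← NU.coe_prod,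
        prod_pairFun hbc]
      simp
    have e2 : ((LinearEquiv.det r.1 : Fˣ) : F) = -1 := by
      have : ((LinearEquiv.det (rf hF k (NU.negOne hF)).1 : Fˣ) : F) = -1 := by
        rw [rf, dia, det_mon, Finset.prod_eq_single k (fun j _ hj => by
          rw [Function.update_of_ne hj]; simp) (by simp), Function.update_self]
        simp [NU.negOne]
      simp only [r, Subgroup.coe_mul, map_mul, Subgroup.coe_inv, map_inv, Units.val_mul]
      rw [this, Units.val_inv_eq_inv_val]
      have := Units.ne_zero (LinearEquiv.det g.1)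
      field_simp
    have e3 := congrArg (fun p : UG 4 F q => ((LinearEquiv.det p.1 : Fˣ) : F)) (pow_orderOf_eq_one y)
    simp only [y, Subgroup.coe_pow, Subgroup.coe_mul, map_pow, map_mul, Units.val_pow_eq_pow_val,
      Units.val_mul, e1, e2, one_mul, Subgroup.coe_one, map_one, Units.val_one] at e3
    rcases Nat.even_or_odd (orderOf y) with h | h
    · exact h
    · rw [h.neg_one_pow] at e3
      exact absurd (show (2 : F) = 0 by linear_combination -e3) h2
  obtain ⟨m, hm⟩ := heven
  have hy1 : y ≠ 1 := fun e => by rw [e, orderOf_one] at hm; omega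
  have hm0 : 0 < m := by have := orderOf_pos y; omega
  set z := y ^ m
  have hzM : z ∈ M := pow_mem (mul_mem htM hrM) m
  have hzz : z * z = 1 := by rw [← pow_add, ← hm, pow_orderOf_eq_one]
  have hz1 : z ≠ 1 := fun e => by
    have := Nat.le_of_dvd hm0 (orderOf_dvd_of_pow_eq_one e)
    omega
  have hinv : z⁻¹ = z := inv_eq_of_mul_eq_one_left hzz
  have hyt : t * y * t⁻¹ = y⁻¹ := by
    rw [inv_eq_of_mul_eq_one_left htt]
    refine eq_inv_of_mul_eq_one_left ?_
    simp only [y]
    rw [show t * (t * r) * t * (t * r) = t * t * r * (t * t) * r by group, htt]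
    simpa using hrr
  have htz : t * z = z * t := by
    have := (conj_pow (i := m) (a := t) (b := y)).symm
    rw [hyt, inv_pow, hinv] at this
    calc t * z = t * y ^ m * t⁻¹ * t := by rw [inv_mul_cancel_right]
      _ = z * t := by rw [this]
  have hrz : r * z = z * r := by
    have hyr : r * y * r⁻¹ = y⁻¹ := by
      rw [inv_eq_of_mul_eq_one_left hrr]
      refine eq_inv_of_mul_eq_one_left ?_
      simp only [y]
      rw [show r * (t * r) * r * (t * r) = r * (t * (r * r) * t) * r by group, hrr, mul_one, htt, mul_one]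
      exact hrr
    have := (conj_pow (i := m) (a := r) (b := y)).symm
    rw [hyr, inv_pow, hinv] at this
    calc r * z = r * y ^ m * r⁻¹ * r := by rw [inv_mul_cancel_right]
      _ = z * r := by rw [this]
  -- the involution lives on the three vectors
  set W := Submodule.span F ({sv F b, sv F c, v} : Set (Fin 4 → F)) with hWdef
  have hW : ∀ p ∈ Subgroup.closure ({t, r} : Set (UG 4 F q)), ∀ w, p.1 w - w ∈ W := by
    intro p hp
    have hsb : sv F b ∈ W := Submodule.subset_span (by simp)
    have hsc : sv F c ∈ W := Submodule.subset_span (by simp)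
    have hsv : v ∈ W := Submodule.subset_span (by simp)
    induction hp using Subgroup.closure_induction with
    | mem a ha =>
      intro w
      simp only [Set.mem_insert_iff, Set.mem_singleton_iff] at ha
      rcases ha with rfl | rfl
      · rw [ht, add_assoc, add_sub_cancel_left]; exact W.add_mem (W.smul_mem _ hsb) (W.smul_mem _ hsc)
      · rw [hrv, add_sub_cancel_left]; exact W.smul_mem _ hsv
    | one => intro w; simp
    | mul a d _ _ ha hd =>
      intro w
      rw [Subgroup.coe_mul, LinearEquiv.mul_apply]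
      simpa using W.add_mem (ha (d.1 w)) (hd w)
    | inv a _ ha =>
      intro w
      have := W.neg_mem (ha ((a⁻¹ : UG 4 F q).1 w))
      rw [app_inv hF, neg_sub] at this
      exact this
  have hzW := hW z (pow_mem (mul_mem (Subgroup.subset_closure (by simp)) (Subgroup.subset_closure (by simp))) m)
  have hout : ∀ x, x = b ∨ x = c → ∀ j, j ≠ b → j ≠ c → z.1 (sv F x) j = 0 := fun x hx j hjb hjc => by
    have e := congrArg (fun p : UG 4 F q => p.1 (sv F x) j) htz
    simp only [Subgroup.coe_mul, LinearEquiv.mul_apply] at e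
    rw [ht, ht] at e
    rcases hx with rfl | rfl
    · simp [Pi.single_eq_of_ne hjb, Pi.single_eq_of_ne hjc, Pi.single_eq_of_ne (Ne.symm hbc), map_add] at e
      exact e.resolve_left h2
    · simp [Pi.single_eq_of_ne hjb, Pi.single_eq_of_ne hjc, Pi.single_eq_of_ne hbc, map_add] at e
      exact e.resolve_left h2
  have hzm : MonU z := by
    by_contra hzm
    obtain ⟨j, -, hj⟩ := Finset.exists_mem_notMem_of_card_lt_card (s := ({b, c} : Finset (Fin 4)))
      (t := Finset.univ) (Finset.card_le_two.trans_lt (by simp))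
    simp only [Finset.mem_insert, Finset.mem_singleton, not_or] at hj
    exact hfull hzM hzm b j (hout b (Or.inl rfl) j hj.1 hj.2)
  obtain ⟨π, l, hzl⟩ := hzm.exists_eq hF
  -- the column is an eigenvector
  have hzv : z.1 v = herm q (z.1 v) v • v := by
    have h := congrArg (fun p : UG 4 F q => p.1 v) hrz
    simp only [Subgroup.coe_mul, LinearEquiv.mul_apply, hrv, map_add, map_smul] at h
    rw [add_right_inj, hvv, mul_one, ← smul_smul] at h
    exact (smul_right_injective (Fin 4 → F) h2' h).symm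
  set lam := herm q (z.1 v) v with hlam
  have hll : lam * lam ^ q = 1 := by
    have h := UG_app z v v
    rw [hzv, herm_smul_left, herm_smul_right, hvv, mul_one] at h
    exact h
  have hcoord : ∀ x, lam * v (π x) = ((l x : Fˣ) : F) * v x := fun x => by
    rw [← mon_apply hF π l v x, ← hzl, hzv, Pi.smul_apply, smul_eq_mul]
  have hnorm : ∀ x, v (π x) * v (π x) ^ q = v x * v x ^ q := fun x => by
    have h := congrArg (fun a => a * a ^ q) (hcoord x)
    simp only [mul_pow] at h
    linear_combination h - (v (π x) * v (π x) ^ q) * hll + (v x * v x ^ q) * NU.mul_pow_eq (l x)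
  have hmap : ∀ x, x = b ∨ x = c → π x = b ∨ π x = c := fun x hx => by
    by_contra hcon
    push Not at hcon
    have := hout x hx (π x) hcon.1 hcon.2
    rw [hzl, mon_sv] at this
    simp [NU.ne_zero] at this
  rcases hmap b (Or.inl rfl) with hb | hb
  swap
  · exact Or.inl (by have := hnorm b; rw [hb] at this; exact this.symm)
  have hc : π c = c := (hmap c (Or.inr rfl)).resolve_left fun e => hbc (π.injective (hb.trans e.symm))
  by_cases hi : π i = i
  · exfalso
    have hπ : ∀ x, π x = x := by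
      intro x
      rcases hcov x with h | h | h | h <;> subst h
      · exact hb
      · exact hc
      · exact hi
      · rcases hcov (π x) with h | h | h | h
        · exact h.trans (π.injective (h.trans hb.symm)).symm
        · exact h.trans (π.injective (h.trans hc.symm)).symm
        · exact h.trans (π.injective (h.trans hi.symm)).symm
        · exact h
    have hl : ∀ x, ((l x : Fˣ) : F) = lam := fun x => by
      have := hcoord x
      rw [hπ] at this
      exact (mul_right_cancel₀ (hv0 x) this).symm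
    have hsc : ∀ u, z.1 u = lam • u := fun u => funext fun x => by
      have := mon_apply hF π l u x
      rw [hπ, hl, ← hzl] at this
      exact this
    rcases eq_or_ne lam 1 with h1 | h1
    · refine hz1 (eq_of_apply_single fun x => ?_)
      rw [hsc, h1, one_smul]; rfl
    · have htop : W = ⊤ := by
        rw [eq_top_iff]
        intro u _
        have := W.smul_mem (lam - 1)⁻¹ (hzW u)
        rwa [hsc, show lam • u - u = (lam - 1) • u by module,
          inv_smul_smul₀ (sub_ne_zero.2 h1)] at this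
      have h3 : finrank F W ≤ 3 := by
        have h := finrank_span_finset_le_card (R := F) ({sv F b, sv F c, v} : Finset (Fin 4 → F))
        simp only [Finset.coe_insert, Finset.coe_singleton] at h
        exact h.trans Finset.card_le_three
      rw [htop, finrank_top, finrank_fin_fun] at h3
      omega
  · refine Or.inr ?_
    have hid : π i = d := by
      rcases hcov (π i) with h | h | h | h
      · exact absurd (h.trans (π.injective (h.trans hb.symm)).symm) hi
      · exact absurd (h.trans (π.injective (h.trans hc.symm)).symm) hi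
      · exact absurd h hi
      · exact h
    have := hnorm i
    rw [hid] at this
    exact this.symm

/-- All entries have norm one quarter. -/
theorem quarter (hq : 4 ≤ q) (h2 : (2 : F) ≠ 0) (hr : ∀ b, rf hF b (NU.negOne hF) ∈ M)
    {g : UG 4 F q} (hg : g ∈ M) (hgm : ¬ MonU g) (k y : Fin 4) :
    4 * (g.1 (sv F k) y * g.1 (sv F k) y ^ q) = 1 := by
  classical
  have hne : NU.negOne hF ≠ 1 := fun e => h2 (by
    have := congrArg (fun x : NU F q => ((x : Fˣ) : F)) e
    have h : (-1 : F) = 1 := by simpa [NU.negOne] using this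
    linear_combination -h)
  have hfull := fun {g : UG 4 F q} (hg : g ∈ M) (hgm : ¬ MonU g) => full_of_rf_four hF H hq hne hr hg hgm
  have three : ∀ {g : UG 4 F q}, g ∈ M → ¬ MonU g → ∀ k : Fin 4, ∃ d : Fin 4, ∀ y z, y ≠ d → z ≠ d →
      g.1 (sv F k) y * g.1 (sv F k) y ^ q = g.1 (sv F k) z * g.1 (sv F k) z ^ q := by
    intro g hg hgm k
    have a := pair_norm_four hF H hq h2 hr hg hgm k (b := 0) (c := 1) (i := 2) (d := 3) (by decide) (by decide)
    have a' := pair_norm_four hF H hq h2 hr hg hgm k (b := 0) (c := 2) (i := 1) (d := 3) (by decide) (by decide)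
    have a'' := pair_norm_four hF H hq h2 hr hg hgm k (b := 0) (c := 3) (i := 1) (d := 2) (by decide) (by decide)
    generalize (fun x : Fin 4 => g.1 (sv F k) x * g.1 (sv F k) x ^ q) = N at a a' a'' ⊢
    have key : ∀ (d p : Fin 4), (∀ x, x ≠ d → g.1 (sv F k) x * g.1 (sv F k) x ^ q =
        g.1 (sv F k) p * g.1 (sv F k) p ^ q) → ∃ d : Fin 4, ∀ y z, y ≠ d → z ≠ d →
        g.1 (sv F k) y * g.1 (sv F k) y ^ q = g.1 (sv F k) z * g.1 (sv F k) z ^ q :=
      fun d p h => ⟨d, fun y z hy hz => (h y hy).trans (h z hz).symm⟩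
    rcases a with a | a <;> rcases a' with a' | a' <;> rcases a'' with a'' | a''
    · exact key 3 0 fun x hx => by fin_cases x <;> simp_all
    · exact key 3 0 fun x hx => by fin_cases x <;> simp_all
    · exact key 2 0 fun x hx => by fin_cases x <;> simp_all
    · exact key 0 1 fun x hx => by fin_cases x <;> simp_all
    · exact key 1 0 fun x hx => by fin_cases x <;> simp_all
    · exact key 0 2 fun x hx => by fin_cases x <;> simp_all
    · exact key 0 3 fun x hx => by fin_cases x <;> simp_all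
    · exact key 0 1 fun x hx => by fin_cases x <;> simp_all
  obtain ⟨d, hd⟩ := three hg hgm k
  set v := g.1 (sv F k) with hv
  have hv0 : ∀ i, v i ≠ 0 := hfull hg hgm k
  obtain ⟨a, -, had⟩ := Finset.exists_mem_notMem_of_card_lt_card (s := ({d} : Finset (Fin 4)))
    (t := Finset.univ) (by simp)
  rw [Finset.mem_singleton] at had
  set A := v a * v a ^ q with hA
  set B := v d * v d ^ q with hB
  have hAB : ∀ x, x ≠ d → v x * v x ^ q = A := fun x hx => hd x a hx had
  have hsum : 3 * A + B = 1 := by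
    have h : herm q v v = 1 := by rw [hv, UG_app, herm_sv hF]; simp
    rw [herm_def, ← Finset.sum_erase_add _ _ (Finset.mem_univ d),
      Finset.sum_congr rfl (fun x hx => hAB x (Finset.ne_of_mem_erase hx)), Finset.sum_const,
      Finset.card_erase_of_mem (Finset.mem_univ _), Finset.card_univ, Fintype.card_fin] at h
    simpa using h
  set r := g * rf hF k (NU.negOne hF) * g⁻¹ with hrdef
  have hrv : ∀ w, r.1 w = w + ((-2 : F) * herm q w v) • v := fun w => by
    rw [hrdef, conj_rf_apply, ← hv]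
    show w + (((-1 : F) - 1) * herm q w v) • v = _
    norm_num
  have hrm : ¬ MonU r := fun hm => by
    have h3 := hm.supp_le_two hF hrv (v := v) (by
      rw [hv, UG_app, herm_sv hF]; simpa using h2)
    rw [show supp v = Finset.univ from Finset.eq_univ_of_forall fun x => mem_supp.2 (hv0 x),
      Finset.card_univ, Fintype.card_fin] at h3
    omega
  obtain ⟨d', hd'⟩ := three (mul_mem (mul_mem hg (hr k)) (inv_mem hg)) hrm a
  have hR : ∀ x, x ≠ a → r.1 (sv F a) x * r.1 (sv F a) x ^ q = 4 * A * (v x * v x ^ q) := fun x hx => by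
    rw [hrv, herm_one_single, Pi.add_apply, show sv F a x = 0 from Pi.single_eq_of_ne hx _, zero_add,
      Pi.smul_apply, smul_eq_mul, mul_pow, mul_pow, hF.pow_pow, hF.neg_pow,
      show (2 : F) = 1 + 1 by norm_num, hF.add_pow, one_pow, hA]
    ring
  have hAq : A ^ q = A := DecompMax.UF.norm_fixed hF _
  have hRa : r.1 (sv F a) a * r.1 (sv F a) a ^ q = (1 - 2 * A) * (1 - 2 * A) := by
    rw [hrv, herm_one_single, Pi.add_apply, show sv F a a = 1 from Pi.single_eq_same a 1,
      Pi.smul_apply, smul_eq_mul, show (1 : F) + -2 * v a ^ q * v a = 1 - (1 + 1) * A by rw [hA]; ring,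
      hF.sub_pow, mul_pow, hF.add_pow, one_pow, hAq]
    ring
  have hA0 : A ≠ 0 := mul_ne_zero (hv0 a) (pow_ne_zero _ (hv0 a))
  have h4 : (4 : F) ≠ 0 := by
    rw [show (4 : F) = 2 * 2 by norm_num]; exact mul_ne_zero h2 h2
  obtain ⟨p, -, hp⟩ := Finset.exists_mem_notMem_of_card_lt_card (s := ({d, a, d'} : Finset (Fin 4)))
    (t := Finset.univ) (Finset.card_le_three.trans_lt (by simp))
  simp only [Finset.mem_insert, Finset.mem_singleton, not_or] at hp
  have h14 : 4 * A = 1 ∧ 4 * B = 1 := by
    rcases eq_or_ne d' d with e | e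
    · have h := hd' a p (e ▸ had) hp.2.2
      rw [hRa, hR p hp.2.1, hAB p hp.1] at h
      have : 4 * A = 1 := by linear_combination -h
      exact ⟨this, by linear_combination 4 * hsum - 3 * this⟩
    · have h := hd' d p (Ne.symm e) hp.2.2
      rw [hR d (Ne.symm had), hR p hp.2.1, hAB p hp.1] at h
      have hBA : B = A := mul_left_cancel₀ (mul_ne_zero h4 hA0) (by linear_combination h)
      have : 4 * A = 1 := by linear_combination hsum - hBA
      exact ⟨this, by rw [hBA]; exact this⟩
  rcases eq_or_ne y d with rfl | hy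
  · exact h14.2
  · rw [hAB y hy]; exact h14.1

/-- No sign change of one coordinate. -/
theorem false_of_neg_four (hq : 4 ≤ q) (h2 : (2 : F) ≠ 0) (hr : ∀ b, rf hF b (NU.negOne hF) ∈ M)
    {g : UG 4 F q} (hg : g ∈ M) (hgm : ¬ MonU g) : False := by
  classical
  set t : Fin 4 → F := fun k => g.1 (sv F k) 0 * g.1 (sv F k) 1 ^ q with ht
  have h4 : (4 : F) ≠ 0 := by
    rw [show (4 : F) = 2 * 2 by norm_num]; exact mul_ne_zero h2 h2
  have hN := fun k y => quarter hF H hq h2 hr hg hgm k y
  have htT : ∀ k, 16 * (t k * t k ^ q) = 1 := fun k => by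
    simp only [ht, mul_pow, hF.pow_pow]
    linear_combination (4 * (g.1 (sv F k) 1 * g.1 (sv F k) 1 ^ q)) * hN k 0 + hN k 1
  have hs : t 0 + t 1 + t 2 + t 3 = 0 := by
    have h := UG_app g⁻¹ (sv F (1 : Fin 4)) (sv F (0 : Fin 4))
    rw [herm_sv hF, herm_def, Fin.sum_univ_four] at h
    simp only [inv_apply_coord hF, hF.pow_pow] at h
    simp only [ht]
    rw [show sv F (1 : Fin 4) 0 = 0 from Pi.single_eq_of_ne (by decide) _] at h
    linear_combination h
  have hsq : t 0 ^ q + t 1 ^ q + t 2 ^ q + t 3 ^ q = 0 := by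
    rw [← hF.add_pow, ← hF.add_pow, ← hF.add_pow, hs, zero_pow hF.q_ne_zero]
  have he3 : t 1 * t 2 * t 3 + t 0 * t 2 * t 3 + t 0 * t 1 * t 3 + t 0 * t 1 * t 2 = 0 := by
    linear_combination (16 * (t 0 * t 1 * t 2 * t 3)) * hsq - t 1 * t 2 * t 3 * htT 0 -
      t 0 * t 2 * t 3 * htT 1 - t 0 * t 1 * t 3 * htT 2 - t 0 * t 1 * t 2 * htT 3
  have hprod : (t 0 + t 1) * (t 0 + t 2) * (t 1 + t 2) = 0 := by
    linear_combination (t 0 * t 1 + t 0 * t 2 + t 1 * t 2) * hs - he3
  obtain ⟨k, l, hkl, htl⟩ : ∃ k l : Fin 4, k ≠ l ∧ t k + t l = 0 := by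
    rcases mul_eq_zero.1 hprod with h | h
    · rcases mul_eq_zero.1 h with h | h
      · exact ⟨0, 1, by decide, h⟩
      · exact ⟨0, 2, by decide, h⟩
    · exact ⟨1, 2, by decide, h⟩
  obtain ⟨μ, hμ⟩ := exists_pow_four_ne hF hq
  set ν := ((μ : Fˣ) : F) with hν
  have hνν : ν * ν ^ q = 1 := NU.mul_pow_eq μ
  set x := g * dia hF (pairFun k l μ) * g⁻¹ with hx
  have hxM : x ∈ M := mul_mem (mul_mem hg (H.dia_pair_mem hF hkl μ)) (inv_mem hg)
  have hoff : x.1 (sv F 1) 0 = (ν - ν ^ q) * t k := by
    rw [hx, conj_pair_apply hF g hkl, herm_one_single, herm_one_single, inv_val hF]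
    simp only [Pi.add_apply, Pi.smul_apply, smul_eq_mul,
      show sv F (1 : Fin 4) 0 = 0 from Pi.single_eq_of_ne (by decide) _]
    simp only [ht] at htl ⊢
    linear_combination (ν ^ q - 1) * htl
  have hdiag : 4 * x.1 (sv F 0) 0 = 2 + ν + ν ^ q := by
    rw [hx, conj_pair_apply hF g hkl, herm_one_single, herm_one_single, inv_val hF]
    simp only [Pi.add_apply, Pi.smul_apply, smul_eq_mul, sv, Pi.single_eq_same]
    linear_combination (ν - 1) * hN k 0 + (ν ^ q - 1) * hN l 0
  have hν2 : ν ^ 2 ≠ 1 := fun e => hμ (by linear_combination (ν ^ 2 + 1) * e)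
  have htk : t k ≠ 0 := fun e => by
    have := htT k
    rw [e, zero_mul, mul_zero] at this
    exact zero_ne_one this
  have hoff0 : x.1 (sv F 1) 0 ≠ 0 := by
    rw [hoff]
    exact mul_ne_zero (fun e => hν2 (by linear_combination ν * e + hνν)) htk
  have hdiag0 : x.1 (sv F 0) 0 ≠ 0 := fun e => by
    rw [e, mul_zero] at hdiag
    have : (ν + 1) * (ν + 1) = 0 := by linear_combination -ν * hdiag - hνν
    have h1 := mul_self_eq_zero.1 this
    exact hν2 (by linear_combination (ν - 1) * h1)
  have hxm : ¬ MonU x := fun hm => by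
    obtain ⟨π, c, e⟩ := hm.exists_eq hF
    have h0 : π 0 = 0 := by
      by_contra hne
      apply hdiag0
      rw [e, mon_sv]; simp [Pi.single_eq_of_ne (Ne.symm hne)]
    have h1 : π 1 = 0 := by
      by_contra hne
      apply hoff0
      rw [e, mon_sv]; simp [Pi.single_eq_of_ne (Ne.symm hne)]
    exact absurd (π.injective (h0.trans h1.symm)) (by decide)
  have h := quarter hF H hq h2 hr hxM hxm 1 0
  rw [hoff, mul_pow, hF.sub_pow, hF.pow_pow] at h
  apply hμ
  have h5 : (ν - ν ^ q) * (ν ^ q - ν) = 4 := by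
    linear_combination 4 * h - (ν - ν ^ q) * (ν ^ q - ν) * htT k
  have h6 : (ν ^ 2 + 1) * (ν ^ 2 + 1) = 0 := by
    linear_combination -ν ^ 2 * h5 + (4 * ν ^ 2 - 2 * ν ^ 2 - 2 * ν ^ 2) * 0 +
      (2 * ν ^ 2 - ν * ν ^ q - 1) * hνν
  linear_combination (ν ^ 2 - 1) * mul_self_eq_zero.1 h6

omit H

/-- Only monomial elements, more than nine elements in the field. -/
theorem eq_mon_four (H : NoFix M) (hq : 4 ≤ q) : ∀ g ∈ M, MonU g := by
  classical
  haveI : Finite F := hF.1
  intro g hg
  by_contra hgm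
  obtain ⟨μ, hμ⟩ := exists_NU_order hF
  set ω : NU F q := (μ ^ 4)⁻¹
  have hω : ω ≠ 1 := fun e => by
    have := Nat.le_of_dvd (by norm_num) (hμ ▸ orderOf_dvd_of_pow_eq_one (inv_eq_one.1 e))
    omega
  set M' := DecompMax.UF.plus hF M
  have H' : NoFix M' := H.plus hF
  have hr : ∀ i b, rf hF b (ω ^ i) ∈ M' := fun i b => by
    rw [← rf_pow]; exact pow_mem (H.rf_mem_plus hF μ b) i
  have hr1 : ∀ b, rf hF b ω ∈ M' := fun b => H.rf_mem_plus hF μ b
  have hg' : g ∈ M' := ⟨1, by
    rw [show sc hF (1 : NU F q) * g = g from eq_of_apply_single fun j => by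
      rw [Subgroup.coe_mul, LinearEquiv.mul_apply, sc_apply]; simp]
    exact hg⟩
  set k := orderOf ω
  have hk0 : 0 < k := orderOf_pos ω
  have hk1 : k ≠ 1 := fun e => hω (orderOf_eq_one_iff.1 e)
  rcases Nat.eq_two_pow_or_exists_odd_prime_and_dvd k with ⟨e, he⟩ | ⟨l, hl, hld, hlodd⟩
  · obtain ⟨e, rfl⟩ : ∃ e', e = e' + 1 := ⟨e - 1, by rcases e with _ | e <;> simp at he ⊢; omega⟩
    set ν := ω ^ (2 ^ e)
    have hν2 : ν ^ 2 = 1 := by rw [← pow_mul, ← pow_succ, ← he, pow_orderOf_eq_one]
    have hν1 : ν ≠ 1 := fun h => by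
      have := Nat.le_of_dvd (by positivity) (orderOf_dvd_of_pow_eq_one h)
      rw [show orderOf ω = k from rfl, he, pow_succ] at this
      have := Nat.one_le_two_pow (n := e)
      omega
    have hνv : ((ν : Fˣ) : F) = -1 := by
      have h : (((ν : Fˣ) : F) - 1) * (((ν : Fˣ) : F) + 1) = 0 := by
        have := congrArg (fun x : NU F q => ((x : Fˣ) : F)) hν2
        simp only [SubmonoidClass.coe_pow, Units.val_pow_eq_pow_val, OneMemClass.coe_one, Units.val_one] at this
        linear_combination this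
      exact eq_neg_of_add_eq_zero_left ((mul_eq_zero.1 h).resolve_left
        (sub_ne_zero.2 fun e => hν1 (Subtype.ext (Units.ext e))))
    have h2 : (2 : F) ≠ 0 := fun h2 => hν1 (Subtype.ext (Units.ext (by
      rw [hνv]; simp only [OneMemClass.coe_one, Units.val_one]; linear_combination -h2)))
    refine false_of_neg_four hF H' hq h2 (fun b => ?_) hg' hgm
    rw [show NU.negOne hF = ν from Subtype.ext (Units.ext hνv.symm)]
    exact hr _ b
  · have hl3 : 3 ≤ l := by
      have := hl.two_le
      rcases hlodd with ⟨j, rfl⟩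
      omega
    have ho : orderOf (ω ^ (k / l)) = l := orderOf_pow_orderOf_div hk0.ne' hld
    exact H'.false_of_odd_rf_of_full le_rfl
      (fun hg'' hgm'' => full_of_rf_four hF H' hq hω hr1 hg'' hgm'') (Or.inr (by norm_num)) hl hl3 ho
      (hr _) hg' hgm

end Cfsg.Agent.SU4
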