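import Cfsg.Agent.GeoClasses.UnitRealMaxMain
import Cfsg.Agent.DecompMax.UnitBase

/-!
Orthogonal subfield structures on the hermitian space of dimension four: a transvection at a rational
point together with the rational isometries generates all of `SU_4(q)`.
-/

set_option autoImplicit false

namespace Cfsg.Agent.SU4.Orth

set_option linter.unusedSectionVars false

open Matrix Cfsg.Geo Cfsg.Agent.Classical.U Cfsg.Agent.ClassicalMax Cfsg.Agent.GeoClasses Module
open Cfsg.Agent.DecompMax.UN (ctr ctr_map ctr_line ctr_smul)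
open Cfsg.Agent.Forms (hperp mem_hperp finrank_hperp hperp_hperp herm_comm_zero)
open scoped MatrixGroups Matrix

universe u

variable {F : Type u} [Field F] {q : ℕ}

/-- The involution commutes with the element up to a scalar. -/
def Semi (bar : (Fin 4 → F) → (Fin 4 → F)) (g : UG 4 F q) : Prop :=
  ∃ ν : F, ∀ w, bar (g.1 w) = ν • g.1 (bar w)

/-- A hyperbolic pair completed by an orthogonal basis of its perpendicular, all rational. -/
structure RatFrame (q : ℕ) (bar : (Fin 4 → F) → (Fin 4 → F)) (p f y₁ y₂ : Fin 4 → F) : Prop where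
  barp : bar p = p
  barf : bar f = f
  bar₁ : bar y₁ = y₁
  bar₂ : bar y₂ = y₂
  pp : herm q p p = 0
  ff : herm q f f = 0
  fp : herm q f p = 1
  pf : herm q p f = 1
  p1 : herm q p y₁ = 0
  p2 : herm q p y₂ = 0
  f1 : herm q f y₁ = 0
  f2 : herm q f y₂ = 0
  o1p : herm q y₁ p = 0
  o2p : herm q y₂ p = 0
  o1f : herm q y₁ f = 0
  o2f : herm q y₂ f = 0
  o12 : herm q y₁ y₂ = 0
  o21 : herm q y₂ y₁ = 0
  n1 : herm q y₁ y₁ ≠ 0
  n2 : herm q y₂ y₂ ≠ 0

/-- An affine point off the perpendicular of `p`. -/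
def pt (p f y₁ y₂ : Fin 4 → F) (α β c : F) : Fin 4 → F := f + α • y₁ + β • y₂ + c • p

section Frame

variable (hF : SqField F q) {bar : (Fin 4 → F) → (Fin 4 → F)} {p f y₁ y₂ : Fin 4 → F}
  (Φ : RatFrame q bar p f y₁ y₂)
include hF Φ

lemma RatFrame.ext {v w : Fin 4 → F} (hp : herm q v p = herm q w p)
    (hf : herm q v f = herm q w f) (h1 : herm q v y₁ = herm q w y₁)
    (h2 : herm q v y₂ = herm q w y₂) : v = w := by
  let T : (Fin 4 → F) →ₗ[F] (Fin 4 → F) :=
    LinearMap.pi ![hermL q p, hermL q f, hermL q y₁, hermL q y₂]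
  have hT : ∀ (v : Fin 4 → F), T v = ![herm q v p, herm q v f, herm q v y₁, herm q v y₂] :=
    fun v => by ext i; fin_cases i <;> rfl
  have hsurj : Function.Surjective T := fun z => ⟨z 0 • f + z 1 • p +
      (z 2 / herm q y₁ y₁) • y₁ + (z 3 / herm q y₂ y₂) • y₂, by
    rw [hT]
    ext i
    fin_cases i <;>
      simp [herm_add_left, herm_smul_left, Φ.pp, Φ.ff, Φ.fp, Φ.pf, Φ.p1, Φ.p2, Φ.f1, Φ.f2,
        Φ.o1p, Φ.o2p, Φ.o1f, Φ.o2f, Φ.o12, Φ.o21, Φ.n1, Φ.n2]⟩
  exact LinearMap.injective_iff_surjective.2 hsurj (by rw [hT, hT, hp, hf, h1, h2])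

lemma RatFrame.herm_pt (α β c α' β' c' : F) :
    herm q (pt p f y₁ y₂ α β c) (pt p f y₁ y₂ α' β' c') =
      c + c' ^ q + α * α' ^ q * herm q y₁ y₁ + β * β' ^ q * herm q y₂ y₂ := by
  simp only [pt, herm_add_left, hF.herm_add_right, herm_smul_left, herm_smul_right, Φ.pp, Φ.ff,
    Φ.fp, Φ.pf, Φ.p1, Φ.p2, Φ.f1, Φ.f2, Φ.o1p, Φ.o2p, Φ.o1f, Φ.o2f, Φ.o12, Φ.o21]
  ring

lemma RatFrame.n1q : herm q y₁ y₁ ^ q = herm q y₁ y₁ := hF.herm_symm _ _

lemma RatFrame.n2q : herm q y₂ y₂ ^ q = herm q y₂ y₂ := hF.herm_symm _ _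

lemma RatFrame.herm_pt_p (α β c : F) : herm q (pt p f y₁ y₂ α β c) p = 1 := by
  simp [pt, herm_add_left, herm_smul_left, Φ.pp, Φ.fp, Φ.o1p, Φ.o2p]

lemma RatFrame.eq_pt {x : Fin 4 → F} (hx : herm q x p ≠ 0) :
    x = herm q x p • pt p f y₁ y₂ (herm q x y₁ / (herm q x p * herm q y₁ y₁))
      (herm q x y₂ / (herm q x p * herm q y₂ y₂)) (herm q x f / herm q x p) := by
  have := Φ.n1
  have := Φ.n2
  apply Φ.ext hF <;>
    simp only [pt, herm_smul_left, herm_add_left, Φ.pp, Φ.ff, Φ.fp, Φ.pf, Φ.p1, Φ.p2, Φ.f1, Φ.f2,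
      Φ.o1p, Φ.o2p, Φ.o1f, Φ.o2f, Φ.o12, Φ.o21] <;>
    field_simp <;> ring

end Frame

variable (hF : SqField F q) {bar : (Fin 4 → F) → (Fin 4 → F)} (hb : RatStr q (1 : F) bar)
  (h2 : (2 : F) ≠ 0)
include hF hb h2

lemma fix_two : (2 : F) ^ q = 2 := by
  rw [show (2 : F) = 1 + 1 by norm_num, hF.add_pow, one_pow]

lemma exists_skew_scaling : ∃ ω : F, ω ≠ 0 ∧ ω ^ q = -ω ∧ ω ^ q ≠ ω := by
  obtain ⟨ω, h0, hω⟩ := hF.exists_skew
  refine ⟨ω, h0, hω, fun h => h0 ?_⟩
  have : 2 * ω = 0 := by linear_combination -(hω.symm.trans h)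
  exact (mul_eq_zero.1 this).resolve_left h2

lemma herm_rat {x y : Fin 4 → F} (hx : bar x = x) (hy : bar y = y) :
    herm q x y ^ q = herm q x y := by
  rw [RatStr.herm_fix hF hb hx hy, one_mul]

lemma herm_rat_symm {x y : Fin 4 → F} (hx : bar x = x) (hy : bar y = y) :
    herm q y x = herm q x y := by
  rw [← hF.herm_symm, herm_rat hF hb h2 hx hy]

/-- A rational pair completes to a frame. -/
lemma exists_frame_of_pair {p f : Fin 4 → F} (hp : bar p = p) (hf : bar f = f)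
    (hpp : herm q p p = 0) (hff : herm q f f = 0) (hfp : herm q f p = 1) :
    ∃ y₁ y₂, RatFrame q bar p f y₁ y₂ := by
  have hpf : herm q p f = 1 := by rw [← hF.herm_symm, hfp, one_pow]
  set S := hperp q (Submodule.span F {p, f}) with hS
  have hd : 2 ≤ finrank F S := by
    have := RatStr.finrank_span_pair_le hF hb p f
    rw [hS, finrank_hperp hF]
    omega
  have hst : IsBarStable bar S := RatStr.stable_pair hF hb hp hf
  have hdec : ∀ (z : Fin 4 → F), ∃ s ∈ S, ∀ w ∈ S, herm q z w = herm q s w := fun z => by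
    refine ⟨z - herm q z f • p - herm q z p • f, (mem_hperp_pair hF).2 ⟨?_, ?_⟩, fun w hw => ?_⟩
    · simp [herm_sub_left, herm_smul_left, hpp, hfp]
    · simp [herm_sub_left, herm_smul_left, hff, hpf]
    · rw [mem_hperp_pair hF] at hw
      simp [herm_sub_left, herm_smul_left, herm_comm_zero hF hw.1, herm_comm_zero hF hw.2]
  obtain ⟨y₁, hy₁, hb₁, h₁⟩ : ∃ y ∈ S, bar y = y ∧ herm q y y ≠ 0 := by
    by_contra hcon
    push Not at hcon
    obtain ⟨v, hvS, hv, hv0⟩ := RatStr.exists_fix_not_mem hF hb hst (N := ⊥) fun h => by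
      have := Submodule.finrank_mono h
      rw [finrank_bot] at this
      omega
    rw [Submodule.mem_bot] at hv0
    have horth : ∀ w ∈ S, herm q w v = 0 := by
      intro w hw
      have hsp := RatStr.mem_span_fix hF hb hst hw
      clear hw
      induction hsp using Submodule.span_induction with
      | mem z hz =>
        have h3 := hcon (z + v) (S.add_mem hz.1 hvS) (by rw [hb.add, hz.2, hv])
        rw [herm_add_left, hF.herm_add_right, hF.herm_add_right, hcon z hz.1 hz.2,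
          hcon v hvS hv, herm_rat_symm hF hb h2 hz.2 hv, zero_add, add_zero, ← two_mul] at h3
        exact (mul_eq_zero.1 h3).resolve_left h2
      | zero => exact herm_zero_left v
      | add a b _ _ ha hb' => rw [herm_add_left, ha, hb', add_zero]
      | smul c a _ ha => rw [herm_smul_left, ha, mul_zero]
    refine hv0 (hF.eq_zero_of_herm v fun z => herm_comm_zero hF ?_)
    obtain ⟨s, hs, hzs⟩ := hdec z
    rw [hzs v hvS, horth s hs]
  obtain ⟨y₂, hy₂, hb₂, hy₂0⟩ := RatStr.exists_fix_not_mem hF hb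
    (S := S ⊓ LinearMap.ker (hermL q y₁)) (fun x hx => ⟨hst x hx.1, by
      show herm q (bar x) y₁ = 0
      rw [RatStr.herm_bar_left hF hb, hb₁, show herm q x y₁ = 0 from hx.2,
        zero_pow hF.q_ne_zero, mul_zero]⟩) (N := ⊥) fun h => by
    have := Submodule.finrank_mono h
    have := finrank_le_inf_ker (hermL q y₁) S
    rw [finrank_bot] at *
    omega
  rw [Submodule.mem_bot] at hy₂0
  have h21 : herm q y₂ y₁ = 0 := hy₂.2
  have hy₂S : y₂ ∈ S := hy₂.1
  have hsp : S ≤ Submodule.span F {y₁, y₂} := by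
    have hli : LinearIndependent F ![y₁, y₂] := by
      rw [LinearIndependent.pair_iff' (fun h => h₁ (by rw [h, herm_zero_left]))]
      intro a ha
      refine hy₂0 ?_
      rw [← ha, herm_smul_left, mul_eq_zero] at h21
      rw [← ha, h21.resolve_right h₁, zero_smul]
    have hrange : Set.range ![y₁, y₂] = {y₁, y₂} := by
      ext x; simp [eq_comm, or_comm]
    have h3 : finrank F (Submodule.span F ({p, f} : Set (Fin 4 → F))) = 2 := by
      have hli2 : LinearIndependent F ![p, f] := by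
        rw [LinearIndependent.pair_iff' (fun h => by simp [h] at hpf)]
        intro a ha
        rw [← ha, herm_smul_left, hpp, mul_zero] at hfp
        exact zero_ne_one hfp
      rw [show ({p, f} : Set (Fin 4 → F)) = Set.range ![p, f] by ext x; simp [eq_comm, or_comm],
        finrank_span_eq_card hli2]
      simp
    refine (Submodule.eq_of_le_of_finrank_le ?_ ?_).ge
    · exact Submodule.span_le.2 (by rintro x (rfl | rfl) <;> assumption)
    · rw [← hrange, finrank_span_eq_card hli, hS, finrank_hperp hF, h3]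
      simp
  have h₂ : herm q y₂ y₂ ≠ 0 := fun h0 => hy₂0 (hF.eq_zero_of_herm y₂ fun z => herm_comm_zero hF (by
    obtain ⟨s, hs, hzs⟩ := hdec z
    rw [hzs y₂ hy₂S]
    obtain ⟨a, b, rfl⟩ := Submodule.mem_span_pair.1 (hsp hs)
    rw [herm_add_left, herm_smul_left, herm_smul_left, herm_comm_zero hF h21, h0]
    ring))
  rw [mem_hperp_pair hF] at hy₁ hy₂S
  exact ⟨y₁, y₂, hp, hf, hb₁, hb₂, hpp, hff, hfp, hpf, herm_comm_zero hF hy₁.1,
    herm_comm_zero hF hy₂S.1, herm_comm_zero hF hy₁.2, herm_comm_zero hF hy₂S.2, hy₁.1, hy₂S.1,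
    hy₁.2, hy₂S.2, herm_comm_zero hF h21, h21, h₁, h₂⟩

/-- Every rational isotropic vector starts a frame. -/
lemma exists_frame {p : Fin 4 → F} (hp : bar p = p) (hpp : herm q p p = 0) (hp0 : p ≠ 0) :
    ∃ f y₁ y₂, RatFrame q bar p f y₁ y₂ := by
  obtain ⟨f, hf, hff, hfp⟩ := RatStr.exists_fix_partner_top hF hb hp hpp hp0
  refine ⟨(herm q f p)⁻¹ • f, exists_frame_of_pair hF hb h2 hp ?_ hpp ?_ ?_⟩
  · rw [hb.smul, hf, inv_pow, herm_rat hF hb h2 hf hp]
  · rw [herm_smul_left, herm_smul_right, hff, mul_zero, mul_zero]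
  · rw [herm_smul_left, inv_mul_cancel₀ hfp]

variable {p f y₁ y₂ : Fin 4 → F} (Φ : RatFrame q bar p f y₁ y₂)
include Φ

lemma bar_pt {α β c : F} (hα : α ^ q = α) (hβ : β ^ q = β) (hc : c ^ q = c) :
    bar (pt p f y₁ y₂ α β c) = pt p f y₁ y₂ α β c := by
  simp [pt, hb.add, hb.smul, Φ.barp, Φ.barf, Φ.bar₁, Φ.bar₂, hα, hβ, hc]

/-- Rational isotropic points with given fixed coordinates. -/
lemma exists_rat_pt {α β : F} (hα : α ^ q = α) (hβ : β ^ q = β) : ∃ c : F, c ^ q = c ∧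
    herm q (pt p f y₁ y₂ α β c) (pt p f y₁ y₂ α β c) = 0 := by
  refine ⟨-(α * α * herm q y₁ y₁ + β * β * herm q y₂ y₂) / 2, ?_, ?_⟩
  · rw [div_pow, hF.neg_pow, hF.add_pow, mul_pow, mul_pow, mul_pow, mul_pow, hα, hβ,
      fix_two hF hb h2, Φ.n1q hF, Φ.n2q hF]
  · rw [Φ.herm_pt hF, hα, hβ, div_pow, hF.neg_pow, hF.add_pow, mul_pow, mul_pow, mul_pow, mul_pow,
      hα, hβ, fix_two hF hb h2, Φ.n1q hF, Φ.n2q hF]
    field_simp
    ring

/-- A rational isotropic point seeing a non-zero vector. -/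
lemma exists_rat_seeing {v : Fin 4 → F} (hv : v ≠ 0) (hvp : herm q v p = 0) :
    ∃ r, bar r = r ∧ herm q r r = 0 ∧ herm q r p ≠ 0 ∧ herm q v r ≠ 0 := by
  by_cases hvf : herm q v f = 0
  swap
  · exact ⟨f, Φ.barf, Φ.ff, by rw [Φ.fp]; exact one_ne_zero, hvf⟩
  have hcase : herm q v y₁ ≠ 0 ∨ herm q v y₂ ≠ 0 := by
    by_contra hc
    push Not at hc
    exact hv (Φ.ext hF (by rw [hvp, herm_zero_left]) (by rw [hvf, herm_zero_left])
      (by rw [hc.1, herm_zero_left]) (by rw [hc.2, herm_zero_left]))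
  rcases hcase with h | h
  · obtain ⟨c, hc, hcc⟩ := exists_rat_pt hF hb h2 Φ (α := 1) (β := 0) (one_pow q)
      (zero_pow hF.q_ne_zero)
    refine ⟨_, bar_pt hF hb h2 Φ (one_pow q) (zero_pow hF.q_ne_zero) hc, hcc,
      by rw [Φ.herm_pt_p hF]; exact one_ne_zero, ?_⟩
    simpa [pt, hF.herm_add_right, herm_smul_right, hvf, hvp, hF.herm_zero_right] using h
  · obtain ⟨c, hc, hcc⟩ := exists_rat_pt hF hb h2 Φ (α := 0) (β := 1) (zero_pow hF.q_ne_zero)
      (one_pow q)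
    refine ⟨_, bar_pt hF hb h2 Φ (zero_pow hF.q_ne_zero) (one_pow q) hc, hcc,
      by rw [Φ.herm_pt_p hF]; exact one_ne_zero, ?_⟩
    simpa [pt, hF.herm_add_right, herm_smul_right, hvf, hvp, hF.herm_zero_right] using h

variable {M : Subgroup (UG 4 F q)} (hK : ∀ g ∈ SUG 4 F q, Semi bar g → g ∈ M)
include hK

omit Φ in
lemma hK_comm : ∀ g ∈ SUG 4 F q, BarComm bar g → g ∈ M := fun g hg hc =>
  hK g hg ⟨1, fun w => by rw [one_smul]; exact hc w⟩

omit Φ in
/-- Rational isometries join two rational isotropic vectors which are not orthogonal. -/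
lemma exists_move_step {r s : Fin 4 → F} (hr : bar r = r) (hs : bar s = s) (hrr : herm q r r = 0)
    (hss : herm q s s = 0) (hrs : herm q s r ≠ 0) :
    ∃ k ∈ M, BarComm bar k ∧ k.1 r = s := by
  set l := herm q s r with hl
  have hlq : l ^ q = l := herm_rat hF hb h2 hs hr
  have hf : bar (l⁻¹ • s) = l⁻¹ • s := by rw [hb.smul, hs, inv_pow, hlq]
  obtain ⟨y₁, y₂, Φ⟩ := exists_frame_of_pair hF hb h2 hr hf hrr
    (by rw [herm_smul_left, herm_smul_right, hss, mul_zero, mul_zero])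
    (by rw [herm_smul_left, ← hl, inv_mul_cancel₀ hrs])
  set F₀ := RingHom.eqLocusField (qConj hF).toRingHom (RingHom.id F)
  have hmem : ∀ {a : F}, a ∈ F₀ ↔ a ^ q = a := fun {a} => mem_fixed_qConj hF
  haveI : Finite F := hF.1
  haveI : Fintype F₀ := Fintype.ofFinite F₀
  have hodd : Fintype.card F₀ % 2 = 1 := by
    rw [← Nat.odd_iff, ← two_ne_zero_iff_odd_card]
    intro h
    exact h2 (by rw [← map_ofNat F₀.subtype 2, h, map_zero])
  set a : F₀ := ⟨-(2 * l) / herm q y₂ y₂, hmem.2 (by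
    rw [div_pow, hF.neg_pow, mul_pow, fix_two hF hb h2, hlq, Φ.n2q hF])⟩ with ha
  set c : F₀ := ⟨herm q y₁ y₁ / herm q y₂ y₂, hmem.2 (by
    rw [div_pow, Φ.n1q hF, Φ.n2q hF])⟩ with hc
  have hc0 : c ≠ 0 := fun h => div_ne_zero Φ.n1 Φ.n2 (congrArg Subtype.val h)
  obtain ⟨α, β, hst⟩ := FiniteField.exists_root_sum_quadratic
    (f := (Polynomial.C c * Polynomial.X ^ 2 : Polynomial F₀))
    (g := Polynomial.X ^ 2 - Polynomial.C a)
    (Polynomial.degree_C_mul_X_pow 2 hc0)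
    (Polynomial.degree_X_pow_sub_C (by norm_num) _) hodd
  simp only [Polynomial.eval_pow, Polynomial.eval_X, Polynomial.eval_sub, Polynomial.eval_C,
    Polynomial.eval_mul] at hst
  have hst' := congrArg Subtype.val hst
  simp only [Subfield.coe_add, Subfield.coe_sub, Subfield.coe_mul, SubmonoidClass.coe_pow,
    ha, hc, ZeroMemClass.coe_zero] at hst'
  have hαq := hmem.1 α.2
  have hβq := hmem.1 β.2
  set S := r + l • (l⁻¹ • s) + (α : F) • y₁ + (β : F) • y₂ with hS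
  have hbS : bar S = S := by
    simp only [hS, hb.add, hb.smul, hr, hs, hαq, hβq, hlq, inv_pow, Φ.bar₁, Φ.bar₂]
  have hSS : herm q S S = 0 := by
    simp only [hS, herm_add_left, hF.herm_add_right, herm_smul_left l, herm_smul_right l,
      herm_smul_left (α : F), herm_smul_right (α : F), herm_smul_left (β : F),
      herm_smul_right (β : F), Φ.pp, Φ.ff, Φ.fp, Φ.pf, Φ.p1, Φ.p2, Φ.f1, Φ.f2, Φ.o1p, Φ.o2p,
      Φ.o1f, Φ.o2f, Φ.o12, Φ.o21, hlq, hαq, hβq]
    have := Φ.n2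
    field_simp at hst'
    linear_combination hst'
  have hS' : ∀ v, herm q v S = herm q v r + l * herm q v (l⁻¹ • s) + α * herm q v y₁ +
      β * herm q v y₂ := fun v => by
    simp only [hS, hF.herm_add_right, herm_smul_right l, herm_smul_right (α : F),
      herm_smul_right (β : F), hlq, hαq, hβq]
  have hrS : herm q r S = l := by rw [hS', Φ.pp, Φ.pf, Φ.p1, Φ.p2]; ring
  have hsS : herm q s S = l := by
    have h := hS' (l⁻¹ • s)
    rw [Φ.ff, Φ.fp, Φ.f1, Φ.f2, mul_zero, mul_zero, mul_zero, add_zero, add_zero, add_zero,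
      herm_smul_left, inv_mul_eq_iff_eq_mul₀ hrs, mul_one] at h
    exact h
  set x := l⁻¹ • (s - r) with hx
  set b := herm q r x / l with hb'
  have hrx : herm q r x = 1 := by
    rw [hx, herm_smul_right, hF.herm_sub_right, hrr, sub_zero, inv_pow, hlq,
      herm_rat_symm hF hb h2 hs hr, ← hl, inv_mul_cancel₀ hrs]
  have hbx : bar x = x := by rw [hx, hb.smul, RatStr.map_sub' hF hb, hr, hs, inv_pow, hlq]
  have hbq : b ^ q = b := by rw [hb', hrx, div_pow, one_pow, hlq]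
  have hcond : UniCond q S x b := by
    refine ⟨hSS, ?_, ?_⟩
    · rw [hx, herm_smul_left, herm_sub_left, hrS, hsS, sub_self, mul_zero]
    · rw [hbq, hb', hrx, hx]
      simp only [herm_smul_left, herm_smul_right, herm_sub_left, hF.herm_sub_right, hrr, hss, ← hl,
        herm_rat_symm hF hb h2 hs hr, inv_pow, hlq]
      field_simp
      ring
  have hcomm := RatStr.uni_barComm hF hb hbS hcond (by rw [hbx, one_smul]) (by rw [hbq, one_mul])
  refine ⟨uni hF hcond, hK_comm hF hb h2 hK _ (det_uni hF hcond) hcomm, hcomm, ?_⟩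
  rw [uni_apply, hrS, hb', hrx, div_mul_cancel₀ _ hrs, sub_self, zero_smul, add_zero, hx,
    smul_inv_smul₀ hrs, add_sub_cancel]

omit Φ in
/-- Rational isometries are transitive on the rational isotropic vectors. -/
lemma exists_move {r s : Fin 4 → F} (hr : bar r = r) (hs : bar s = s) (hrr : herm q r r = 0)
    (hss : herm q s s = 0) (hr0 : r ≠ 0) (hs0 : s ≠ 0) :
    ∃ k ∈ M, BarComm bar k ∧ k.1 r = s := by
  by_cases h : herm q s r = 0
  swap
  · exact exists_move_step hF hb h2 hK hr hs hrr hss h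
  obtain ⟨f, y₁, y₂, Φ⟩ := exists_frame hF hb h2 hr hrr hr0
  obtain ⟨t, ht, htt, htr, hst⟩ := exists_rat_seeing hF hb h2 Φ hs0 h
  obtain ⟨k, hk, hkc, hkr⟩ := exists_move_step hF hb h2 hK hr ht hrr htt htr
  obtain ⟨k', hk', hkc', hkt⟩ := exists_move_step hF hb h2 hK ht hs htt hss hst
  exact ⟨k' * k, mul_mem hk' hk, fun w => by
    rw [Subgroup.coe_mul, LinearEquiv.mul_apply, LinearEquiv.mul_apply, hkc', hkc],
    by rw [Subgroup.coe_mul, LinearEquiv.mul_apply, hkr, hkt]⟩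

/-- One transvection at a rational point gives all of them there. -/
lemma ctr_of_trv {δ : F} (hδ : TrvCond q p δ) (hδ0 : δ ≠ 0) (hM : trv hF hδ ∈ M) :
    p ∈ ctr hF M := by
  have hsq : ∀ u : F, u ^ q = u → ∀ h : TrvCond q p (u * u * δ), trv hF h ∈ M := by
    intro u hu h
    rcases eq_or_ne u 0 with rfl | hu0
    · convert one_mem M using 1
      refine Subtype.ext (LinearEquiv.ext fun w => ?_)
      simp [trv_apply]
    have hp0 : p ≠ 0 := fun h0 => by simpa [h0] using Φ.pf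
    obtain ⟨k, hk, -, hkp⟩ := exists_move hF hb h2 hK Φ.barp
      (show bar (u • p) = u • p by rw [hb.smul, Φ.barp, hu]) Φ.pp
      (by rw [herm_smul_left, herm_smul_right, Φ.pp, mul_zero, mul_zero]) hp0
      (smul_ne_zero hu0 hp0)
    convert mul_mem (mul_mem hk hM) (inv_mem hk) using 1
    rw [trv, trv, uni_conj]
    refine Subtype.ext (LinearEquiv.ext fun w => ?_)
    rw [uni_apply, uni_apply, map_zero, hkp, herm_smul_right, hu, hF.herm_zero_right]
    match_scalars <;> ring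
  refine ⟨Φ.pp, fun δ' hδ' => ?_⟩
  set t := δ' / δ with ht
  have htq : t ^ q = t := by rw [ht, div_pow, hδ'.2, hδ.2, neg_div_neg_eq]
  set u := (t + 1) / 2 with hu
  set v := (t - 1) / 2 with hv
  have huq : u ^ q = u := by rw [hu, div_pow, hF.add_pow, htq, one_pow, fix_two hF hb h2]
  have hvq : v ^ q = v := by rw [hv, div_pow, hF.sub_pow, htq, one_pow, fix_two hF hb h2]
  have hu' : TrvCond q p (u * u * δ) := ⟨Φ.pp, by rw [mul_pow, mul_pow, huq, hδ.2]; ring⟩
  have hv' : TrvCond q p (v * v * δ) := ⟨Φ.pp, by rw [mul_pow, mul_pow, hvq, hδ.2]; ring⟩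
  convert mul_mem (hsq u huq hu') (inv_mem (hsq v hvq hv')) using 1
  rw [eq_mul_inv_iff_mul_eq]
  refine Subtype.ext (LinearEquiv.ext fun w => ?_)
  simp only [Subgroup.coe_mul, LinearEquiv.mul_apply, trv_apply, herm_add_left, herm_smul_left,
    Φ.pp, hu, hv, ht]
  match_scalars <;> field_simp <;> ring

omit h2 hb hK in
/-- Centres over a plane of parameters. -/
lemma ctr_pt_all (hp : p ∈ ctr hF M) {α β c : F} (hc : pt p f y₁ y₂ α β c ∈ ctr hF M) (c' : F)
    (h : herm q (pt p f y₁ y₂ α β c') (pt p f y₁ y₂ α β c') = 0) :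
    pt p f y₁ y₂ α β c' ∈ ctr hF M := by
  have h0 := hc.1
  rw [Φ.herm_pt hF] at h h0
  have hd : TrvCond q p (c' - c) := ⟨Φ.pp, by rw [hF.sub_pow]; linear_combination h - h0⟩
  have := ctr_map hF hc (hp.2 _ hd)
  rw [trv_apply, Φ.herm_pt_p hF, mul_one] at this
  convert this using 1
  simp only [pt]
  module

/-- All points above a parameter are centres. -/
def Above (hF : SqField F q) (M : Subgroup (UG 4 F q)) (p f y₁ y₂ : Fin 4 → F) (α β : F) : Prop :=
  ∀ c, herm q (pt p f y₁ y₂ α β c) (pt p f y₁ y₂ α β c) = 0 → pt p f y₁ y₂ α β c ∈ ctr hF M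

omit hK in
lemma above_line (hp : p ∈ ctr hF M) {α₁ β₁ α₂ β₂ : F}
    (h₁ : Above hF M p f y₁ y₂ α₁ β₁) (h₂ : Above hF M p f y₁ y₂ α₂ β₂)
    (hd : (α₂ - α₁) * (α₂ - α₁) ^ q * herm q y₁ y₁ + (β₂ - β₁) * (β₂ - β₁) ^ q * herm q y₂ y₂ ≠ 0)
    (τ : F) : Above hF M p f y₁ y₂ ((1 - τ) * α₁ + τ * α₂) ((1 - τ) * β₁ + τ * β₂) := by
  have gen : ∀ {α₁ β₁ α₂ β₂ : F}, Above hF M p f y₁ y₂ α₁ β₁ → Above hF M p f y₁ y₂ α₂ β₂ →
      (α₂ - α₁) * (α₂ - α₁) ^ q * herm q y₁ y₁ + (β₂ - β₁) * (β₂ - β₁) ^ q * herm q y₂ y₂ ≠ 0 →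
      ∀ τ : F, τ ^ q ≠ τ →
      Above hF M p f y₁ y₂ ((1 - τ) * α₁ + τ * α₂) ((1 - τ) * β₁ + τ * β₂) := by
    intro α₁ β₁ α₂ β₂ h₁ h₂ hd τ hτ
    have hn1 := Φ.n1q hF
    have hn2 := Φ.n2q hF
    obtain ⟨c₁, hc₁⟩ := hF.exists_trace
      (c := -(α₁ * α₁ ^ q * herm q y₁ y₁ + β₁ * β₁ ^ q * herm q y₂ y₂)) (by
        simp only [hF.neg_pow, hF.add_pow, mul_pow, hF.pow_pow, hn1, hn2]; ring)
    obtain ⟨c₂, hc₂⟩ := hF.exists_trace
      (c := -(α₂ * α₂ ^ q * herm q y₁ y₁ + β₂ * β₂ ^ q * herm q y₂ y₂)) (by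
        simp only [hF.neg_pow, hF.add_pow, mul_pow, hF.pow_pow, hn1, hn2]; ring)
    set e₀ := c₂ + c₁ ^ q + α₂ * α₁ ^ q * herm q y₁ y₁ + β₂ * β₁ ^ q * herm q y₂ y₂ with he₀
    set σ := τ * (1 - τ) ^ q with hσ
    have hσq : σ ^ q = τ ^ q * (1 - τ) := by rw [hσ, mul_pow, hF.pow_pow]
    have hσne : σ - σ ^ q ≠ 0 := by
      rw [hσq, hσ, hF.sub_pow, one_pow]
      intro h
      exact hτ (by linear_combination -h)
    set s := -(σ * e₀ + σ ^ q * e₀ ^ q) / (σ - σ ^ q) with hs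
    have hs' : s * (σ - σ ^ q) = -(σ * e₀ + σ ^ q * e₀ ^ q) := div_mul_cancel₀ _ hσne
    have hsq : s ^ q = -s := by
      have h := congrArg (fun x => x ^ q) hs'
      simp only [mul_pow, hF.sub_pow, hF.neg_pow, hF.add_pow, hF.pow_pow] at h
      refine mul_right_cancel₀ hσne ?_
      linear_combination hs' - h
    have hP₁ : herm q (pt p f y₁ y₂ α₁ β₁ c₁) (pt p f y₁ y₂ α₁ β₁ c₁) = 0 := by
      rw [Φ.herm_pt hF]; linear_combination hc₁
    have hP₂ : herm q (pt p f y₁ y₂ α₂ β₂ (c₂ + s)) (pt p f y₁ y₂ α₂ β₂ (c₂ + s)) = 0 := by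
      rw [Φ.herm_pt hF, hF.add_pow, hsq]; linear_combination hc₂
    have h21 : herm q (pt p f y₁ y₂ α₂ β₂ (c₂ + s)) (pt p f y₁ y₂ α₁ β₁ c₁) = e₀ + s := by
      rw [Φ.herm_pt hF, he₀]; ring
    have h12 : herm q (pt p f y₁ y₂ α₁ β₁ c₁) (pt p f y₁ y₂ α₂ β₂ (c₂ + s)) = (e₀ + s) ^ q := by
      rw [← h21, hF.herm_symm]
    have hne : e₀ + s ≠ 0 := fun h => hd (by
      have h' : (e₀ + s) ^ q = 0 := by rw [h, zero_pow hF.q_ne_zero]
      rw [hF.add_pow, hsq, he₀] at h'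
      rw [he₀] at h
      simp only [hF.add_pow, hF.sub_pow, mul_pow, hF.pow_pow, hn1, hn2] at h' ⊢
      linear_combination -h - h' + hc₁ + hc₂)
    have hv : pt p f y₁ y₂ ((1 - τ) * α₁ + τ * α₂) ((1 - τ) * β₁ + τ * β₂)
        ((1 - τ) * c₁ + τ * (c₂ + s)) =
        (1 - τ) • pt p f y₁ y₂ α₁ β₁ c₁ + τ • pt p f y₁ y₂ α₂ β₂ (c₂ + s) := by
      simp only [pt]; module
    intro c hc
    refine ctr_pt_all hF Φ hp (c := (1 - τ) * c₁ + τ * (c₂ + s)) ?_ c hc
    rw [hv]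
    refine ctr_line hF (h₁ _ hP₁) (h₂ _ hP₂) (by rw [h12]; exact pow_ne_zero _ hne) ?_
    simp only [herm_add_left, hF.herm_add_right, herm_smul_left, herm_smul_right, hP₁, hP₂, h12,
      h21]
    rw [hF.add_pow, hsq]
    linear_combination hs' - (e₀ + s) * hσ - (e₀ ^ q - s) * hσq
  by_cases hτ : τ ^ q = τ
  swap
  · exact gen h₁ h₂ hd τ hτ
  rcases eq_or_ne τ 0 with rfl | hτ0
  · simpa using h₁
  obtain ⟨ω, hω0, hω, hωne⟩ := exists_skew_scaling hF hb h2
  have h' := gen h₁ h₂ hd ω hωne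
  have hτω : (τ / ω) ^ q ≠ τ / ω := by
    rw [div_pow, hτ, hω, div_neg]
    intro h
    have : 2 * (τ / ω) = 0 := by linear_combination -h
    exact div_ne_zero hτ0 hω0 ((mul_eq_zero.1 this).resolve_left h2)
  have hd' : ((1 - ω) * α₁ + ω * α₂ - α₁) * ((1 - ω) * α₁ + ω * α₂ - α₁) ^ q * herm q y₁ y₁ +
      ((1 - ω) * β₁ + ω * β₂ - β₁) * ((1 - ω) * β₁ + ω * β₂ - β₁) ^ q * herm q y₂ y₂ ≠ 0 := by
    rw [show (1 - ω) * α₁ + ω * α₂ - α₁ = ω * (α₂ - α₁) by ring,
      show (1 - ω) * β₁ + ω * β₂ - β₁ = ω * (β₂ - β₁) by ring, mul_pow, mul_pow]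
    refine fun h => mul_ne_zero (mul_ne_zero hω0 (pow_ne_zero q hω0)) hd ?_
    linear_combination h
  have := gen h₁ h' hd' (τ / ω) hτω
  convert this using 1 <;> field_simp <;> ring

/-- A rational centre has every point off its perpendicular as a centre. -/
lemma ctr_of_not_orth (hp : p ∈ ctr hF M) {x : Fin 4 → F} (hxx : herm q x x = 0)
    (hxp : herm q x p ≠ 0) : x ∈ ctr hF M := by
  have hp0 : p ≠ 0 := fun h0 => by simpa [h0] using Φ.pf
  have hrat : ∀ α β : F, α ^ q = α → β ^ q = β → Above hF M p f y₁ y₂ α β := by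
    intro α β hα hβ c hc
    obtain ⟨c₀, hc₀, hcc₀⟩ := exists_rat_pt hF hb h2 Φ hα hβ
    have hb₀ := bar_pt hF hb h2 Φ hα hβ hc₀
    obtain ⟨k, hk, -, hkp⟩ := exists_move hF hb h2 hK Φ.barp hb₀ Φ.pp hcc₀ hp0 fun h0 => by
      have := Φ.herm_pt_p hF α β c₀
      rw [h0, herm_zero_left] at this
      exact zero_ne_one this
    refine ctr_pt_all hF Φ hp (c := c₀) ?_ c hc
    rw [← hkp]
    exact ctr_map hF hp hk
  have h00 := hrat 0 0 (zero_pow hF.q_ne_zero) (zero_pow hF.q_ne_zero)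
  have hα : ∀ α : F, Above hF M p f y₁ y₂ α 0 := fun α => by
    have := above_line hF hb h2 Φ hp h00 (hrat 1 0 (one_pow q) (zero_pow hF.q_ne_zero))
      (by simp [Φ.n1, zero_pow hF.q_ne_zero]) α
    simpa using this
  have hβ : ∀ β : F, Above hF M p f y₁ y₂ 0 β := fun β => by
    have := above_line hF hb h2 Φ hp h00 (hrat 0 1 (zero_pow hF.q_ne_zero) (one_pow q))
      (by simp [Φ.n2, zero_pow hF.q_ne_zero]) β
    simpa using this
  have hall : ∀ α β : F, Above hF M p f y₁ y₂ α β := by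
    intro α β
    have key : ∀ τ : F, τ ≠ 0 → 1 - τ ≠ 0 →
        (α / (1 - τ)) * (α / (1 - τ)) ^ q * herm q y₁ y₁ +
          (β / τ) * (β / τ) ^ q * herm q y₂ y₂ ≠ 0 → Above hF M p f y₁ y₂ α β := by
      intro τ h0 h1 hne
      have := above_line hF hb h2 Φ hp (hα (α / (1 - τ))) (hβ (β / τ)) (by
        simp only [zero_sub, sub_zero, hF.neg_pow]
        intro h; exact hne (by linear_combination h)) τ
      simpa [mul_div_cancel₀ _ h0, mul_div_cancel₀ _ h1] using this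
    rcases eq_or_ne α 0 with rfl | hα0
    · exact hβ β
    obtain ⟨ω, hω0, hω, hωne⟩ := exists_skew_scaling hF hb h2
    by_cases hz : α * α ^ q * herm q y₁ y₁ + β * β ^ q * herm q y₂ y₂ = 0
    · have h1ω : 1 - ω ≠ 0 := fun h => hωne (by rw [← sub_eq_zero.1 h, one_pow])
      refine key ω hω0 h1ω fun h => ?_
      have h1ω' : 1 + ω ≠ 0 := fun h0 => hωne (by
        rw [eq_neg_of_add_eq_zero_right h0, hF.neg_pow, one_pow])
      have hne' : -ω ≠ 0 := neg_ne_zero.2 hω0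
      rw [div_pow, div_pow, hF.sub_pow, one_pow, hω, sub_neg_eq_add] at h
      field_simp at h
      have h' : α * α ^ q * herm q y₁ y₁ = 0 := by linear_combination h + (1 - ω * ω) * hz
      exact mul_ne_zero (mul_ne_zero hα0 (pow_ne_zero _ hα0)) Φ.n1 h'
    · have h12 : (1 : F) - 1 / 2 = 1 / 2 := by field_simp; ring
      refine key (1 / 2) (one_div_ne_zero h2) (by rw [h12]; exact one_div_ne_zero h2) fun h => hz ?_
      simp only [h12, div_pow, one_pow, fix_two hF hb h2] at h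
      field_simp at h
      exact (mul_eq_zero.1 h).resolve_left (pow_ne_zero 2 h2)
  rw [Φ.eq_pt hF hxp] at hxx ⊢
  refine ctr_smul hF (hall _ _ _ ?_) _
  rw [herm_smul_left, herm_smul_right] at hxx
  exact (mul_eq_zero.1 ((mul_eq_zero.1 hxx).resolve_left hxp)).resolve_left (pow_ne_zero _ hxp)

omit Φ in
/-- A transvection at a rational point gives the special unitary group. -/
theorem SUG_le_of_trv {r : Fin 4 → F} (hr : bar r = r) (hrr : herm q r r = 0) (hr0 : r ≠ 0) {δ : F}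
    (hδ : TrvCond q r δ) (hδ0 : δ ≠ 0) (hM : trv hF hδ ∈ M) : SUG 4 F q ≤ M := by
  obtain ⟨f, y₁, y₂, Φ⟩ := exists_frame hF hb h2 hr hrr hr0
  have hrc := ctr_of_trv hF hb h2 Φ hK hδ hδ0 hM
  have hall : ∀ s, bar s = s → herm q s s = 0 → s ∈ ctr hF M := fun s hs hss => by
    rcases eq_or_ne s 0 with rfl | hs0
    · simpa using ctr_smul hF hrc 0
    obtain ⟨k, hk, -, rfl⟩ := exists_move hF hb h2 hK hr hs hrr hss hr0 hs0
    exact ctr_map hF hrc hk
  rw [SUG_eq_TG hF (by norm_num) (by omega), TG, Subgroup.closure_le]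
  rintro g ⟨e, a, he, hg⟩
  rw [mem_TG_generator hF he hg]
  suffices e ∈ ctr hF M from this.2 a he
  rcases eq_or_ne e 0 with rfl | he0
  · simpa using ctr_smul hF hrc 0
  by_cases her : herm q e r = 0
  · obtain ⟨s, hs, hss, hsr, hes⟩ := exists_rat_seeing hF hb h2 Φ he0 her
    obtain ⟨f', z₁, z₂, Ψ⟩ := exists_frame hF hb h2 hs hss fun h => hsr (by rw [h, herm_zero_left])
    exact ctr_of_not_orth hF hb h2 Ψ hK (hall s hs hss) he.1 hes
  · exact ctr_of_not_orth hF hb h2 Φ hK hrc he.1 her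

end Cfsg.Agent.SU4.Orth
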