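import Cfsg.Agent.SU4.OrthStab

/-!
Orthogonal subfield structures in dimension four: in a proper overgroup, an image of a rational
isotropic point orthogonal to a rational one is rational.
-/

set_option autoImplicit false
set_option linter.unusedSectionVars false
set_option linter.style.haveILetI false

namespace Cfsg.Agent.SU4.Orth

open Matrix Cfsg.Geo Cfsg.Agent.Classical.U Cfsg.Agent.ClassicalMax Cfsg.Agent.GeoClasses Module
open Cfsg.Agent.Forms (hperp mem_hperp finrank_hperp hperp_hperp herm_comm_zero)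
open scoped MatrixGroups Matrix

universe u

variable {F : Type u} [Field F] {q : ℕ} (hF : SqField F q) {bar : (Fin 4 → F) → (Fin 4 → F)}
  (hb : RatStr q (1 : F) bar) (h2 : (2 : F) ≠ 0)
include hF hb h2

/-- A line stable under the involution is rational. -/
lemma exists_rat_smul {x : Fin 4 → F} (hx0 : x ≠ 0) (hx : bar x ∈ F ∙ x) :
    ∃ (c : F) (r : Fin 4 → F), c ≠ 0 ∧ bar r = r ∧ r ≠ 0 ∧ x = c • r := by
  have hst : IsBarStable bar (F ∙ x) := fun v hv => by
    obtain ⟨a, rfl⟩ := Submodule.mem_span_singleton.1 hv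
    rw [hb.smul]
    exact Submodule.smul_mem _ _ hx
  obtain ⟨r, hr, hrb, hr0⟩ := RatStr.exists_fix_not_mem hF hb hst (N := ⊥) fun h => hx0
    (by simpa using h (Submodule.mem_span_singleton_self x))
  rw [Submodule.mem_bot] at hr0
  obtain ⟨a, rfl⟩ := Submodule.mem_span_singleton.1 hr
  have ha : a ≠ 0 := fun h => hr0 (by rw [h, zero_smul])
  exact ⟨a⁻¹, a • x, inv_ne_zero ha, hrb, hr0, by rw [inv_smul_smul₀ ha]⟩

omit hb h2 in
/-- A totally isotropic line is its own perpendicular. -/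
lemma mem_line_of_orth {p e v : Fin 4 → F} (hp0 : p ≠ 0) (hep : e ∉ F ∙ p) (hpp : herm q p p = 0)
    (hee : herm q e e = 0) (he : herm q e p = 0) (h1 : herm q v p = 0) (h2' : herm q v e = 0) :
    v ∈ Submodule.span F ({p, e} : Set (Fin 4 → F)) := by
  have hli : LinearIndependent F ![p, e] := by
    rw [LinearIndependent.pair_iff' hp0]
    exact fun c hc => hep (Submodule.mem_span_singleton.2 ⟨c, hc⟩)
  have h3 : finrank F (Submodule.span F ({p, e} : Set (Fin 4 → F))) = 2 := by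
    rw [show ({p, e} : Set (Fin 4 → F)) = Set.range ![p, e] by ext x; simp [eq_comm, or_comm],
      finrank_span_eq_card hli]
    simp
  have hle : Submodule.span F ({p, e} : Set (Fin 4 → F)) ≤ hperp q (Submodule.span F {p, e}) := by
    intro w hw
    obtain ⟨a, b, rfl⟩ := Submodule.mem_span_pair.1 hw
    rw [mem_hperp_pair hF]
    simp [herm_add_left, herm_smul_left, hpp, hee, he, herm_comm_zero hF he]
  rw [Submodule.eq_of_le_of_finrank_le hle (by rw [finrank_hperp hF, h3]), mem_hperp_pair hF]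
  exact ⟨h1, h2'⟩

lemma exists_parameter (hq : 5 ≤ q) {a θ : F} (ha : a ≠ 0) (hθ : θ ^ q ≠ θ) :
    ∃ r₀ r' : F, r₀ ^ q = r₀ ∧ r' ^ q = r' ∧ r' ≠ r₀ ∧
      (a * (r₀ - θ) * (θ - r')) ^ q = a * (r₀ - θ) * (θ - r') := by
  haveI : Finite F := hF.1
  haveI : Fintype F := Fintype.ofFinite F
  classical
  set A := a ^ q - a with hA
  set B := (a * θ) ^ q - a * θ with hB
  set C := (a * θ * θ) ^ q - a * θ * θ with hC
  have hAB : A ≠ 0 ∨ B ≠ 0 := by
    by_contra h
    push Not at h
    obtain ⟨h1, h3⟩ := h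
    rw [hA, sub_eq_zero] at h1
    rw [hB, sub_eq_zero, mul_pow, h1] at h3
    exact hθ (mul_left_cancel₀ ha h3)
  set P : Polynomial F := (Polynomial.C A * Polynomial.X - Polynomial.C B) *
    (Polynomial.C A * Polynomial.X ^ 2 - Polynomial.C (2 * B) * Polynomial.X + Polynomial.C C)
    with hP
  have hP0 : P ≠ 0 := by
    refine mul_ne_zero (fun h => ?_) (fun h => ?_)
    · have e1 := congrArg (Polynomial.coeff · 1) h
      have e0 := congrArg (Polynomial.coeff · 0) h
      simp at e1 e0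
      exact hAB.elim (fun h' => h' e1) (fun h' => h' e0)
    · have e1 := congrArg (Polynomial.coeff · 1) h
      have e0 := congrArg (Polynomial.coeff · 2) h
      simp [Polynomial.coeff_X, Polynomial.coeff_C] at e1 e0
      exact hAB.elim (fun h' => h' e0) (fun h' => h' (e1.resolve_left h2))
  have hdeg : P.natDegree ≤ 3 := by rw [hP]; compute_degree
  have hfix : (Finset.univ.filter fun x : F => x ^ q = x).card = q := by
    have := card_fixed_qConj hF
    rw [Nat.card_eq_fintype_card] at this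
    conv_rhs => rw [← this]
    rw [Fintype.card_of_subtype]
    intro x
    simp [qConj_apply]
  obtain ⟨r₀, hr₀, hr₀'⟩ : ∃ r₀ : F, r₀ ^ q = r₀ ∧ P.eval r₀ ≠ 0 := by
    by_contra hcon
    push Not at hcon
    have hsub : (Finset.univ.filter fun x : F => x ^ q = x) ⊆ P.roots.toFinset := fun x hx => by
      rw [Multiset.mem_toFinset, Polynomial.mem_roots hP0]
      exact hcon x (Finset.mem_filter.1 hx).2
    have := (Finset.card_le_card hsub).trans
      ((Multiset.toFinset_card_le _).trans ((Polynomial.card_roots' P).trans hdeg))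
    omega
  simp only [hP, Polynomial.eval_mul, Polynomial.eval_sub, Polynomial.eval_add, Polynomial.eval_C,
    Polynomial.eval_X, Polynomial.eval_pow, mul_ne_zero_iff] at hr₀'
  set D := (a * (r₀ - θ)) ^ q - a * (r₀ - θ) with hD
  have hD0 : D ≠ 0 := fun h => hr₀'.1 (by
    rw [← h, hD, hA, hB]
    simp only [mul_pow, hF.sub_pow, hr₀]
    ring)
  set N := (a * (r₀ - θ) * θ) ^ q - a * (r₀ - θ) * θ with hN
  set r' := N / D with hr'
  have hr'D : r' * D = N := div_mul_cancel₀ _ hD0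
  have hDq : D ^ q = -D := by rw [hD, hF.sub_pow, hF.pow_pow]; ring
  have hNq : N ^ q = -N := by rw [hN, hF.sub_pow, hF.pow_pow]; ring
  have hr'q : r' ^ q = r' := by rw [hr', div_pow, hNq, hDq, neg_div_neg_eq]
  refine ⟨r₀, r', hr₀, hr'q, fun he => hr₀'.2 ?_, ?_⟩
  · rw [he, hD, hN] at hr'D
    rw [hA, hB, hC]
    simp only [mul_pow, hF.sub_pow, hr₀] at hr'D ⊢
    linear_combination hr'D
  · rw [mul_sub (a * (r₀ - θ)), hF.sub_pow, mul_pow (a * (r₀ - θ)) r', hr'q]
    rw [hD, hN] at hr'D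
    linear_combination -hr'D

variable {M : Subgroup (UG 4 F q)} (hK : ∀ g ∈ SUG 4 F q, Semi bar g → g ∈ M)
  (hno : ¬ SUG 4 F q ≤ M) (hMS : M ≤ SUG 4 F q)
include hK hno hMS

/-- No image of a rational point lies irrationally on a rational totally isotropic line. -/
lemma false_of_line (hq : 5 ≤ q) {g : UG 4 F q} (hg : g ∈ M) {r p e : Fin 4 → F} (hr : bar r = r)
    (hrr : herm q r r = 0) (hr0 : r ≠ 0) (hp : bar p = p) (hpp : herm q p p = 0) (hp0 : p ≠ 0)
    (he : bar e = e) (hee : herm q e e = 0) (hep : herm q e p = 0) (hnep : e ∉ F ∙ p) {θ c : F}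
    (hθ : θ ^ q ≠ θ) (hgr : g.1 r = c • (θ • p + e)) : False := by
  have hpe : herm q p e = 0 := herm_comm_zero hF hep
  have hc : c ≠ 0 := fun h => hr0 (g.1.injective (by rw [hgr, h, zero_smul, map_zero]))
  set L : Submodule F (Fin 4 → F) := Submodule.span F {p, e} with hL
  have hpL : p ∈ L := Submodule.subset_span (by simp)
  have heL : e ∈ L := Submodule.subset_span (by simp)
  have hTI : ∀ v ∈ L, ∀ w ∈ L, herm q v w = 0 := by
    intro v hv w hw
    obtain ⟨a, b, rfl⟩ := Submodule.mem_span_pair.1 hv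
    obtain ⟨a', b', rfl⟩ := Submodule.mem_span_pair.1 hw
    simp [herm_add_left, hF.herm_add_right, herm_smul_left, herm_smul_right, hpp, hee, hep, hpe]
  have hgrL : g.1 r ∈ L := by
    rw [hgr]
    exact L.smul_mem _ (L.add_mem (L.smul_mem _ hpL) heL)
  have hli : LinearIndependent F ![p, e] := by
    rw [LinearIndependent.pair_iff' hp0]
    exact fun c hc => hnep (Submodule.mem_span_singleton.2 ⟨c, hc⟩)
  -- an element fixing exactly the line
  have hρc : UniCond q p e 0 := ⟨hpp, hep, by rw [hee, zero_pow hF.q_ne_zero]; ring⟩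
  have hρM := hK_comm hF hb h2 hK _ (det_uni hF hρc) (RatStr.uni_barComm hF hb hp hρc
    (by rw [he, one_smul]) (by rw [zero_pow hF.q_ne_zero, mul_zero]))
  set ρ := uni hF hρc with hρ
  have hfix : ∀ v, ρ.1 v = v ↔ v ∈ L := by
    intro v
    rw [hρ, uni_apply]
    constructor
    · intro h
      have h' : herm q v p • e + (-herm q v e) • p = 0 := by
        linear_combination (norm := module) h
      obtain ⟨h1, h3⟩ := LinearIndependent.pair_iff.1 hli _ _ ((add_comm _ _).trans h')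
      exact mem_line_of_orth hF hp0 hnep hpp hee hep h3 (neg_eq_zero.1 h1)
    · intro hv
      rw [hTI v hv p hpL, hTI v hv e heL]
      simp
  set ρ' := g⁻¹ * ρ * g with hρ'
  have hρ'M : ρ' ∈ M := mul_mem (mul_mem (inv_mem hg) hρM) hg
  have hfix' : ∀ v, ρ'.1 v = v ↔ g.1 v ∈ L := fun v => by
    rw [← hfix, hρ', Subgroup.coe_mul, Subgroup.coe_mul, LinearEquiv.mul_apply,
      LinearEquiv.mul_apply]
    exact g.1.symm_apply_eq
  obtain ⟨ν, hν⟩ := semi_of_map hF hb h2 hK hno hMS hρ'M hr hr hrr hrr hr0 hr0 (c := 1)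
    (by rw [one_smul]; exact (hfix' r).2 hgrL)
  have hν1 : ν = 1 := by
    have h := hν r
    rw [hr, (hfix' r).2 hgrL, hr] at h
    refine smul_left_injective F hr0 ?_
    show ν • r = (1 : F) • r
    rw [one_smul, ← h]
  set L' : Submodule F (Fin 4 → F) := L.comap g.1.toLinearMap with hL'
  have hmem' : ∀ v, v ∈ L' ↔ g.1 v ∈ L := fun v => Iff.rfl
  have hst : IsBarStable bar L' := fun v hv => by
    rw [hmem', ← hfix'] at hv ⊢
    have := hν v
    rw [hν1, one_smul, hv] at this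
    exact this.symm
  obtain ⟨e', he'L, he', he'r⟩ := RatStr.exists_fix_not_mem hF hb hst (N := F ∙ r) fun hle => by
    obtain ⟨d, hd⟩ := Submodule.mem_span_singleton.1 (hle ((hmem' (g.1.symm p)).2
      (by rw [LinearEquiv.apply_symm_apply]; exact hpL)))
    have := congrArg g.1 hd
    rw [map_smul, LinearEquiv.apply_symm_apply, hgr, smul_smul] at this
    have h0 : (d * c * θ - 1) • p + (d * c) • e = 0 := by
      linear_combination (norm := module) this
    obtain ⟨h1, h3⟩ := LinearIndependent.pair_iff.1 hli _ _ h0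
    rw [h3] at h1
    exact one_ne_zero (α := F) (by linear_combination -h1)
  have he'rr : herm q e' r = 0 := by
    rw [← UG_app g]
    exact hTI _ he'L _ hgrL
  have he'e' : herm q e' e' = 0 := by
    rw [← UG_app g]
    exact hTI _ he'L _ he'L
  obtain ⟨f', z₁, z₂, Ψ⟩ := exists_frame hF hb h2 hr hrr hr0
  obtain ⟨y, hy, hyr, he'y⟩ : ∃ y, bar y = y ∧ herm q y r = 0 ∧ herm q e' y ≠ 0 := by
    by_contra hcon
    push Not at hcon
    apply he'r
    refine Submodule.mem_span_singleton.2 ⟨herm q e' f', Ψ.ext hF ?_ ?_ ?_ ?_⟩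
    · rw [herm_smul_left, Ψ.pp, mul_zero, he'rr]
    · rw [herm_smul_left, Ψ.pf, mul_one]
    · rw [herm_smul_left, Ψ.p1, mul_zero, hcon z₁ Ψ.bar₁ Ψ.o1p]
    · rw [herm_smul_left, Ψ.p2, mul_zero, hcon z₂ Ψ.bar₂ Ψ.o2p]
  let φ : (Fin 4 → F) →ₗ[F] F := c • ((hermL q y).comp g.1.symm.toLinearMap)
  have hφ : ∀ v, φ v = c * herm q (g.1.symm v) y := fun v => rfl
  have hφgr : φ (θ • p + e) = 0 := by
    have h1 : φ (g.1 r) = 0 := by
      rw [hφ, LinearEquiv.symm_apply_apply, herm_comm_zero hF hyr, mul_zero]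
    rw [hgr, map_smul, smul_eq_mul] at h1
    exact (mul_eq_zero.1 h1).resolve_left hc
  set a := -φ p with ha
  have hae : φ e = a * θ := by
    rw [map_add, map_smul, smul_eq_mul] at hφgr
    rw [ha]; linear_combination hφgr
  have ha0 : a ≠ 0 := by
    intro h
    have hp' : φ p = 0 := by rw [ha] at h; linear_combination -h
    rw [h, zero_mul] at hae
    obtain ⟨u, v, huv⟩ := Submodule.mem_span_pair.1 ((hmem' e').1 he'L)
    have h1 : φ (g.1 e') = 0 := by
      rw [← huv, map_add, map_smul, map_smul, hp', hae, smul_zero, smul_zero, add_zero]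
    rw [hφ, LinearEquiv.symm_apply_apply] at h1
    exact mul_ne_zero hc he'y h1
  -- the conjugated elements on the line
  have ht : ∀ s : F, s ^ q = s → ∃ t ∈ M, ∀ v ∈ L, t.1 v = v - (s * φ v) • (θ • p + e) := by
    intro s hs
    have hb0 : (-(s * s * herm q y y) / 2) ^ q = -(s * s * herm q y y) / 2 := by
      rw [div_pow, hF.neg_pow, mul_pow, mul_pow, hs, hF.herm_symm, fix_two hF hb h2]
    have hcy : UniCond q r (s • y) (-(s * s * herm q y y) / 2) := by
      refine ⟨hrr, by rw [herm_smul_left, hyr, mul_zero], ?_⟩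
      rw [herm_smul_left, herm_smul_right, hs, hb0]
      field_simp
      ring
    have hyM := hK_comm hF hb h2 hK _ (det_uni hF hcy) (RatStr.uni_barComm hF hb hr hcy
      (by rw [hb.smul, hs, hy, one_smul]) (by rw [hb0, one_mul]))
    refine ⟨g * uni hF hcy * g⁻¹, mul_mem (mul_mem hg hyM) (inv_mem hg), fun v hv => ?_⟩
    have hv' : herm q (g.1.symm v) r = 0 := by
      rw [← UG_app g, LinearEquiv.apply_symm_apply]
      exact hTI _ hv _ hgrL
    rw [Subgroup.coe_mul, Subgroup.coe_mul, LinearEquiv.mul_apply, LinearEquiv.mul_apply]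
    show g.1 ((uni hF hcy).1 (g.1.symm v)) = _
    rw [uni_apply, hv', herm_smul_right, hs, hφ]
    simp only [map_add, map_smul, LinearEquiv.apply_symm_apply, hgr]
    module
  obtain ⟨r₀, r', hr₀, hr', hne, hreal⟩ := exists_parameter hF hb h2 hq ha0 hθ
  set E := a * (r₀ - θ) * (θ - r') with hE
  have hθr : ∀ x : F, x ^ q = x → θ - x ≠ 0 := fun x hx h => hθ (by rw [sub_eq_zero.1 h, hx])
  have hE0 : E ≠ 0 := mul_ne_zero (mul_ne_zero ha0
    (fun h => hθr r₀ hr₀ (by linear_combination -h))) (hθr r' hr')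
  set s := (r' - r₀) / E with hs
  have hsq : s ^ q = s := by rw [hs, div_pow, hF.sub_pow, hr', hr₀, hreal]
  have hsE : s * E = r' - r₀ := div_mul_cancel₀ _ hE0
  obtain ⟨t, htM, htv⟩ := ht s hsq
  have hrat : ∀ x : F, x ^ q = x → bar (x • p + e) = x • p + e ∧
      herm q (x • p + e) (x • p + e) = 0 ∧ x • p + e ≠ 0 := fun x hx => by
    refine ⟨by rw [hb.add, hb.smul, hp, he, hx],
      hTI _ (L.add_mem (L.smul_mem _ hpL) heL) _ (L.add_mem (L.smul_mem _ hpL) heL), fun h => ?_⟩
    exact hnep (Submodule.mem_span_singleton.2 ⟨-x, by linear_combination (norm := module) -h⟩)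
  obtain ⟨h1, h1', h1''⟩ := hrat r₀ hr₀
  obtain ⟨h3, h3', h3''⟩ := hrat r' hr'
  have himg : t.1 (r₀ • p + e) = (1 + s * a * (r₀ - θ)) • (r' • p + e) := by
    rw [htv _ (L.add_mem (L.smul_mem _ hpL) heL), map_add, map_smul, hae, smul_eq_mul]
    have hp' : φ p = -a := by rw [ha, neg_neg]
    rw [hp']
    match_scalars
    · rw [hE] at hsE
      linear_combination hsE
    · ring
  obtain ⟨μ, hμ⟩ := semi_of_map hF hb h2 hK hno hMS htM h1 h3 h1' h3' h1'' h3'' himg
  have hbx : bar (θ • p + e) = θ ^ q • p + e := by rw [hb.add, hb.smul, hp, he]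
  have h4 := hμ (θ • p + e)
  rw [htv _ (L.add_mem (L.smul_mem _ hpL) heL), hφgr, mul_zero, zero_smul, sub_zero, hbx,
    htv _ (L.add_mem (L.smul_mem _ hpL) heL), map_add, map_smul, hae, smul_eq_mul,
    show φ p = -a by rw [ha, neg_neg]] at h4
  set K := s * (θ ^ q * -a + a * θ) with hKdef
  have h5 : (θ ^ q - μ * (θ ^ q - K * θ)) • p + (1 - μ * (1 - K)) • e = 0 := by
    linear_combination (norm := module) h4
  obtain ⟨h6, h7⟩ := LinearIndependent.pair_iff.1 hli _ _ h5
  have h8 : μ * K * (θ ^ q - θ) = 0 := by linear_combination θ ^ q * h7 - h6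
  have hK0 : K ≠ 0 := by
    rw [hKdef, show θ ^ q * -a + a * θ = -a * (θ ^ q - θ) by ring]
    exact mul_ne_zero (div_ne_zero (sub_ne_zero.2 hne) hE0)
      (mul_ne_zero (neg_ne_zero.2 ha0) (sub_ne_zero.2 hθ))
  have hμ0 : μ ≠ 0 := fun h => one_ne_zero (α := F) (by rw [h] at h7; linear_combination h7)
  exact mul_ne_zero (mul_ne_zero hμ0 hK0) (sub_ne_zero.2 hθ) h8

/-- An irrational image orthogonal to a rational point and to its own conjugate does not occur. -/
lemma false_of_degenerate (hq : 5 ≤ q) {g : UG 4 F q} (hg : g ∈ M) {r p : Fin 4 → F}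
    (hr : bar r = r) (hrr : herm q r r = 0) (hr0 : r ≠ 0) (hp : bar p = p) (hpp : herm q p p = 0)
    (hp0 : p ≠ 0) (hgp : herm q (g.1 r) p = 0) (hgg : herm q (g.1 r) (bar (g.1 r)) = 0)
    (hirr : bar (g.1 r) ∉ F ∙ g.1 r) : False := by
  set w := g.1 r with hw
  have hww : herm q w w = 0 := by rw [hw, UG_app]; exact hrr
  have hw0 : w ≠ 0 := fun h => hr0 (g.1.injective (by rw [← hw, h, map_zero]))
  have hwp : w ∉ F ∙ p := fun h => hirr (by
    obtain ⟨a, ha⟩ := Submodule.mem_span_singleton.1 h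
    rw [← ha, hb.smul, hp]
    rcases eq_or_ne a 0 with rfl | ha0
    · rw [zero_pow hF.q_ne_zero, zero_smul]; exact zero_mem _
    · exact Submodule.mem_span_singleton.2 ⟨a ^ q / a, by rw [smul_smul, div_mul_cancel₀ _ ha0]⟩)
  have hbw : bar w ∈ Submodule.span F ({p, w} : Set (Fin 4 → F)) :=
    mem_line_of_orth hF hp0 hwp hpp hww hgp
      (by rw [RatStr.herm_bar_left hF hb, hp, hgp, zero_pow hF.q_ne_zero, mul_zero])
      (herm_comm_zero hF hgg)
  have hst : IsBarStable bar (Submodule.span F ({p, w} : Set (Fin 4 → F))) :=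
    RatStr.stable_span hF hb fun x hx => by
      rcases hx with rfl | rfl
      · rw [hp]; exact Submodule.subset_span (by simp)
      · exact hbw
  obtain ⟨e, heL, he, hep⟩ := RatStr.exists_fix_not_mem hF hb hst (N := F ∙ p) fun h =>
    hwp (h (Submodule.subset_span (by simp)))
  obtain ⟨a, b, hab⟩ := Submodule.mem_span_pair.1 heL
  have hb0 : b ≠ 0 := fun h => hep (by
    rw [← hab, h, zero_smul, add_zero]
    exact Submodule.smul_mem _ _ (Submodule.mem_span_singleton_self p))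
  have hee : herm q e e = 0 := by
    rw [← hab]
    simp [herm_add_left, hF.herm_add_right, herm_smul_left, herm_smul_right, hpp, hww, hgp,
      herm_comm_zero hF hgp]
  have hep' : herm q e p = 0 := by
    rw [← hab, herm_add_left, herm_smul_left, herm_smul_left, hpp, hgp]
    ring
  refine false_of_line hF hb h2 hK hno hMS hq hg hr hrr hr0 hp hpp hp0 he hee hep' hep
    (θ := -a) (c := b⁻¹) (fun h => hirr ?_) ?_
  · have hweq : w = b⁻¹ • (e - a • p) := by
      rw [← hab]; rw [add_sub_cancel_left, inv_smul_smul₀ hb0]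
    have haq : a ^ q = a := by rw [hF.neg_pow] at h; exact neg_injective h
    refine Submodule.mem_span_singleton.2 ⟨b / b ^ q, ?_⟩
    rw [hweq, hb.smul, RatStr.map_sub' hF hb, hb.smul, he, hp, haq, smul_smul, inv_pow]
    congr 1
    field_simp
  · rw [← hw, ← hab, neg_smul, neg_add_cancel_left, inv_smul_smul₀ hb0]

omit hno hMS in
/-- The unipotents at a rational point move a general orthogonal vector along the point arbitrarily. -/
lemma exists_upper {r w : Fin 4 → F} (hr : bar r = r) (hrr : herm q r r = 0) (hr0 : r ≠ 0)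
    (hwr : herm q w r = 0) (hww : herm q w w = 0) (hwb : herm q w (bar w) ≠ 0) (β : F) :
    ∃ u ∈ M, u.1 r = r ∧ u.1 w = w + β • r := by
  obtain ⟨f, z₁, z₂, Ψ⟩ := exists_frame hF hb h2 hr hrr hr0
  have hdec := Ψ.decomp hF hb h2 w
  rw [hwr, zero_smul, zero_add] at hdec
  set u₁ := herm q w z₁ with hu₁
  set u₂ := herm q w z₂ with hu₂
  have hn1 := Ψ.n1q hF
  have hn2 := Ψ.n2q hF
  have hww' : u₁ * u₁ ^ q / herm q z₁ z₁ + u₂ * u₂ ^ q / herm q z₂ z₂ = 0 := by
    rw [← hww]
    conv_rhs => rw [hdec]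
    simp only [herm_add_left, hF.herm_add_right, herm_smul_left, herm_smul_right, Ψ.pp, Ψ.p1,
      Ψ.p2, Ψ.o1p, Ψ.o2p, Ψ.o12, Ψ.o21, div_pow, hn1, hn2]
    have := Ψ.n1
    have := Ψ.n2
    field_simp
    ring
  have hwb' : u₁ * u₁ / herm q z₁ z₁ + u₂ * u₂ / herm q z₂ z₂ ≠ 0 := by
    refine fun h => hwb ?_
    rw [← h]
    conv_lhs => rw [hdec]
    simp only [herm_add_left, hF.herm_add_right, herm_smul_left, herm_smul_right, Ψ.pp, Ψ.p1,
      Ψ.p2, Ψ.o1p, Ψ.o2p, Ψ.o12, Ψ.o21, hb.add, hb.smul, Ψ.barp, Ψ.bar₁, Ψ.bar₂, div_pow, mul_pow,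
      hn1, hn2, hF.pow_pow]
    have := Ψ.n1
    have := Ψ.n2
    field_simp
    ring
  set D := u₁ * u₂ ^ q - u₁ ^ q * u₂ with hD
  have hD0 : D ≠ 0 := by
    intro h
    apply hwb'
    have h1 : u₁ ^ q * u₂ = u₁ * u₂ ^ q := by rw [hD] at h; linear_combination -h
    rcases eq_or_ne u₁ 0 with h0 | h0
    · rw [h0] at hww' ⊢
      have hu2 : u₂ = 0 := by
        by_contra hne
        exact mul_ne_zero hne (pow_ne_zero q hne)
          (by simpa [Ψ.n2, zero_pow hF.q_ne_zero] using hww')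
      rw [hu2]; ring
    · have h0q : u₁ ^ q ≠ 0 := pow_ne_zero _ h0
      refine (mul_eq_zero.1 ?_).resolve_left h0q
      linear_combination u₁ * hww' + (u₂ / herm q z₂ z₂) * h1
  have hDq : D ^ q = -D := by
    rw [hD, hF.sub_pow, mul_pow, mul_pow, hF.pow_pow, hF.pow_pow]; ring
  set γ := -β with hγ
  set s := (γ * u₂ ^ q - γ ^ q * u₂) / D with hs
  set t := (γ ^ q * u₁ - γ * u₁ ^ q) / D with ht
  have hsq : s ^ q = s := by
    rw [hs, div_pow, hDq, hF.sub_pow, mul_pow, mul_pow, hF.pow_pow, hF.pow_pow, div_neg,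
      ← neg_div, neg_sub]
  have htq : t ^ q = t := by
    rw [ht, div_pow, hDq, hF.sub_pow, mul_pow, mul_pow, hF.pow_pow, hF.pow_pow, div_neg,
      ← neg_div, neg_sub]
  set y := s • z₁ + t • z₂ with hy
  have hby : bar y = y := by rw [hy, hb.add, hb.smul, hb.smul, hsq, htq, Ψ.bar₁, Ψ.bar₂]
  have hyr : herm q y r = 0 := by
    rw [hy, herm_add_left, herm_smul_left, herm_smul_left, Ψ.o1p, Ψ.o2p]; ring
  have hb0 : (-(herm q y y) / 2) ^ q = -(herm q y y) / 2 := by
    rw [div_pow, hF.neg_pow, hF.herm_symm, fix_two hF hb h2]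
  have hcy : UniCond q r y (-(herm q y y) / 2) := ⟨hrr, hyr, by rw [hb0]; field_simp; ring⟩
  refine ⟨uni hF hcy, hK_comm hF hb h2 hK _ (det_uni hF hcy) (RatStr.uni_barComm hF hb hr hcy
      (by rw [hby, one_smul]) (by rw [hb0, one_mul])), ?_, ?_⟩
  · rw [uni_apply, hrr, herm_comm_zero hF hyr]; simp
  · have hwy : herm q w y = γ := by
      rw [hy, hF.herm_add_right, herm_smul_right, herm_smul_right, hsq, htq, ← hu₁, ← hu₂, hs, ht,
        div_mul_eq_mul_div, div_mul_eq_mul_div, ← add_div, div_eq_iff hD0, hD]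
      ring
    rw [uni_apply, hwr, hwy, hγ]
    module

/-- No general image of a rational point is orthogonal to a rational point. -/
lemma false_of_generic (hq : 5 ≤ q) {g : UG 4 F q} (hg : g ∈ M) {r p : Fin 4 → F} (hr : bar r = r)
    (hrr : herm q r r = 0) (hr0 : r ≠ 0) (hp : bar p = p) (hpp : herm q p p = 0) (hp0 : p ≠ 0)
    (hgp : herm q (g.1 r) p = 0) (hw : herm q (g.1 r) (bar (g.1 r)) ≠ 0)
    (hw' : herm q (g.1.symm p) (bar (g.1.symm p)) ≠ 0) : False := by
  set w := g.1 r with hwdef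
  have hww : herm q w w = 0 := by rw [hwdef, UG_app]; exact hrr
  have hgw : g.1 (g.1.symm p) = p := g.1.apply_symm_apply p
  have hpr : herm q (g.1.symm p) r = 0 := by
    rw [← UG_app g, hgw]; exact herm_comm_zero hF hgp
  have hE : ∀ a : F, ∃ u ∈ M, u.1 p = p ∧ u.1 w = w + a • p :=
    fun a => exists_upper hF hb h2 hK hp hpp hp0 hgp hww hw a
  have hF' : ∀ a : F, ∃ u ∈ M, u.1 w = w ∧ u.1 p = p + a • w := by
    intro a
    obtain ⟨u, hu, hur, huw⟩ := exists_upper hF hb h2 hK hr hrr hr0 hpr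
      (by rw [← UG_app g, hgw]; exact hpp) hw' a
    refine ⟨g * u * g⁻¹, mul_mem (mul_mem hg hu) (inv_mem hg), ?_, ?_⟩
    · show g.1 (u.1 (g.1.symm w)) = w
      rw [hwdef, LinearEquiv.symm_apply_apply, hur]
    · show g.1 (u.1 (g.1.symm p)) = _
      rw [huw, map_add, map_smul, hgw]
  have hσ : ∀ a : F, a ≠ 0 → ∃ u ∈ M, u.1 p = (-a⁻¹) • w ∧ u.1 w = a • p := by
    intro a ha
    obtain ⟨e, he, hep, hew⟩ := hE a
    obtain ⟨l, hl, hlw, hlp⟩ := hF' (-a⁻¹)
    refine ⟨e * l * e, mul_mem (mul_mem he hl) he, ?_, ?_⟩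
    · rw [Subgroup.coe_mul, Subgroup.coe_mul, LinearEquiv.mul_apply, LinearEquiv.mul_apply, hep,
        hlp, map_add, map_smul, hep, hew]
      match_scalars <;> field_simp <;> ring
    · rw [Subgroup.coe_mul, Subgroup.coe_mul, LinearEquiv.mul_apply, LinearEquiv.mul_apply, hew,
        map_add, map_smul, hlw, hlp, map_add, map_smul, map_add, map_smul, hep, hew]
      match_scalars <;> field_simp <;> ring
  obtain ⟨f, y₁, y₂, Φ⟩ := exists_frame hF hb h2 hp hpp hp0
  haveI : Finite F := hF.1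
  haveI : Fintype F := Fintype.ofFinite F
  obtain ⟨γ, hγ⟩ := IsCyclic.exists_generator (α := Fˣ)
  set l : F := ((γ : Fˣ) : F) with hl
  have hl0 : l ≠ 0 := γ.ne_zero
  obtain ⟨s, hs, hsp, hsw⟩ := hσ l hl0
  obtain ⟨s', hs', hsp', hsw'⟩ := hσ (-1) (by norm_num)
  set h := s * s' with hh
  have hhp : h.1 p = l • p := by
    rw [hh, Subgroup.coe_mul, LinearEquiv.mul_apply, hsp', map_smul, hsw]
    simp
  have hhw : h.1 w = l⁻¹ • w := by
    rw [hh, Subgroup.coe_mul, LinearEquiv.mul_apply, hsw', map_smul, hsp]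
    simp
  obtain ⟨ν, hν⟩ := semi_of_fix hF hb h2 hK Φ hno hMS (mul_mem hs hs') hhp
  have hν1 : l ^ q = ν * l := by
    have h1 := hν p
    rw [hp, hhp, hb.smul, hp, smul_smul] at h1
    exact smul_left_injective F hp0 h1
  have hν0 : ν ≠ 0 := fun h => pow_ne_zero q hl0 (by rw [hν1, h, zero_mul])
  have hbw : h.1 (bar w) = ((l ^ q)⁻¹ / ν) • bar w := by
    have h1 := hν w
    rw [hhw, hb.smul, inv_pow] at h1
    rw [div_eq_mul_inv, mul_comm, mul_smul, h1, inv_smul_smul₀ hν0]
  have h1 := UG_app h w (bar w)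
  rw [hhw, hbw, herm_smul_left, herm_smul_right, div_pow, inv_pow, hF.pow_pow] at h1
  have hνq : ν ^ q * l ^ q = l := by
    have := congrArg (fun x => x ^ q) hν1
    simpa [mul_pow, hF.pow_pow] using this.symm
  have h9 : l⁻¹ * (l⁻¹ / ν ^ q) = 1 := mul_right_cancel₀ hw (by rw [one_mul, mul_assoc, h1])
  have h10 : l ^ q = l ^ 3 := by
    have hνq0 : ν ^ q ≠ 0 := pow_ne_zero _ hν0
    field_simp at h9
    linear_combination (l * l) * hνq + l ^ q * h9
  have h11 : γ ^ (q - 3) = 1 := by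
    apply Units.ext
    rw [Units.val_pow_eq_pow_val, Units.val_one, ← hl]
    refine mul_right_cancel₀ (pow_ne_zero 3 hl0) ?_
    rw [← pow_add, one_mul, show q - 3 + 3 = q by omega, h10]
  have h12 := Nat.le_of_dvd (by omega) (orderOf_dvd_of_pow_eq_one h11)
  rw [orderOf_eq_card_of_forall_mem_zpowers hγ, hF.card_units] at h12
  have : q + 1 ≤ (q - 1) * (q + 1) := Nat.le_mul_of_pos_left _ (by omega)
  omega

/-- An image of a rational point orthogonal to a rational point comes from the structure. -/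
theorem semi_of_orth (hq : 5 ≤ q) {g : UG 4 F q} (hg : g ∈ M) {r p : Fin 4 → F} (hr : bar r = r)
    (hrr : herm q r r = 0) (hr0 : r ≠ 0) (hp : bar p = p) (hpp : herm q p p = 0) (hp0 : p ≠ 0)
    (hgp : herm q (g.1 r) p = 0) : Semi bar g := by
  have hgr0 : g.1 r ≠ 0 := fun h => hr0 (g.1.injective (by rw [h, map_zero]))
  by_cases hirr : bar (g.1 r) ∈ F ∙ g.1 r
  · obtain ⟨c, r', hc, hr', hr0', hgr⟩ := exists_rat_smul hF hb h2 hgr0 hirr
    refine semi_of_map hF hb h2 hK hno hMS hg hr hr' hrr ?_ hr0 hr0' hgr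
    have := UG_app g r r
    rw [hgr, herm_smul_left, herm_smul_right, hrr] at this
    exact (mul_eq_zero.1 ((mul_eq_zero.1 this).resolve_left hc)).resolve_left (pow_ne_zero _ hc)
  have hgw : g.1 (g.1.symm p) = p := g.1.apply_symm_apply p
  have hsymm0 : g.1.symm p ≠ 0 := fun h => hp0 (by rw [← hgw, h, map_zero])
  by_cases hirr' : bar (g.1.symm p) ∈ F ∙ g.1.symm p
  · obtain ⟨c, r', hc, hr', hr0', hgr⟩ := exists_rat_smul hF hb h2 hsymm0 hirr'
    refine semi_of_map hF hb h2 hK hno hMS hg hr' hp ?_ hpp hr0' hp0 (c := c⁻¹) ?_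
    · have := UG_app g (g.1.symm p) (g.1.symm p)
      rw [hgw, hpp, hgr, herm_smul_left, herm_smul_right] at this
      exact (mul_eq_zero.1 ((mul_eq_zero.1 this.symm).resolve_left hc)).resolve_left
        (pow_ne_zero _ hc)
    · rw [show r' = c⁻¹ • g.1.symm p by rw [hgr, inv_smul_smul₀ hc], map_smul, hgw]
  exfalso
  by_cases hw : herm q (g.1 r) (bar (g.1 r)) = 0
  · exact false_of_degenerate hF hb h2 hK hno hMS hq hg hr hrr hr0 hp hpp hp0 hgp hw hirr
  by_cases hw' : herm q (g.1.symm p) (bar (g.1.symm p)) = 0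
  · refine false_of_degenerate hF hb h2 hK hno hMS hq (g := g⁻¹) (inv_mem hg) hp hpp hp0 hr hrr hr0
      ?_ hw' hirr'
    show herm q (g.1.symm p) r = 0
    rw [← UG_app g, hgw]
    exact herm_comm_zero hF hgp
  · exact false_of_generic hF hb h2 hK hno hMS hq hg hr hrr hr0 hp hpp hp0 hgp hw hw'

end Cfsg.Agent.SU4.Orth
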