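import Cfsg.Agent.SU4.OrthCentre

/-!
Orthogonal subfield structures in dimension four: in a proper overgroup the elements fixing a rational
isotropic line respect the structure.
-/

set_option autoImplicit false
set_option linter.unusedSectionVars false

namespace Cfsg.Agent.SU4.Orth

open Matrix Cfsg.Geo Cfsg.Agent.Classical.U Cfsg.Agent.ClassicalMax Cfsg.Agent.GeoClasses Module
open Cfsg.Agent.Forms (hperp mem_hperp finrank_hperp hperp_hperp herm_comm_zero)
open scoped MatrixGroups Matrix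

universe u

variable {F : Type u} [Field F] {q : ℕ}

lemma Semi.one {bar : (Fin 4 → F) → (Fin 4 → F)} : Semi bar (1 : UG 4 F q) :=
  ⟨1, fun w => by simp⟩

variable (hF : SqField F q) {bar : (Fin 4 → F) → (Fin 4 → F)} (hb : RatStr q (1 : F) bar)
include hF hb

lemma semi_of_barComm {g : UG 4 F q} (h : BarComm bar g) : Semi bar g :=
  ⟨1, fun w => by rw [one_smul]; exact h w⟩

lemma semi_mul {g g' : UG 4 F q} (h : Semi bar g) (h' : Semi bar g') : Semi bar (g * g') := by
  obtain ⟨ν, hν⟩ := h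
  obtain ⟨ν', hν'⟩ := h'
  refine ⟨ν * ν', fun w => ?_⟩
  rw [Subgroup.coe_mul, LinearEquiv.mul_apply, LinearEquiv.mul_apply, hν, hν', map_smul, smul_smul]

lemma semi_inv {g : UG 4 F q} (h : Semi bar g) : Semi bar g⁻¹ := by
  obtain ⟨ν, hν⟩ := h
  have hν0 : ν ≠ 0 := by
    intro h0
    have h1 : bar (g.1 (g.1.symm (bar (Pi.single 0 1)))) = 0 := by rw [hν, h0, zero_smul]
    rw [LinearEquiv.apply_symm_apply, hb.invol] at h1
    exact one_ne_zero (α := F) (by simpa using congrFun h1 0)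
  refine ⟨ν⁻¹, fun w => ?_⟩
  apply g.1.injective
  have h1 := hν (g.1.symm w)
  rw [LinearEquiv.apply_symm_apply] at h1
  show g.1 (bar (g.1.symm w)) = g.1 (ν⁻¹ • g.1.symm (bar w))
  rw [map_smul, LinearEquiv.apply_symm_apply, h1, inv_smul_smul₀ hν0]

lemma semi_pow {g : UG 4 F q} {ν : F} (hν : ∀ w, bar (g.1 w) = ν • g.1 (bar w)) (n : ℕ)
    (w : Fin 4 → F) : bar ((g ^ n).1 w) = ν ^ n • (g ^ n).1 (bar w) := by
  induction n generalizing w with
  | zero => simp
  | succ n ih =>
    rw [pow_succ, Subgroup.coe_mul, LinearEquiv.mul_apply, LinearEquiv.mul_apply, ih, hν, map_smul,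
      smul_smul, pow_succ]

variable (h2 : (2 : F) ≠ 0) {p f y₁ y₂ : Fin 4 → F}
include h2

lemma RatFrame.decomp (Φ : RatFrame q bar p f y₁ y₂) (w : Fin 4 → F) :
    w = herm q w p • f + herm q w f • p + (herm q w y₁ / herm q y₁ y₁) • y₁ +
      (herm q w y₂ / herm q y₂ y₂) • y₂ := by
  have := Φ.n1
  have := Φ.n2
  apply Φ.ext hF <;>
    simp only [herm_add_left, herm_smul_left, Φ.pp, Φ.ff, Φ.fp, Φ.pf, Φ.p1, Φ.p2, Φ.f1, Φ.f2,
      Φ.o1p, Φ.o2p, Φ.o1f, Φ.o2f, Φ.o12, Φ.o21] <;>
    field_simp <;> ring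

variable {M : Subgroup (UG 4 F q)} (hK : ∀ g ∈ SUG 4 F q, Semi bar g → g ∈ M)
  (Φ : RatFrame q bar p f y₁ y₂) (hno : ¬ SUG 4 F q ≤ M)
include hK hno Φ

omit Φ in
lemma barComm_of_uni {p x : Fin 4 → F} (hp : bar p = p) (hp0 : p ≠ 0) {a : F}
    (hc : UniCond q p x a) (hzM : uni hF hc ∈ M) : BarComm bar (uni hF hc) := by
  by_contra hznot
  obtain ⟨f, y₁, y₂, Φ⟩ := exists_frame hF hb h2 hp hc.1 hp0
  by_cases hA : ∃ y, bar y = y ∧ herm q y p = 0 ∧ herm q y x ^ q ≠ herm q y x
  · obtain ⟨y, hy, hyp, hyx⟩ := hA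
    set b := -(herm q y y) / 2 with hb'
    have hbq : b ^ q = b := by
      rw [hb', div_pow, hF.neg_pow, hF.herm_symm, fix_two hF hb h2]
    have hcy : UniCond q p y b := ⟨hc.1, hyp, by rw [hbq, hb']; field_simp; ring⟩
    have hyM := hK_comm hF hb h2 hK _ (det_uni hF hcy)
      (RatStr.uni_barComm hF hb hp hcy (by rw [hy, one_smul]) (by rw [hbq, one_mul]))
    set δ := herm q x y - herm q y x with hδ
    have hδq : δ ^ q = -δ := by rw [hδ, hF.sub_pow, hF.herm_symm, hF.herm_symm]; ring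
    have hδ0 : δ ≠ 0 := fun h => hyx (by rw [hF.herm_symm]; exact sub_eq_zero.1 h)
    have hd : TrvCond q p δ := trvCond_mk hc.1 hδq
    have e1 : trv hF hd * (uni hF hcy * uni hF hc) = uni hF hc * uni hF hcy := by
      rw [uni_mul hF hcy hc, trv, uni_mul, uni_mul]
      refine uni_congr hF _ _ rfl (by rw [zero_add, add_comm]) ?_
      rw [hF.herm_zero_right, hδ]
      ring
    have htM : trv hF hd ∈ M := by
      rw [← eq_mul_inv_iff_mul_eq] at e1
      rw [e1]
      exact mul_mem (mul_mem hzM hyM) (inv_mem (mul_mem hyM hzM))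
    exact hno (SUG_le_of_trv hF hb h2 hK hp hc.1 hp0 hd hδ0 htM)
  push Not at hA
  set s := herm q (bar x - x) f with hs
  have hd : bar x - x = s • p := by
    have hyy : ∀ y, bar y = y → herm q y p = 0 → herm q (bar x - x) y = 0 := by
      intro y hy hyp
      rw [herm_sub_left, RatStr.herm_bar_left hF hb, hy, one_mul, hF.herm_symm, ← hA y hy hyp,
        hF.herm_symm, sub_self]
    apply Φ.ext hF
    · rw [herm_smul_left, Φ.pp, mul_zero, herm_sub_left, RatStr.herm_bar_left hF hb, hp, one_mul,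
        hc.2.1, zero_pow hF.q_ne_zero, sub_zero]
    · rw [herm_smul_left, Φ.pf, mul_one, ← hs]
    · rw [herm_smul_left, Φ.p1, mul_zero, hyy y₁ Φ.bar₁ Φ.o1p]
    · rw [herm_smul_left, Φ.p2, mul_zero, hyy y₂ Φ.bar₂ Φ.o2p]
  have hsq : s ^ q = -s := by
    have h7 := congrArg bar hd
    rw [RatStr.map_sub' hF hb, hb.invol, hb.smul, hp] at h7
    refine smul_left_injective F hp0 ?_
    show (s ^ q) • p = (-s) • p
    rw [← h7, neg_smul, ← hd]
    abel
  set r := s / 2 with hr
  set x' := x + r • p with hx'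
  have hrq : r ^ q = -r := by rw [hr, div_pow, hsq, fix_two hF hb h2, neg_div]
  have hx'b : bar x' = x' := by
    rw [hx', hb.add, hb.smul, hp, hrq, show bar x = x + s • p by rw [← hd]; abel, hr]
    match_scalars <;> field_simp <;> ring
  set a₀ := -(herm q x' x') / 2 with ha₀'
  have ha₀ : a₀ ^ q = a₀ := by
    rw [ha₀', div_pow, hF.neg_pow, hF.herm_symm, fix_two hF hb h2]
  have hc' : UniCond q p x' a₀ := ⟨hc.1, by
    rw [hx', herm_add_left, herm_smul_left, hc.2.1, hc.1]; ring,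
    by rw [ha₀, ha₀']; field_simp; ring⟩
  have hcomm := RatStr.uni_barComm hF hb hp hc' (by rw [hx'b, one_smul]) (by rw [ha₀, one_mul])
  have hkappa := hK_comm hF hb h2 hK _ (det_uni hF hc') hcomm
  have hxp' : herm q p x = 0 := herm_comm_zero hF hc.2.1
  have hxx : herm q x' x' = herm q x x := by
    simp only [hx', herm_add_left, hF.herm_add_right, herm_smul_left, herm_smul_right, hc.1,
      hc.2.1, hxp']
    ring
  set δ := a - r + r ^ q - a₀ with hδ
  have hδq : δ ^ q = -δ := by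
    have h2' := hc'.2.2
    rw [hδ, hF.sub_pow, hF.add_pow, hF.sub_pow, hF.pow_pow]
    linear_combination hc.2.2 - h2' + hxx
  have ht' : TrvCond q p δ := trvCond_mk hc.1 hδq
  have hprod : trv hF ht' * uni hF hc' = uni hF hc := by
    refine Subtype.ext (LinearEquiv.ext fun w => ?_)
    rw [Subgroup.coe_mul, LinearEquiv.mul_apply, trv_apply, uni_apply, uni_apply]
    simp only [hδ, hx', herm_add_left, hF.herm_add_right, herm_smul_left, herm_smul_right, hc.1,
      hc.2.1]
    match_scalars <;> ring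
  have htM : trv hF ht' ∈ M := by
    rw [← eq_mul_inv_iff_mul_eq] at hprod
    rw [hprod]
    exact mul_mem hzM (inv_mem hkappa)
  have hδ0 : δ ≠ 0 := fun h => hznot fun w => by
    have hone : ∀ v, (trv hF ht').1 v = v := fun v => by rw [trv_apply, h]; simp
    rw [← hprod, Subgroup.coe_mul, LinearEquiv.mul_apply, LinearEquiv.mul_apply, hone, hone, hcomm]
  exact hno (SUG_le_of_trv hF hb h2 hK hp hc.1 hp0 ht' hδ0 htM)

variable (hMS : M ≤ SUG 4 F q)
include hMS

lemma semi_of_fix {u : UG 4 F q} (hu : u ∈ M) {l : F} (hup : u.1 p = l • p) : Semi bar u := by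
  have hp0 : p ≠ 0 := fun h0 => by simpa [h0] using Φ.pf
  have hl : l ≠ 0 := fun h => hp0 (u.1.injective (by rw [hup, h, zero_smul, map_zero]))
  have hlq : l ^ q ≠ 0 := pow_ne_zero _ hl
  have hfp' : herm q (u.1 f) p * l ^ q = 1 := by
    have := UG_app u f p
    rw [hup, herm_smul_right, Φ.fp, mul_comm] at this
    exact this
  have hwp : ∀ {w}, herm q w p = 0 → herm q (u.1 w) p = 0 := fun {w} hw => by
    have := UG_app u w p
    rw [hup, herm_smul_right, hw, mul_eq_zero] at this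
    exact this.resolve_left hlq
  obtain ⟨x, a, hc, hzf⟩ := RatStr.exists_uni_map hF hb Φ.pp Φ.ff (v := l ^ q • u.1 f)
    (show herm q (l ^ q • u.1 f) (l ^ q • u.1 f) = 0 by
      rw [herm_smul_left, herm_smul_right, UG_app, Φ.ff, mul_zero, mul_zero])
    (by rw [Φ.fp]; exact one_ne_zero)
    (by rw [herm_smul_left, Φ.fp, mul_comm, hfp'])
  set z := uni hF hc with hz
  have hzp : z.1 p = p := by
    rw [hz, uni_apply, Φ.pp, herm_comm_zero hF hc.2.1]; simp
  set k := z⁻¹ * u with hk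
  have hkz : ∀ v, z.1 (k.1 v) = u.1 v := fun v => by
    show z.1 (z.1.symm (u.1 v)) = _
    rw [LinearEquiv.apply_symm_apply]
  have hkp : k.1 p = l • p := z.1.injective (by rw [hkz, hup, map_smul, hzp])
  have hkf : k.1 f = (l ^ q)⁻¹ • f := z.1.injective (by
    rw [hkz, map_smul, hzf, inv_smul_smul₀ hlq])
  have hky : ∀ y, bar y = y → herm q y p = 0 → herm q y f = 0 →
      bar (k.1 y) = (l ^ q / l) • k.1 y := by
    intro y hy hyp hyf
    have hb0 : (-(herm q y y) / 2) ^ q = -(herm q y y) / 2 := by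
      rw [div_pow, hF.neg_pow, hF.herm_symm, fix_two hF hb h2]
    have hcy : UniCond q p y (-(herm q y y) / 2) := ⟨Φ.pp, hyp, by rw [hb0]; field_simp; ring⟩
    have hyM := hK_comm hF hb h2 hK _ (det_uni hF hcy)
      (RatStr.uni_barComm hF hb Φ.barp hcy (by rw [hy, one_smul]) (by rw [hb0, one_mul]))
    have hm := mul_mem (mul_mem hu hyM) (inv_mem hu)
    rw [uni_conj] at hm
    have hcX : UniCond q p (l ^ q • u.1 y) (l * l ^ q * (-(herm q y y) / 2)) := by
      refine ⟨Φ.pp, by rw [herm_smul_left, hwp hyp, mul_zero], ?_⟩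
      rw [herm_smul_left, herm_smul_right, UG_app, hF.pow_pow, mul_pow, mul_pow, hF.pow_pow, hb0]
      field_simp
      ring
    have hXM : uni hF hcX ∈ M := by
      have hcl : UniCond q (l • p) (u.1 y) (-(herm q y y) / 2) := by
        refine ⟨by rw [herm_smul_left, herm_smul_right, Φ.pp, mul_zero, mul_zero],
          by rw [herm_smul_right, hwp hyp, mul_zero], ?_⟩
        rw [UG_app]; exact hcy.2.2
      rw [← uni_smul hF hcl hcX]
      convert hm using 1
      exact uni_congr hF _ _ hup.symm rfl rfl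
    have hX := barComm_of_uni hF hb h2 hK hno Φ.barp hp0 hcX hXM f
    rw [Φ.barf, uni_apply, Φ.fp, one_smul] at hX
    simp only [hb.add, hb.smul, hF.pow_pow, Φ.barf, Φ.barp] at hX
    have hY : ∃ γ : F, bar (k.1 y) = (l ^ q / l) • k.1 y + γ • p := by
      have h1 := hkz y
      have hYp : herm q (k.1 y) p = 0 := by
        rw [← UG_app z, hkz, hzp]; exact hwp hyp
      rw [hz, uni_apply, hYp, zero_smul, add_zero, mul_zero, zero_sub] at h1
      set e := herm q (k.1 y) x
      have h3 : k.1 y = u.1 y + e • p := by rw [← h1]; module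
      set A := l * l ^ q * (-herm q y y / 2) * 1 - herm q f (l ^ q • u.1 y) with hA
      refine ⟨(A - A ^ q) / l + e ^ q - (l ^ q / l) * e, ?_⟩
      have h4 : l • bar (u.1 y) = l ^ q • u.1 y + (A - A ^ q) • p := by
        linear_combination (norm := module) hX
      rw [h3, hb.add, hb.smul, Φ.barp, ← inv_smul_smul₀ hl (bar (u.1 y)), h4]
      match_scalars <;> field_simp <;> ring
    obtain ⟨γ, hγ⟩ := hY
    have hYf : herm q (k.1 y) f = 0 := by
      have := UG_app k y f
      rw [hkf, herm_smul_right, hyf, mul_eq_zero] at this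
      exact this.resolve_left (pow_ne_zero _ (inv_ne_zero hlq))
    have h5 := congrArg (fun v => herm q v f) hγ
    simp only [RatStr.herm_bar_left hF hb, Φ.barf, hYf, zero_pow hF.q_ne_zero, one_mul,
      herm_add_left, herm_smul_left, Φ.pf, mul_zero, zero_add, mul_one] at h5
    rw [hγ, ← h5, zero_smul, add_zero]
  have hksemi : Semi bar k := by
    have hinv : ((l ^ q)⁻¹) ^ q = l⁻¹ := by rw [inv_pow, hF.pow_pow]
    refine ⟨l ^ q / l, fun w => ?_⟩
    rw [Φ.decomp hF hb h2 w]
    simp only [map_add, map_smul, hb.add, hb.smul, hkp, hkf, Φ.barp, Φ.barf,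
      hky y₁ Φ.bar₁ Φ.o1p Φ.o1f, hky y₂ Φ.bar₂ Φ.o2p Φ.o2f, Φ.bar₁, Φ.bar₂, mul_pow, hinv,
      smul_smul]
    match_scalars <;> field_simp <;> ring
  have hkM : k ∈ M := hK k (mul_mem (inv_mem (det_uni hF hc)) (hMS hu)) hksemi
  have hzM : z ∈ M := by
    have := mul_mem hu (inv_mem hkM)
    rwa [hk, _root_.mul_inv_rev, inv_inv, mul_inv_cancel_left] at this
  have := semi_mul hF hb (semi_of_barComm hF hb
    (barComm_of_uni hF hb h2 hK hno Φ.barp hp0 hc hzM)) hksemi
  rwa [show z * k = u by rw [hk, mul_inv_cancel_left]] at this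

omit Φ in
/-- An element of `M` joining two rational isotropic lines respects the structure. -/
lemma semi_of_map {g : UG 4 F q} (hg : g ∈ M) {r r' : Fin 4 → F} (hr : bar r = r)
    (hr' : bar r' = r') (hrr : herm q r r = 0) (hrr' : herm q r' r' = 0) (hr0 : r ≠ 0)
    (hr0' : r' ≠ 0) {c : F} (hgr : g.1 r = c • r') : Semi bar g := by
  obtain ⟨k, hk, hkc, hkr⟩ := exists_move hF hb h2 hK hr' hr hrr' hrr hr0' hr0
  obtain ⟨f, y₁, y₂, Φ⟩ := exists_frame hF hb h2 hr hrr hr0
  have h := semi_of_fix hF hb h2 hK Φ hno hMS (mul_mem hk hg) (l := c)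
    (by rw [Subgroup.coe_mul, LinearEquiv.mul_apply, hgr, map_smul, hkr])
  have := semi_mul hF hb (semi_inv hF hb (semi_of_barComm hF hb hkc)) h
  rwa [inv_mul_cancel_left] at this

end Cfsg.Agent.SU4.Orth
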