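import Cfsg.Agent.SU4.OrthOrbit
import Cfsg.Agent.GeoClasses.UnitRealSubfield

/-!
The subfield groups of orthogonal type, of either sign, are maximal in `SU_4(q)` for odd `q ≥ 5`.

The images of the rational isotropic points under an overgroup are too many to avoid one another's
perpendiculars.
-/

set_option autoImplicit false
set_option linter.unusedSectionVars false
set_option linter.style.haveILetI false

namespace Cfsg.Agent.SU4.Orth

open Matrix Cfsg.Geo Cfsg.Agent.Classical.U Cfsg.Agent.ClassicalMax Cfsg.Agent.GeoClasses Module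
open Cfsg.Agent.Forms (hperp mem_hperp finrank_hperp hperp_hperp herm_comm_zero)
open scoped MatrixGroups Matrix

universe u

variable {F : Type u} [Field F] {q : ℕ}

/-- A vector on an image of a rational isotropic point under an element not from the structure. -/
def Bad (M : Subgroup (UG 4 F q)) (bar : (Fin 4 → F) → (Fin 4 → F)) (v : Fin 4 → F) : Prop :=
  v ≠ 0 ∧ ∃ g ∈ M, ¬ Semi bar g ∧ ∃ r, bar r = r ∧ herm q r r = 0 ∧ r ≠ 0 ∧ ∃ c : F, v = c • g.1 r

variable (hF : SqField F q) {bar : (Fin 4 → F) → (Fin 4 → F)} (hb : RatStr q (1 : F) bar)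
  (h2 : (2 : F) ≠ 0) {M : Subgroup (UG 4 F q)} (hK : ∀ g ∈ SUG 4 F q, Semi bar g → g ∈ M)
  (hno : ¬ SUG 4 F q ≤ M) (hMS : M ≤ SUG 4 F q) (hq : 5 ≤ q)
include hF hb h2 hK hno hMS hq

lemma herm_bad_ne {v : Fin 4 → F} (hv : Bad M bar v) {p : Fin 4 → F} (hp : bar p = p)
    (hpp : herm q p p = 0) (hp0 : p ≠ 0) : herm q v p ≠ 0 := by
  obtain ⟨hv0, g, hg, hns, r, hr, hrr, hr0, c, rfl⟩ := hv
  rw [herm_smul_left]
  refine mul_ne_zero (fun h => hv0 (by rw [h, zero_smul])) fun h => hns ?_
  exact semi_of_orth hF hb h2 hK hno hMS hq hg hr hrr hr0 hp hpp hp0 h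

/-- Orthogonal images come from one element. -/
lemma bad_orth {g : UG 4 F q} (hg : g ∈ M) {r : Fin 4 → F} (hr : bar r = r)
    (hrr : herm q r r = 0) (hr0 : r ≠ 0) {v : Fin 4 → F} (hv : Bad M bar v)
    (horth : herm q v (g.1 r) = 0) :
    ∃ (c : F) (r' : Fin 4 → F), bar r' = r' ∧ herm q r' r' = 0 ∧ r' ≠ 0 ∧ c ≠ 0 ∧
      herm q r' r = 0 ∧ v = c • g.1 r' := by
  obtain ⟨hv0, g', hg', -, r', hr', hrr', hr0', c, rfl⟩ := hv
  have hc : c ≠ 0 := fun h => hv0 (by rw [h, zero_smul])
  rw [herm_smul_left, mul_eq_zero, or_iff_right hc] at horth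
  set k := g⁻¹ * g' with hk
  have hkv : g.1 (k.1 r') = g'.1 r' := g.1.apply_symm_apply _
  have ho : herm q (k.1 r') r = 0 := by rw [← UG_app g, hkv]; exact horth
  obtain ⟨ν, hν⟩ := semi_of_orth hF hb h2 hK hno hMS hq (mul_mem (inv_mem hg) hg') hr' hrr' hr0'
    hr hrr hr0 ho
  have hk0 : k.1 r' ≠ 0 := fun h => hr0' (k.1.injective (by rw [h, map_zero]))
  obtain ⟨d, r'', hd, hb'', h0'', hkr⟩ := exists_rat_smul hF hb h2 hk0
    (Submodule.mem_span_singleton.2 ⟨ν, by rw [hν, hr']⟩)
  refine ⟨c * d, r'', hb'', ?_, h0'', mul_ne_zero hc hd, ?_, ?_⟩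
  · have := UG_app k r' r'
    rw [hkr, herm_smul_left, herm_smul_right, hrr'] at this
    exact (mul_eq_zero.1 ((mul_eq_zero.1 this).resolve_left hd)).resolve_left (pow_ne_zero _ hd)
  · rw [hkr, herm_smul_left] at ho
    exact (mul_eq_zero.1 ho).resolve_left hd
  · rw [← hkv, hkr, map_smul, smul_smul]

/-- Distinct root elements give distinct images. -/
lemma root_injective {p f y₁ y₂ : Fin 4 → F} (Φ : RatFrame q bar p f y₁ y₂) {g : UG 4 F q}
    (hg : g ∈ M) (hns : ¬ Semi bar g) {a b : F} {e : F}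
    (hc : UniCond q p (a • y₁ + b • y₂) e) (hsemi : Semi bar (g⁻¹ * uni hF hc * g)) :
    a = 0 ∧ b = 0 := by
  by_contra hne
  set Y := a • y₁ + b • y₂ with hY
  set u := uni hF hc with hu
  obtain ⟨ν, hν⟩ := hsemi
  have hp0 : p ≠ 0 := fun h0 => by simpa [h0] using Φ.pf
  have hY1 : herm q Y y₁ = a * herm q y₁ y₁ := by
    rw [hY, herm_add_left, herm_smul_left, herm_smul_left, Φ.o21]; ring
  have hY2 : herm q Y y₂ = b * herm q y₂ y₂ := by
    rw [hY, herm_add_left, herm_smul_left, herm_smul_left, Φ.o12]; ring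
  have hYp : Y ∉ F ∙ p := fun h => hne (by
    obtain ⟨d, hd⟩ := Submodule.mem_span_singleton.1 h
    rw [← hd, herm_smul_left, Φ.p1, mul_zero] at hY1
    rw [← hd, herm_smul_left, Φ.p2, mul_zero] at hY2
    exact ⟨(mul_eq_zero.1 hY1.symm).resolve_right Φ.n1, (mul_eq_zero.1 hY2.symm).resolve_right Φ.n2⟩)
  set v := g⁻¹ * u * g with hv
  have hvfix : ∀ z, v.1 z = z ↔ u.1 (g.1 z) = g.1 z := fun z => by
    rw [hv, Subgroup.coe_mul, Subgroup.coe_mul, LinearEquiv.mul_apply, LinearEquiv.mul_apply]
    exact g.1.symm_apply_eq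
  set x := g.1.symm p with hx
  have hgx : g.1 x = p := g.1.apply_symm_apply p
  have hup : u.1 p = p := by
    rw [hu, uni_apply, Φ.pp, uniCond_ex hF hc]; simp
  have hvx : v.1 x = x := (hvfix x).2 (by rw [hgx, hup])
  have hx0 : x ≠ 0 := fun h => hp0 (by rw [← hgx, h, map_zero])
  have hν1 : ν = 1 := by
    have h1 := hν x
    rw [hvx] at h1
    set w := g.1 (bar x) with hw
    have hw0 : w ≠ 0 := fun h => hx0 (by
      have h' : bar x = 0 := g.1.injective (by rw [← hw, h, map_zero])
      rw [← hb.invol x, h', RatStr.map_zero' hF hb])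
    have h3 : w = ν • u.1 w := by
      rw [hw]
      conv_lhs => rw [h1]
      rw [map_smul, hv, Subgroup.coe_mul, Subgroup.coe_mul, LinearEquiv.mul_apply,
        LinearEquiv.mul_apply]
      congr 1
      exact g.1.apply_symm_apply _
    rw [hu, uni_apply] at h3
    have e1 := congrArg (fun z => herm q z p) h3
    simp only [herm_smul_left, herm_add_left, Φ.pp, hc.2.1] at e1
    have e2 := congrArg (fun z => herm q z Y) h3
    simp only [herm_smul_left, herm_add_left, uniCond_ex hF hc] at e2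
    by_contra hne1
    have hwp : herm q w p = 0 := (mul_eq_zero.1
      (show (ν - 1) * herm q w p = 0 by linear_combination -e1)).resolve_left (sub_ne_zero.2 hne1)
    rw [hwp] at e2
    have hwY : herm q w Y = 0 := (mul_eq_zero.1
      (show (ν - 1) * herm q w Y = 0 by linear_combination -e2)).resolve_left (sub_ne_zero.2 hne1)
    have h4 : (ν - 1) • w = 0 := by
      rw [hwp, hwY] at h3
      linear_combination (norm := module) -h3
    exact hw0 ((smul_eq_zero.1 h4).resolve_left (sub_ne_zero.2 hne1))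
  let S : Submodule F (Fin 4 → F) := LinearMap.eqLocus v.1.toLinearMap LinearMap.id
  have hS : ∀ z, z ∈ S ↔ v.1 z = z := fun z => Iff.rfl
  have hst : IsBarStable bar S := fun z hz => by
    rw [hS] at hz ⊢
    have := hν z
    rw [hν1, one_smul, hz] at this
    exact this.symm
  have hker : ∀ z ∈ S, herm q (g.1 z) p = 0 ∧ herm q (g.1 z) Y = 0 := by
    intro z hz
    have h1 := (hvfix z).1 ((hS z).1 hz)
    rw [hu, uni_apply] at h1
    have h' : herm q (g.1 z) p • Y +
        (e * herm q (g.1 z) p - herm q (g.1 z) Y) • p = 0 := by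
      linear_combination (norm := module) h1
    have hli : LinearIndependent F ![p, Y] := by
      rw [LinearIndependent.pair_iff' hp0]
      exact fun d hd => hYp (Submodule.mem_span_singleton.2 ⟨d, hd⟩)
    obtain ⟨h3, h4⟩ := LinearIndependent.pair_iff.1 hli _ _ ((add_comm _ _).trans h')
    rw [h4] at h3
    exact ⟨h4, by linear_combination -h3⟩
  set R := S ⊓ hperp q S with hR
  have hstR : IsBarStable bar R := fun z hz => ⟨hst z hz.1, RatStr.stable_hperp hF hb hst z hz.2⟩
  have hxR : x ∈ R := ⟨(hS x).2 hvx, fun z hz => by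
    rw [← UG_app g, hgx]
    exact herm_comm_zero hF (hker z hz).1⟩
  obtain ⟨r, hr, hrb, hr0⟩ := RatStr.exists_fix_not_mem hF hb hstR (N := ⊥) fun h => hx0
    (by simpa using h hxR)
  rw [Submodule.mem_bot] at hr0
  exact hns (semi_of_orth hF hb h2 hK hno hMS hq hg hrb (hr.2 r hr.1) hr0 Φ.barp Φ.pp hp0
    (hker r hr.1).1)

omit hno hMS hq in
lemma uni_rat_semi {p Y : Fin 4 → F} {e : F} (hp : bar p = p) (hY : bar Y = Y) (he : e ^ q = e)
    (hc : UniCond q p Y e) : uni hF hc ∈ M ∧ Semi bar (uni hF hc) := by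
  have h := RatStr.uni_barComm hF hb hp hc (by rw [hY, one_smul]) (by rw [he, one_mul])
  exact ⟨hK_comm hF hb h2 hK _ (det_uni hF hc) h, semi_of_barComm hF hb h⟩

/-- There are many bad vectors. -/
lemma card_bad_ge [Fintype F] [DecidablePred (Bad M bar)] {g : UG 4 F q} (hg : g ∈ M)
    (hns : ¬ Semi bar g) {p f y₁ y₂ : Fin 4 → F} (Φ : RatFrame q bar p f y₁ y₂) :
    (q - 1) * (q + 1) * (q * q * (q * q + 1)) ≤ (Finset.univ.filter (Bad M bar)).card := by
  classical
  let Fx := {a : F // a ^ q = a}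
  have hFx : Fintype.card Fx = q := by
    have := card_fixed_qConj hF
    rw [Nat.card_eq_fintype_card] at this
    exact (Fintype.card_congr (Equiv.subtypeEquivRight fun x => (mem_fixed_qConj hF).symm)).trans this
  let Y : Fx × Fx → (Fin 4 → F) := fun d => (d.1 : F) • y₁ + (d.2 : F) • y₂
  let b : Fx × Fx → F := fun d => -(herm q (Y d) (Y d)) / 2
  have hbY : ∀ d, bar (Y d) = Y d := fun d => by
    simp only [Y, hb.add, hb.smul, Φ.bar₁, Φ.bar₂, d.1.2, d.2.2]
  have hbq : ∀ d, b d ^ q = b d := fun d => by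
    simp only [b, div_pow, hF.neg_pow, hF.herm_symm, fix_two hF hb h2]
  have hYp : ∀ d, herm q (Y d) p = 0 := fun d => by
    simp [Y, herm_add_left, herm_smul_left, Φ.o1p, Φ.o2p]
  have hc : ∀ d, UniCond q p (Y d) (b d) := fun d => ⟨Φ.pp, hYp d, by
    rw [hbq]
    show -(herm q (Y d) (Y d)) / 2 + -(herm q (Y d) (Y d)) / 2 + herm q (Y d) (Y d) = 0
    field_simp
    ring⟩
  have hfY : ∀ d, herm q f (Y d) = 0 := fun d => by
    simp [Y, hF.herm_add_right, herm_smul_right, Φ.f1, Φ.f2]
  have huf : ∀ d, (uni hF (hc d)).1 f = f + Y d + b d • p := fun d => by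
    rw [uni_apply, Φ.fp, hfY, one_smul, mul_one, sub_zero]
  let rep : Option (Fx × Fx) → (Fin 4 → F) := fun i => i.elim p fun d => (uni hF (hc d)).1 f
  have hrep : ∀ i, bar (rep i) = rep i ∧ herm q (rep i) (rep i) = 0 ∧ rep i ≠ 0 := by
    rintro (_ | d)
    · exact ⟨Φ.barp, Φ.pp, fun h0 => by simpa [show p = 0 from h0] using Φ.pf⟩
    · refine ⟨?_, ?_, fun h => ?_⟩
      · show bar ((uni hF (hc d)).1 f) = (uni hF (hc d)).1 f
        rw [huf, hb.add, hb.add, hb.smul, Φ.barf, hbY, Φ.barp, hbq]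
      · show herm q ((uni hF (hc d)).1 f) ((uni hF (hc d)).1 f) = 0
        rw [UG_app]; exact Φ.ff
      · have hf0 : f = 0 := (uni hF (hc d)).1.injective (by rw [map_zero]; exact h)
        simpa [hf0] using Φ.fp
  let Ψ : Fˣ × (Fx × Fx) × Option (Fx × Fx) → (Fin 4 → F) := fun t =>
    (t.1 : F) • (uni hF (hc t.2.1) * g).1 (rep t.2.2)
  have hΨ : ∀ t, Ψ t ∈ Finset.univ.filter (Bad M bar) := by
    rintro ⟨c, d, i⟩
    refine Finset.mem_filter.2 ⟨Finset.mem_univ _, smul_ne_zero c.ne_zero fun h => ?_, _,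
      mul_mem (uni_rat_semi hF hb h2 hK Φ.barp (hbY d) (hbq d) (hc d)).1 hg, fun h => hns ?_,
      rep i, (hrep i).1, (hrep i).2.1, (hrep i).2.2, c, rfl⟩
    · exact (hrep i).2.2 ((uni hF (hc d) * g).1.injective (by rw [h, map_zero]))
    · have := semi_mul hF hb (semi_inv hF hb
        (uni_rat_semi hF hb h2 hK Φ.barp (hbY d) (hbq d) (hc d)).2) h
      rwa [inv_mul_cancel_left] at this
  have hinj : Function.Injective Ψ := by
    rintro ⟨c, d, i⟩ ⟨c', d', i'⟩ he
    change (c : F) • (uni hF (hc d) * g).1 (rep i) = (c' : F) • (uni hF (hc d') * g).1 (rep i') at he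
    set h := (uni hF (hc d') * g)⁻¹ * (uni hF (hc d) * g) with hh
    have hmap : h.1 (rep i) = ((c' : F) / c) • rep i' := by
      rw [hh, Subgroup.coe_mul, LinearEquiv.mul_apply]
      show (uni hF (hc d') * g).1.symm _ = _
      rw [LinearEquiv.symm_apply_eq, map_smul, div_eq_inv_mul, mul_smul, ← he,
        inv_smul_smul₀ c.ne_zero]
    have hsemi := semi_of_map hF hb h2 hK hno hMS
      (mul_mem (inv_mem (mul_mem (uni_rat_semi hF hb h2 hK Φ.barp (hbY d') (hbq d') (hc d')).1 hg))
        (mul_mem (uni_rat_semi hF hb h2 hK Φ.barp (hbY d) (hbq d) (hc d)).1 hg))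
      (hrep i).1 (hrep i').1 (hrep i).2.1 (hrep i').2.1 (hrep i).2.2 (hrep i').2.2 hmap
    have hdd : d = d' := by
      have hneg : UniCond q p (-(Y d')) (b d') := by
        refine ⟨Φ.pp, by rw [herm_neg_left, hYp, neg_zero], ?_⟩
        rw [herm_neg_left, hF.herm_neg_right, neg_neg]
        exact (hc d').2.2
      have hinv : (uni hF (hc d'))⁻¹ = uni hF hneg := by
        refine (eq_inv_of_mul_eq_one_right ?_).symm
        rw [uni_mul, ← uni_zero hF Φ.pp]
        refine uni_congr hF _ _ rfl (add_neg_cancel _) ?_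
        rw [herm_neg_left]
        simp only [b]
        field_simp
        ring
      have hsum := uniCond_mul hF hneg (hc d)
      have hYd : -(Y d') + Y d = ((d.1 : F) - d'.1) • y₁ + ((d.2 : F) - d'.2) • y₂ := by
        simp only [Y]; module
      have hsum' : UniCond q p (((d.1 : F) - d'.1) • y₁ + ((d.2 : F) - d'.2) • y₂)
          (b d' + b d - herm q (Y d) (-(Y d'))) := hYd ▸ hsum
      have hconj : h = g⁻¹ * uni hF hsum' * g := by
        have e1 : uni hF hneg * uni hF (hc d) = uni hF hsum' := by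
          rw [uni_mul]; exact uni_congr hF _ _ rfl hYd rfl
        rw [hh, ← e1, ← hinv]
        group
      obtain ⟨h1, h3⟩ := root_injective hF hb h2 hK hno hMS hq Φ hg hns hsum'
        (by rw [← hconj]; exact hsemi)
      exact Prod.ext (Subtype.ext (sub_eq_zero.1 h1)) (Subtype.ext (sub_eq_zero.1 h3))
    subst hdd
    have he' : (c : F) • rep i = (c' : F) • rep i' := by
      have := (uni hF (hc d) * g).1.injective (show (uni hF (hc d) * g).1 ((c : F) • rep i) =
        (uni hF (hc d) * g).1 ((c' : F) • rep i') by rw [map_smul, map_smul, he])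
      exact this
    have hp' : ∀ e, herm q (rep (some e)) p = 1 := fun e => by
      show herm q ((uni hF (hc e)).1 f) p = 1
      rw [huf, herm_add_left, herm_add_left, herm_smul_left, Φ.fp, hYp, Φ.pp]
      ring
    have hpp' : herm q (rep none) p = 0 := Φ.pp
    have h5 := congrArg (fun z => herm q z p) he'
    simp only [herm_smul_left] at h5
    rcases i with _ | e <;> rcases i' with _ | e' <;> simp only [hp', hpp'] at h5
    · have hp0 : p ≠ 0 := (hrep none).2.2
      rw [Units.ext (smul_left_injective F hp0 he')]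
    · rw [mul_zero, mul_one] at h5
      exact absurd h5.symm c'.ne_zero
    · rw [mul_zero, mul_one] at h5
      exact absurd h5 c.ne_zero
    · rw [mul_one, mul_one] at h5
      have hcc : c = c' := Units.ext h5
      subst hcc
      change (c : F) • (uni hF (hc e)).1 f = (c : F) • (uni hF (hc e')).1 f at he'
      rw [huf, huf] at he'
      have h6 := smul_right_injective _ c.ne_zero he'
      have hco : ∀ e : Fx × Fx, herm q (f + Y e + b e • p) y₁ = e.1 * herm q y₁ y₁ ∧
          herm q (f + Y e + b e • p) y₂ = e.2 * herm q y₂ y₂ := fun e => by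
        constructor <;>
          simp [Y, herm_add_left, herm_smul_left, Φ.f1, Φ.f2, Φ.p1, Φ.p2, Φ.o12, Φ.o21]
      have h7 := (hco e).1
      have h8 := (hco e).2
      rw [h6, (hco e').1] at h7
      rw [h6, (hco e').2] at h8
      have : e = e' := Prod.ext (Subtype.ext (mul_right_cancel₀ Φ.n1 h7.symm))
        (Subtype.ext (mul_right_cancel₀ Φ.n2 h8.symm))
      rw [this]
  have := Finset.card_le_card_of_injOn Ψ (s := Finset.univ) (fun t _ => hΨ t) hinj.injOn
  refine le_trans (le_of_eq ?_) this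
  rw [Finset.card_univ, Fintype.card_prod, Fintype.card_prod, Fintype.card_prod,
    Fintype.card_option, Fintype.card_prod, hFx, ← Nat.card_eq_fintype_card, hF.card_units]

/-- The rational isotropic vectors contain no totally isotropic plane. -/
def NoLine (bar : (Fin 4 → F) → (Fin 4 → F)) (q : ℕ) : Prop :=
  ∀ r r', bar r = r → bar r' = r' → herm q r r = 0 → herm q r' r' = 0 → r ≠ 0 →
    herm q r' r = 0 → r' ∈ F ∙ r

/-- Pairwise orthogonal bad vectors are few. -/
lemma card_fibre_le [Fintype F] (T : Finset (Fin 4 → F)) (hT : ∀ v ∈ T, Bad M bar v)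
    (horth : ∀ v ∈ T, ∀ w ∈ T, herm q v w = 0) :
    T.card ≤ (q + 1) * ((q - 1) * (q + 1)) ∧ (NoLine bar q → T.card ≤ (q - 1) * (q + 1)) := by
  classical
  rcases T.eq_empty_or_nonempty with rfl | ⟨v₀, hv₀⟩
  · simp
  obtain ⟨hv0, g, hg, -, r₀, hr₀, hrr₀, hr00, c₀, rfl⟩ := hT v₀ hv₀
  have hc₀ : c₀ ≠ 0 := fun h => hv0 (by rw [h, zero_smul])
  have hrep : ∀ v ∈ T, ∃ (c : F) (r : Fin 4 → F), bar r = r ∧ herm q r r = 0 ∧ r ≠ 0 ∧ c ≠ 0 ∧
      herm q r r₀ = 0 ∧ v = c • g.1 r := fun v hv =>
    bad_orth hF hb h2 hK hno hMS hq hg hr₀ hrr₀ hr00 (hT v hv) (by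
      have := horth v hv _ hv₀
      rw [herm_smul_right] at this
      exact (mul_eq_zero.1 this).resolve_left (pow_ne_zero _ hc₀))
  have hone : (∀ v ∈ T, v ∈ F ∙ g.1 r₀) → T.card ≤ (q - 1) * (q + 1) := by
    intro hall
    have hsub : T ⊆ (Finset.univ : Finset Fˣ).image fun c : Fˣ => (c : F) • g.1 r₀ := fun v hv => by
      obtain ⟨c, rfl⟩ := Submodule.mem_span_singleton.1 (hall v hv)
      have hc : c ≠ 0 := fun h => (hT _ hv).1 (by rw [h, zero_smul])
      exact Finset.mem_image.2 ⟨Units.mk0 c hc, Finset.mem_univ _, rfl⟩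
    refine ((Finset.card_le_card hsub).trans Finset.card_image_le).trans_eq ?_
    rw [Finset.card_univ, ← Nat.card_eq_fintype_card, hF.card_units]
  have hNL : NoLine bar q → T.card ≤ (q - 1) * (q + 1) := fun hnl => hone fun v hv => by
    obtain ⟨c, r, hr, hrr, hr0, hc, hor, rfl⟩ := hrep v hv
    obtain ⟨d, hd⟩ := Submodule.mem_span_singleton.1 (hnl r₀ r hr₀ hr hrr₀ hrr hr00 hor)
    rw [← hd, map_smul]
    exact Submodule.smul_mem _ _ (Submodule.smul_mem _ _ (Submodule.mem_span_singleton_self _))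
  refine ⟨?_, hNL⟩
  by_cases hall : ∀ v ∈ T, v ∈ F ∙ g.1 r₀
  · exact (hone hall).trans (Nat.le_mul_of_pos_left _ (by omega))
  push Not at hall
  obtain ⟨v₁, hv₁, hv₁n⟩ := hall
  obtain ⟨c₁, r₁, hr₁, hrr₁, hr10, hc₁, hor₁, rfl⟩ := hrep v₁ hv₁
  have hnr : r₁ ∉ F ∙ r₀ := fun h => hv₁n (by
    obtain ⟨d, hd⟩ := Submodule.mem_span_singleton.1 h
    rw [← hd, map_smul]
    exact Submodule.smul_mem _ _ (Submodule.smul_mem _ _ (Submodule.mem_span_singleton_self _)))
  let Fx := {a : F // a ^ q = a}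
  have hFx : Fintype.card Fx = q := by
    have := card_fixed_qConj hF
    rw [Nat.card_eq_fintype_card] at this
    exact (Fintype.card_congr (Equiv.subtypeEquivRight fun x => (mem_fixed_qConj hF).symm)).trans this
  let R : Option Fx → (Fin 4 → F) := fun i => i.elim r₀ fun a => r₁ + (a : F) • r₀
  have hsub : T ⊆ (Finset.univ : Finset (Option Fx × Fˣ)).image
      fun t => (t.2 : F) • g.1 (R t.1) := by
    intro v hv
    obtain ⟨c, r, hr, hrr, hr0, hc, hor, rfl⟩ := hrep v hv
    have hor' : herm q r r₁ = 0 := by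
      have := horth _ hv _ hv₁
      rw [herm_smul_left, herm_smul_right, UG_app] at this
      exact (mul_eq_zero.1 ((mul_eq_zero.1 this).resolve_left hc)).resolve_left (pow_ne_zero _ hc₁)
    obtain ⟨a, d, had⟩ := Submodule.mem_span_pair.1
      (mem_line_of_orth hF hr00 hnr hrr₀ hrr₁ hor₁ hor hor')
    have hfix := congrArg bar had
    rw [hb.add, hb.smul, hb.smul, hr₀, hr₁, hr] at hfix
    have hli : LinearIndependent F ![r₀, r₁] := by
      rw [LinearIndependent.pair_iff' hr00]
      exact fun x hx => hnr (Submodule.mem_span_singleton.2 ⟨x, hx⟩)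
    obtain ⟨ha, hd⟩ := LinearIndependent.pair_iff.1 hli (a ^ q - a) (d ^ q - d)
      (by linear_combination (norm := module) hfix - had)
    rw [sub_eq_zero] at ha hd
    rcases eq_or_ne d 0 with hd0 | hd0
    · have ha0 : a ≠ 0 := fun h => hr0 (by rw [← had, h, hd0]; simp)
      refine Finset.mem_image.2 ⟨(none, Units.mk0 (c * a) (mul_ne_zero hc ha0)), Finset.mem_univ _, ?_⟩
      rw [← had, hd0, zero_smul, add_zero, map_smul, smul_smul]
      rfl
    · refine Finset.mem_image.2 ⟨(some ⟨a / d, by rw [div_pow, ha, hd]⟩,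
        Units.mk0 (c * d) (mul_ne_zero hc hd0)), Finset.mem_univ _, ?_⟩
      show (c * d) • g.1 (r₁ + (a / d) • r₀) = c • g.1 r
      rw [← had, map_add, map_add, map_smul, map_smul, map_smul]
      match_scalars <;> field_simp
  refine ((Finset.card_le_card hsub).trans Finset.card_image_le).trans_eq ?_
  rw [Finset.card_univ, Fintype.card_prod, Fintype.card_option, hFx,
    ← Nat.card_eq_fintype_card, hF.card_units]

/-- Every element of the overgroup respects the structure. -/
theorem semi_of_mem [Fintype F] {g : UG 4 F q} (hg : g ∈ M) : Semi bar g := by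
  classical
  by_contra hns
  obtain ⟨p, -, hp, hp0, hpp⟩ := RatStr.exists_fix_isotropic hF hb (S := ⊤) (fun _ _ => trivial)
    (by rw [finrank_top, Module.finrank_fin_fun]; omega)
  obtain ⟨f, y₁, y₂, Φ⟩ := exists_frame hF hb h2 hp hpp hp0
  set B := Finset.univ.filter (Bad M bar) with hB
  have hlow := card_bad_ge hF hb h2 hK hno hMS hq hg hns Φ
  rw [← hB] at hlow
  set S := hperp q (Submodule.span F {p, f}) with hS
  -- an isotropic vector of the perpendicular, rational if possible
  obtain ⟨e, he0, heS, hee, hrat⟩ : ∃ e, e ≠ 0 ∧ e ∈ S ∧ herm q e e = 0 ∧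
      (bar e = e ∨ NoLine bar q) := by
    by_cases hrl : ∃ e, e ≠ 0 ∧ e ∈ S ∧ herm q e e = 0 ∧ bar e = e
    · obtain ⟨e, h1, h3, h4, h5⟩ := hrl
      exact ⟨e, h1, h3, h4, Or.inl h5⟩
    have hd : 2 ≤ finrank F S := by
      have := RatStr.finrank_span_pair_le hF hb p f
      rw [hS, finrank_hperp hF]
      omega
    obtain ⟨e, h1, h3, h4⟩ := exists_isotropic_mem hF hd
    refine ⟨e, h3, h1, h4, Or.inr fun r r' hr hr' hrr hrr' hr0 horth => ?_⟩
    by_contra hmem
    push Not at hrl
    -- a rational vector of the line orthogonal to `p`, outside `p`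
    obtain ⟨e₀, hb₀, he₀₀, he₀p, hne₀⟩ :
        ∃ e₀, bar e₀ = e₀ ∧ herm q e₀ e₀ = 0 ∧ herm q e₀ p = 0 ∧ e₀ ∉ F ∙ p := by
      by_cases hrp : herm q r p = 0
      · by_cases hrp' : r ∈ F ∙ p
        · obtain ⟨a, rfl⟩ := Submodule.mem_span_singleton.1 hrp'
          have ha : a ≠ 0 := fun h => hr0 (by rw [h, zero_smul])
          rw [herm_smul_right, mul_eq_zero, or_iff_right (pow_ne_zero _ ha)] at horth
          refine ⟨r', hr', hrr', horth, fun h => hmem ?_⟩
          obtain ⟨b, rfl⟩ := Submodule.mem_span_singleton.1 h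
          exact Submodule.mem_span_singleton.2 ⟨b / a, by rw [smul_smul, div_mul_cancel₀ _ ha]⟩
        · exact ⟨r, hr, hrr, hrp, hrp'⟩
      · set d := herm q r' p / herm q r p with hd'
        have hdq : d ^ q = d := by
          rw [hd', div_pow, herm_rat hF hb h2 hr' hp, herm_rat hF hb h2 hr hp]
        refine ⟨r' - d • r, by rw [RatStr.map_sub' hF hb, hb.smul, hr, hr', hdq], ?_, ?_,
          fun h => hmem ?_⟩
        · simp [herm_sub_left, hF.herm_sub_right, herm_smul_left, herm_smul_right, hrr, hrr',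
            horth, herm_comm_zero hF horth]
        · rw [herm_sub_left, herm_smul_left, hd', div_mul_cancel₀ _ hrp, sub_self]
        · obtain ⟨a, ha⟩ := Submodule.mem_span_singleton.1 h
          have h9 := congrArg (fun z => herm q z r) ha
          simp only [herm_smul_left, herm_sub_left, hrr, horth, mul_zero, sub_zero, mul_eq_zero] at h9
          have ha0 : a = 0 := h9.resolve_right fun h0 => hrp (herm_comm_zero hF h0)
          rw [ha0, zero_smul, eq_comm, sub_eq_zero] at ha
          exact Submodule.mem_span_singleton.2 ⟨d, ha.symm⟩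
    refine hrl (e₀ - herm q e₀ f • p) ?_ ?_ ?_ ?_
    · exact fun h => hne₀ (Submodule.mem_span_singleton.2 ⟨_, (sub_eq_zero.1 h).symm⟩)
    · rw [hS, mem_hperp_pair hF]
      simp [herm_sub_left, herm_smul_left, he₀p, Φ.pp, Φ.pf]
    · simp [herm_sub_left, hF.herm_sub_right, herm_smul_left, herm_smul_right, he₀₀, he₀p, Φ.pp,
        herm_comm_zero hF he₀p]
    · rw [RatStr.map_sub' hF hb, hb.smul, hb₀, hp, herm_rat hF hb h2 hb₀ Φ.barf]
  have heS' := (mem_hperp_pair hF).1 (hS ▸ heS)
  have hpe : herm q p e = 0 := herm_comm_zero hF heS'.1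
  have hfe : herm q f e = 0 := herm_comm_zero hF heS'.2
  obtain ⟨w, hw, hwe⟩ : ∃ w ∈ S, herm q w e ≠ 0 := by
    by_contra hcon
    push Not at hcon
    refine he0 (hF.eq_zero_of_herm e fun z => herm_comm_zero hF ?_)
    have hz : z - herm q z f • p - herm q z p • f ∈ S := by
      rw [hS, mem_hperp_pair hF]
      simp [herm_sub_left, herm_smul_left, Φ.pp, Φ.fp, Φ.pf, Φ.ff]
    simpa [herm_sub_left, herm_smul_left, hpe, hfe] using hcon _ hz
  obtain ⟨e', he'S, -, he'e', hee'⟩ := exists_pair_mem hF heS hee ⟨w, hw, hwe⟩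
  have he'S' := (mem_hperp_pair hF).1 (hS ▸ he'S)
  have he'e : herm q e' e = 1 := by rw [← hF.herm_symm, hee', one_pow]
  have hpe' : herm q p e' = 0 := herm_comm_zero hF he'S'.1
  have hfe' : herm q f e' = 0 := herm_comm_zero hF he'S'.2
  let A : (Fin 4 → F) → F := fun v => herm q v e' / herm q v p
  let C : (Fin 4 → F) → F := fun v => herm q v f / herm q v p
  let τ : (Fin 4 → F) → F := fun v => -(herm q v e / herm q v p) ^ q
  let key : (Fin 4 → F) → F × F := fun v => (τ v, C v - τ v * A v)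
  have hform : ∀ v w : Fin 4 → F, herm q v w = herm q v f * herm q w p ^ q +
      herm q v p * herm q w f ^ q + herm q v e' * herm q w e ^ q +
      herm q v e * herm q w e' ^ q := by
    intro v w
    have hinj : ∀ z : Fin 4 → F, herm q z p = 0 → herm q z f = 0 → herm q z e = 0 →
        herm q z e' = 0 → z = 0 := by
      intro z h1 h3 h4 h5
      let T : (Fin 4 → F) →ₗ[F] (Fin 4 → F) :=
        LinearMap.pi ![hermL q p, hermL q f, hermL q e, hermL q e']
      have hT : ∀ (v : Fin 4 → F), T v = ![herm q v p, herm q v f, herm q v e, herm q v e'] :=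
        fun v => by ext i; fin_cases i <;> rfl
      have hsurj : Function.Surjective T := fun u => ⟨u 0 • f + u 1 • p + u 2 • e' + u 3 • e, by
        rw [hT]
        ext i
        fin_cases i <;>
          simp [herm_add_left, herm_smul_left, Φ.pp, Φ.ff, Φ.fp, Φ.pf, hpe, hfe, hpe', hfe', hee,
            heS'.1, heS'.2, he'S'.1, he'S'.2, he'e, hee', he'e']⟩
      exact LinearMap.injective_iff_surjective.2 hsurj (by
        rw [hT, hT, h1, h3, h4, h5]; simp only [herm_zero_left])
    have hdec : v = herm q v p • f + herm q v f • p + herm q v e • e' + herm q v e' • e := by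
      refine sub_eq_zero.1 (hinj _ ?_ ?_ ?_ ?_) <;>
        simp [herm_sub_left, herm_add_left, herm_smul_left, Φ.pp, Φ.ff, Φ.fp, Φ.pf, hpe, hfe, hpe',
          hfe', hee, heS'.1, heS'.2, he'S'.1, he'S'.2, he'e, hee', he'e']
    conv_lhs => rw [hdec]
    simp only [herm_add_left, herm_smul_left]
    rw [← hF.herm_symm w f, ← hF.herm_symm w p, ← hF.herm_symm w e', ← hF.herm_symm w e]
    ring
  have hnz : ∀ v ∈ B, herm q v p ≠ 0 := fun v hv =>
    herm_bad_ne hF hb h2 hK hno hMS hq (Finset.mem_filter.1 hv).2 hp hpp hp0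
  have hiso : ∀ v ∈ B, herm q v v = 0 := fun v hv => by
    obtain ⟨-, g', -, -, r, -, hrr, -, c, rfl⟩ := (Finset.mem_filter.1 hv).2
    rw [herm_smul_left, herm_smul_right, UG_app, hrr, mul_zero, mul_zero]
  have hskew : ∀ v ∈ B, (key v).2 ^ q = -(key v).2 := fun v hv => by
    have h := hform v v
    rw [hiso v hv] at h
    have := hnz v hv
    have := pow_ne_zero q (hnz v hv)
    simp only [key, τ, A, C, hF.sub_pow, mul_pow, hF.neg_pow, div_pow, hF.pow_pow]
    field_simp
    linear_combination -h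
  have hfib : ∀ k : F × F, ∀ v ∈ B.filter (fun v => key v = k), ∀ w ∈ B.filter (fun v => key v = k),
      herm q v w = 0 := by
    intro k v hv w hw
    rw [Finset.mem_filter] at hv hw
    have h1 : key v = key w := hv.2.trans hw.2.symm
    have h3 := congrArg Prod.snd h1
    have hτ : herm q v e / herm q v p = herm q w e / herm q w p := by
      have := congrArg (fun x => (-x) ^ q) (congrArg Prod.fst h1)
      simpa [key, τ, hF.pow_pow, hF.neg_pow] using this
    have hvp := hnz v hv.1
    have hwp := hnz w hw.1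
    have hwp' := pow_ne_zero q hwp
    have h4 := hskew w hw.1
    set T := herm q w e / herm q w p with hT
    have hve : herm q v e = T * herm q v p := by rw [← hτ, div_mul_cancel₀ _ hvp]
    have hwe : herm q w e = T * herm q w p := by rw [hT, div_mul_cancel₀ _ hwp]
    have hv' : herm q v f + T ^ q * herm q v e' = (key v).2 * herm q v p := by
      simp only [key, τ, A, C]
      rw [hτ]
      field_simp
      ring
    have hw' : herm q w f + T ^ q * herm q w e' = (key w).2 * herm q w p := by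
      simp only [key, τ, A, C]
      rw [← hT]
      field_simp
      ring
    rw [show (key v).2 = (key w).2 from h3] at hv'
    have hw'' := congrArg (fun x => x ^ q) hw'
    simp only [hF.add_pow, mul_pow, hF.pow_pow, h4] at hw''
    rw [hform, hve, hwe, mul_pow]
    linear_combination herm q w p ^ q * hv' + herm q v p * hw''
  set SK := Finset.univ.filter (fun x : F => x ^ q = -x) with hSK
  have hSKq : SK.card ≤ q := by
    obtain ⟨ω, hω0, hω, -⟩ := exists_skew_scaling hF hb h2
    have hFx : (Finset.univ.filter fun x : F => x ^ q = x).card = q := by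
      have := card_fixed_qConj hF
      rw [Nat.card_eq_fintype_card] at this
      conv_rhs => rw [← this]
      rw [Fintype.card_of_subtype]
      intro x
      simp [qConj_apply]
    refine le_trans (Finset.card_le_card (t := (Finset.univ.filter fun x : F => x ^ q = x).image
      fun x => ω * x) fun x hx => ?_) (Finset.card_image_le.trans hFx.le)
    rw [hSK, Finset.mem_filter] at hx
    refine Finset.mem_image.2 ⟨x / ω, Finset.mem_filter.2 ⟨Finset.mem_univ _, ?_⟩,
      mul_div_cancel₀ _ hω0⟩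
    rw [div_pow, hx.2, hω, neg_div_neg_eq]
  rcases hrat with hratE | hnl
  · set NF := Finset.univ.filter (fun x : F => ¬ x ^ q = x) with hNF
    have hNFc : NF.card = q * q - q := by
      have hFx : (Finset.univ.filter fun x : F => x ^ q = x).card = q := by
        have := card_fixed_qConj hF
        rw [Nat.card_eq_fintype_card] at this
        conv_rhs => rw [← this]
        rw [Fintype.card_of_subtype]
        intro x
        simp [qConj_apply]
      have h := Finset.card_filter_add_card_filter_not (s := (Finset.univ : Finset F))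
        (fun x => x ^ q = x)
      rw [hFx, Finset.card_univ, ← Nat.card_eq_fintype_card, hF.2, ← hNF, pow_two] at h
      omega
    have himg : B.image key ⊆ NF ×ˢ SK := by
      intro k hk
      obtain ⟨v, hv, rfl⟩ := Finset.mem_image.1 hk
      refine Finset.mem_product.2 ⟨Finset.mem_filter.2 ⟨Finset.mem_univ _, fun hτ => ?_⟩,
        Finset.mem_filter.2 ⟨Finset.mem_univ _, hskew v hv⟩⟩
      refine herm_bad_ne hF hb h2 hK hno hMS hq (Finset.mem_filter.1 hv).2 (p := τ v • p + e)
        (by rw [hb.add, hb.smul, hp, hratE]; rw [show (key v).1 = τ v from rfl] at hτ; rw [hτ])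
        (by simp [herm_add_left, hF.herm_add_right, herm_smul_left, herm_smul_right, hpp, hee,
          hpe, heS'.1]) (fun h => ?_) ?_
      · have h' := congrArg (fun z => herm q z e') h
        simp [herm_add_left, herm_smul_left, hpe', hee'] at h'
      · have := hnz v hv
        simp only [τ, hF.herm_add_right, herm_smul_right, hF.neg_pow, hF.pow_pow]
        field_simp
        ring
    have := Finset.card_le_mul_card_image B ((q + 1) * ((q - 1) * (q + 1))) fun k _ =>
      (card_fibre_le hF hb h2 hK hno hMS hq _ (fun v hv =>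
        (Finset.mem_filter.1 (Finset.mem_filter.1 hv).1).2) (hfib k)).1
    have h' := Finset.card_le_card himg
    rw [Finset.card_product, hNFc] at h'
    have h'' := this.trans (Nat.mul_le_mul_left _ (h'.trans (Nat.mul_le_mul_left _ hSKq)))
    have h3 := hlow.trans h''
    obtain ⟨m, rfl⟩ : ∃ m, q = m + 5 := ⟨q - 5, by omega⟩
    rw [show m + 5 - 1 = m + 4 by omega,
      show (m + 5) * (m + 5) - (m + 5) = (m + 5) * (m + 4) by
        rw [show m + 4 = m + 5 - 1 by omega, Nat.mul_sub, mul_one]] at h3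
    have h4 : ((m + 4) * (m + 6) * ((m + 5) * (m + 5))) * ((m + 5) * (m + 5) + 1) ≤
        ((m + 4) * (m + 6) * ((m + 5) * (m + 5))) * ((m + 6) * (m + 4)) := by linarith
    have h5 := Nat.le_of_mul_le_mul_left h4 (by positivity)
    linarith
  · have := Finset.card_le_mul_card_image B ((q - 1) * (q + 1)) fun k _ =>
      (card_fibre_le hF hb h2 hK hno hMS hq _ (fun v hv =>
        (Finset.mem_filter.1 (Finset.mem_filter.1 hv).1).2) (hfib k)).2 hnl
    have himg : B.image key ⊆ (Finset.univ : Finset F) ×ˢ SK := by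
      intro k hk
      obtain ⟨v, hv, rfl⟩ := Finset.mem_image.1 hk
      exact Finset.mem_product.2 ⟨Finset.mem_univ _,
        Finset.mem_filter.2 ⟨Finset.mem_univ _, hskew v hv⟩⟩
    have h' := Finset.card_le_card himg
    rw [Finset.card_product, Finset.card_univ, ← Nat.card_eq_fintype_card, hF.2] at h'
    have h'' := this.trans (Nat.mul_le_mul_left _ (h'.trans (Nat.mul_le_mul_left _ hSKq)))
    have h3 := Nat.le_of_mul_le_mul_left (hlow.trans h'') (Nat.mul_pos (by omega) (by omega))
    rw [pow_two] at h3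
    exact absurd (Nat.le_of_mul_le_mul_left h3 (Nat.mul_pos (by omega) (by omega)))
      (not_le.2 (Nat.lt_succ_of_le (Nat.le_mul_of_pos_left _ (by omega))))

end Cfsg.Agent.SU4.Orth

namespace Cfsg.Agent.SU4

open Matrix Cfsg.Geo Cfsg.Agent.Classical.U Cfsg.Agent.ClassicalMax Cfsg.Agent.GeoClasses Module
open scoped MatrixGroups Matrix

universe u

variable {F : Type u} [Field F] [Fintype F] {q : ℕ}

/-- The subfield groups of orthogonal type are maximal in `SU_4(q)`. -/
theorem suGL_orthSubfield_maximal (hF : SqField F q) (hq : 5 ≤ q) (h2 : (2 : F) ≠ 0)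
    {F₀ : Subfield F} {P : GL (Fin 4) F} (hcard : Fintype.card F = Nat.card F₀ ^ 2)
    (hb : RatStr q (1 : F) (ratBar q P)) :
    IsMaximalIn (suGL 4 F q) (subfieldSubgroup F₀ P ⊓ suGL 4 F q) := by
  have hcard' : Nat.card F = Nat.card F₀ ^ 2 := by rw [Nat.card_eq_fintype_card, hcard]
  have hperf := suGL_commutator hF (n := 4) (by norm_num) (by omega)
  refine ⟨lt_of_le_not_ge inf_le_right fun hle =>
    suGL_not_le_subfieldSubgroup hF (by norm_num) hperf
      (MaxSub.subfield_ne_top Nat.prime_two hcard) P (hle.trans inf_le_left), fun M hM hMK => ?_⟩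
  set M' := M.comap (ugToGL 4 F q) ⊓ SUG 4 F q with hM'
  by_cases hall : SUG 4 F q ≤ M'
  · refine Or.inr (le_antisymm hMK fun g hg => ?_)
    obtain ⟨k, hk, rfl⟩ := exists_ugToGL_eq hg
    exact (hall hk).1
  refine Or.inl (le_antisymm (le_inf (fun g hg => ?_) hMK) hM)
  obtain ⟨k, hk, rfl⟩ := exists_ugToGL_eq (hMK hg)
  obtain ⟨μ, hμ⟩ := Orth.semi_of_mem hF hb h2 (M := M') (fun g hg hsemi => ⟨by
      obtain ⟨ν, hν⟩ := hsemi
      exact hM ⟨mem_subfieldSubgroup_of_semiComm hF hcard' hν, ugToGL_mem_suGL hg⟩, hg⟩)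
    hall inf_le_right hq ⟨hg, hk⟩
  exact mem_subfieldSubgroup_of_semiComm hF hcard' hμ

end Cfsg.Agent.SU4
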