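import Cfsg.Agent.GeoClasses.UnitRealSubfield

/-!
The subfield groups of symplectic type are maximal in `SU_4(q)`.
-/

set_option autoImplicit false

namespace Cfsg.Agent.SU4

open Matrix Cfsg.Geo Cfsg.Agent.Classical.U Cfsg.Agent.ClassicalMax Cfsg.Agent.GeoClasses Module
open Cfsg.Agent.Forms (hperp mem_hperp finrank_hperp hperp_hperp herm_comm_zero)
open scoped MatrixGroups Matrix

universe u

variable {F : Type u} [Field F] {q : ℕ}

/-- The isotropic vectors all of whose transvections lie in `M`. -/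
def TrvCentre (hF : SqField F q) (M : Subgroup (UG 4 F q)) (x : Fin 4 → F) : Prop :=
  herm q x x = 0 ∧ ∀ (δ : F) (h : TrvCond q x δ), trv hF h ∈ M

/-- All vectors of the span of `a` and `b` are centres. -/
def GoodPair (hF : SqField F q) (M : Subgroup (UG 4 F q)) (a b : Fin 4 → F) : Prop :=
  ∀ α β : F, TrvCentre hF M (α • a + β • b)

variable (hF : SqField F q) {M : Subgroup (UG 4 F q)}
include hF

lemma TrvCentre.smul {x : Fin 4 → F} (h : TrvCentre hF M x) (c : F) :
    TrvCentre hF M (c • x) := by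
  refine ⟨by rw [herm_smul_left, herm_smul_right, h.1, mul_zero, mul_zero], fun δ hd => ?_⟩
  have hd' : TrvCond q x (δ * (c * c ^ q)) := ⟨h.1, by
    rw [mul_pow, mul_pow, hF.pow_pow, hd.2]; ring⟩
  convert h.2 _ hd' using 1
  refine Subtype.ext (LinearEquiv.ext fun w => ?_)
  rw [trv_apply, trv_apply, herm_smul_right, smul_smul]
  congr 2
  ring

lemma TrvCentre.map {x : Fin 4 → F} (h : TrvCentre hF M x) {g : UG 4 F q} (hg : g ∈ M) :
    TrvCentre hF M (g.1 x) := by
  refine ⟨by rw [UG_app]; exact h.1, fun δ hd => ?_⟩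
  have hd' : TrvCond q x δ := ⟨h.1, hd.2⟩
  have := mul_mem (mul_mem hg (h.2 δ hd')) (inv_mem hg)
  rw [trv, uni_conj] at this
  convert this using 1
  exact uni_congr hF _ _ rfl (map_zero _).symm rfl

/-- Four commuting transvections generate those of the whole line. -/
lemma goodPair_of_four {a b : Fin 4 → F} (hab : herm q a b = 0)
    (ha : TrvCentre hF M a) (hb : TrvCentre hF M b) (hab1 : TrvCentre hF M (a + b))
    {l : F} (hl : l ^ q ≠ l) (habl : TrvCentre hF M (a + l • b)) : GoodPair hF M a b := by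
  have hba : herm q b a = 0 := herm_comm_zero hF hab
  intro α β
  refine ⟨by simp [herm_add_left, hF.herm_add_right, herm_smul_left, herm_smul_right, ha.1, hb.1,
    hab, hba], fun δ hd => ?_⟩
  have hne : l ^ q - l ≠ 0 := sub_ne_zero.2 hl
  set t := (α * β ^ q - α ^ q * β) / (l ^ q - l) with ht
  have htl : t * (l ^ q - l) = α * β ^ q - α ^ q * β := div_mul_cancel₀ _ hne
  have htq : t ^ q = t := by
    rw [ht, div_pow, hF.sub_pow, hF.sub_pow, mul_pow, mul_pow, hF.pow_pow, hF.pow_pow, hF.pow_pow,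
      div_eq_div_iff (sub_ne_zero.2 hl.symm) hne]
    ring
  set s := α * β ^ q - t * l ^ q with hs
  have hsq : s ^ q = s := by
    rw [hs, hF.sub_pow, mul_pow, mul_pow, hF.pow_pow, hF.pow_pow, htq]
    linear_combination htl
  set c₁ := α * α ^ q - s - t with hc₁
  set c₂ := β * β ^ q - s - t * (l * l ^ q) with hc₂
  have hsk : ∀ {c : F}, c ^ q = c → (δ * c) ^ q = -(δ * c) := fun {c} hc => by
    rw [mul_pow, hc, hd.2]; ring
  have h1 : TrvCond q a (δ * c₁) := ⟨ha.1, hsk (by
    simp only [hc₁, hF.sub_pow, mul_pow, hF.pow_pow, hsq, htq]; ring)⟩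
  have h2 : TrvCond q b (δ * c₂) := ⟨hb.1, hsk (by
    simp only [hc₂, hF.sub_pow, mul_pow, hF.pow_pow, hsq, htq]; ring)⟩
  have h3 : TrvCond q (a + b) (δ * s) := ⟨hab1.1, hsk hsq⟩
  have h4 : TrvCond q (a + l • b) (δ * t) := ⟨habl.1, hsk htq⟩
  convert mul_mem (mul_mem (mul_mem (ha.2 _ h1) (hb.2 _ h2)) (hab1.2 _ h3)) (habl.2 _ h4) using 1
  refine Subtype.ext (LinearEquiv.ext fun w => ?_)
  simp only [Subgroup.coe_mul, LinearEquiv.mul_apply, trv_apply, hF.herm_add_right,
    herm_smul_right, herm_add_left, herm_smul_left, ha.1, hb.1, hab, hba, mul_zero, add_zero]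
  have e1 : t * l = α ^ q * β - s := by rw [hs]; linear_combination -htl
  have e2 : t * l ^ q = α * β ^ q - s := by rw [hs]; ring
  match_scalars
  · rfl
  · rw [hc₁]; linear_combination (-(δ * herm q w b)) * e2
  · rw [hc₂]; linear_combination (-(δ * herm q w a)) * e1

lemma GoodPair.symm {a b : Fin 4 → F} (h : GoodPair hF M a b) : GoodPair hF M b a := fun α β => by
  rw [add_comm]; exact h β α

variable {bar : (Fin 4 → F) → (Fin 4 → F)} (hb : RatStr q (-1 : F) bar)
  (hK : ∀ g ∈ SUG 4 F q, BarComm bar g → g ∈ M)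
include hb hK

lemma trvCentre_fix {a : Fin 4 → F} (ha : bar a = a) : TrvCentre hF M a :=
  ⟨RatStr.herm_self_eq_zero hF hb rfl ha, fun _ hd => RatStr.uni_mem hF hb hK ha (hd.uniCond hF)
    (by rw [RatStr.map_zero' hF hb, smul_zero]) (by rw [hd.2, neg_one_mul])⟩

/-- A pair may be moved along a rational vector. -/
lemma GoodPair.move {a b b' : Fin 4 → F} (h : GoodPair hF M a b)
    (hli : LinearIndependent F ![a, b]) (ha : bar a = a) (hbb : bar b = b) (hb' : bar b' = b')
    (hab : herm q a b = 0) (hab' : herm q a b' = 0) : GoodPair hF M a b' := by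
  by_cases hbb' : herm q b b' = 0
  · have haa := RatStr.herm_self_eq_zero hF hb rfl ha
    have hbb0 := RatStr.herm_self_eq_zero hF hb rfl hbb
    set T := Submodule.span F (Set.range ![a, b]) with hT
    have hT2 : finrank F T = 2 := by rw [hT, finrank_span_eq_card hli]; simp
    have hrange : Set.range ![a, b] = {a, b} := by
      ext x; simp [eq_comm, or_comm]
    have hle : T ≤ hperp q T := by
      rw [hT, hrange]
      intro v hv
      obtain ⟨x, y, rfl⟩ := Submodule.mem_span_pair.1 hv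
      rw [mem_hperp_pair hF]
      simp [herm_add_left, herm_smul_left, haa, hbb0, hab, herm_comm_zero hF hab]
    have hmem : b' ∈ T := by
      have heq : T = hperp q T := Submodule.eq_of_le_of_finrank_le hle (by
        rw [finrank_hperp hF, hT2])
      rw [heq, hT, hrange, mem_hperp_pair hF]
      exact ⟨herm_comm_zero hF hab', herm_comm_zero hF hbb'⟩
    rw [hT, hrange] at hmem
    obtain ⟨x, y, rfl⟩ := Submodule.mem_span_pair.1 hmem
    intro α β
    rw [show α • a + β • (x • a + y • b) = (α + β * x) • a + (β * y) • b by module]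
    exact h _ _
  · set v := b' - b with hv
    have hvv : bar v = v := by rw [hv, RatStr.map_sub' hF hb, hb', hbb]
    have hhq : herm q b b' ^ q = -herm q b b' := by
      rw [RatStr.herm_fix hF hb hbb hb', neg_one_mul]
    have hd : TrvCond q v (herm q b b')⁻¹ := ⟨RatStr.herm_self_eq_zero hF hb rfl hvv, by
      rw [inv_pow, hhq, inv_neg]⟩
    have htM : trv hF hd ∈ M := (trvCentre_fix hF hb hK hvv).2 _ hd
    intro α β
    have h2 := (h α β).map hF htM
    convert h2 using 1
    rw [trv_apply, herm_add_left, herm_smul_left, herm_smul_left,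
      show herm q a v = 0 by rw [hv, hF.herm_sub_right, hab', hab, sub_zero],
      show herm q b v = herm q b b' by
        rw [hv, hF.herm_sub_right, RatStr.herm_self_eq_zero hF hb rfl hbb, sub_zero]]
    have : (herm q b b')⁻¹ * (α * 0 + β * herm q b b') = β := by field_simp; ring
    rw [this, hv]
    module

/-- One good pair gives all. -/
lemma goodPair_all {a₀ b₀ a b : Fin 4 → F} (h : GoodPair hF M a₀ b₀)
    (hli₀ : LinearIndependent F ![a₀, b₀]) (ha₀ : bar a₀ = a₀) (hb₀ : bar b₀ = b₀)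
    (hab₀ : herm q a₀ b₀ = 0) (hli : LinearIndependent F ![a, b]) (ha : bar a = a)
    (hbb : bar b = b) (hab : herm q a b = 0) : GoodPair hF M a b := by
  have ha0 : a₀ ≠ 0 := hli₀.ne_zero 0
  have haa0 : a ≠ 0 := hli.ne_zero 0
  have indep : ∀ {x y : Fin 4 → F}, x ≠ 0 → y ∉ F ∙ x → LinearIndependent F ![x, y] :=
    fun {x y} hx hy => by
      rw [LinearIndependent.pair_iff' hx]
      exact fun c hc => hy (Submodule.mem_span_singleton.2 ⟨c, hc⟩)
  have haa := RatStr.herm_self_eq_zero hF hb rfl ha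
  have haa₀ := RatStr.herm_self_eq_zero hF hb rfl ha₀
  by_cases hspan : a ∈ F ∙ a₀
  · obtain ⟨c, rfl⟩ := Submodule.mem_span_singleton.1 hspan
    have hc : c ≠ 0 := fun h0 => haa0 (by rw [h0, zero_smul])
    have h1 : GoodPair hF M (c • a₀) b₀ := fun α β => by rw [smul_smul]; exact h _ _
    have hli1 : LinearIndependent F ![c • a₀, b₀] := by
      rw [LinearIndependent.pair_iff' haa0]
      exact fun d hd => (LinearIndependent.pair_iff' ha0).1 hli₀ (d * c) (by rw [mul_smul, hd])
    exact GoodPair.move hF hb hK h1 hli1 ha hb₀ hbb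
      (by rw [herm_smul_left, hab₀, mul_zero]) hab
  · obtain ⟨c, hc, hca₀, hca, hc₀, hc₁⟩ : ∃ c, bar c = c ∧ herm q c a₀ = 0 ∧ herm q c a = 0 ∧
        c ∉ F ∙ a₀ ∧ c ∉ F ∙ a := by
      by_cases hh : herm q a a₀ = 0
      · refine ⟨a₀ + a, by rw [hb.add, ha₀, ha], by rw [herm_add_left, haa₀, hh, add_zero],
          by rw [herm_add_left, haa, herm_comm_zero hF hh, add_zero], fun h0 => hspan ?_,
          fun h0 => hspan ?_⟩
        · have := (F ∙ a₀).sub_mem h0 (Submodule.mem_span_singleton_self a₀)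
          rwa [add_sub_cancel_left] at this
        · have := (F ∙ a).sub_mem h0 (Submodule.mem_span_singleton_self a)
          rw [add_sub_cancel_right] at this
          obtain ⟨d, hd⟩ := Submodule.mem_span_singleton.1 this
          have hd0 : d ≠ 0 := fun h1 => ha0 (by rw [← hd, h1, zero_smul])
          exact Submodule.mem_span_singleton.2 ⟨d⁻¹, by rw [← hd, inv_smul_smul₀ hd0]⟩
      · set S := hperp q (Submodule.span F {a₀, a}) with hS
        have hstab : IsBarStable bar S := RatStr.stable_pair hF hb ha₀ ha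
        have hSne : ¬ S ≤ (⊥ : Submodule F (Fin 4 → F)) := fun hle => by
          have h1 := Submodule.finrank_mono hle
          rw [finrank_bot, hS, finrank_hperp hF] at h1
          have h2 : finrank F (Submodule.span F (Set.range ![a₀, a])) ≤ 2 :=
            (finrank_range_le_card ![a₀, a]).trans_eq (by simp)
          rw [show Set.range ![a₀, a] = ({a₀, a} : Set (Fin 4 → F)) by
            ext x; simp [eq_comm, or_comm]] at h2
          omega
        obtain ⟨c, hcS, hc, hc0⟩ := RatStr.exists_fix_not_mem hF hb hstab hSne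
        rw [hS, mem_hperp_pair hF] at hcS
        refine ⟨c, hc, hcS.1, hcS.2, fun h0 => hh ?_, fun h0 => hh ?_⟩
        · obtain ⟨d, rfl⟩ := Submodule.mem_span_singleton.1 h0
          have hd : d ≠ 0 := fun h1 => hc0 (by simp [h1])
          have h5 := hcS.2
          rw [herm_smul_left, mul_eq_zero] at h5
          exact herm_comm_zero hF (h5.resolve_left hd)
        · obtain ⟨d, rfl⟩ := Submodule.mem_span_singleton.1 h0
          have hd : d ≠ 0 := fun h1 => hc0 (by simp [h1])
          have h5 := hcS.1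
          rw [herm_smul_left, mul_eq_zero] at h5
          exact h5.resolve_left hd
    have hc0 : c ≠ 0 := fun h0 => hc₀ (by rw [h0]; exact zero_mem _)
    have h1 := GoodPair.move hF hb hK h hli₀ ha₀ hb₀ hc hab₀ (herm_comm_zero hF hca₀)
    have hli1 : LinearIndependent F ![c, a₀] := indep hc0 fun h0 => hc₀ (by
      obtain ⟨d, hd⟩ := Submodule.mem_span_singleton.1 h0
      have hd0 : d ≠ 0 := fun h2 => ha0 (by rw [← hd, h2, zero_smul])
      exact Submodule.mem_span_singleton.2 ⟨d⁻¹, by rw [← hd, inv_smul_smul₀ hd0]⟩)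
    have h2 := GoodPair.move hF hb hK h1.symm hli1 hc ha₀ ha hca₀ hca
    exact GoodPair.move hF hb hK h2.symm (indep haa0 hc₁) ha hc hbb (herm_comm_zero hF hca) hab

omit hK in
/-- The rational decomposition of an isotropic vector. -/
lemma isotropic_decomp {z : Fin 4 → F} (hz : herm q z z = 0) :
    (∃ (γ : F) (c : Fin 4 → F), bar c = c ∧ z = γ • c) ∨
    ∃ (α β : F) (a b : Fin 4 → F), bar a = a ∧ bar b = b ∧ z = α • a + β • b ∧
      herm q a b = 0 ∧ LinearIndependent F ![a, b] ∧ α ≠ 0 ∧ (β / α) ^ q ≠ β / α := by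
  obtain ⟨l, hl⟩ := exists_qConj_moved hF
  rw [qConj_apply] at hl
  obtain ⟨α, β, a, b, ha, hbb, hzab⟩ : ∃ (α β : F) (a b : Fin 4 → F), bar a = a ∧ bar b = b ∧
      z = α • a + β • b := by
    refine ⟨l ^ q / (l ^ q - l), -(1 / (l ^ q - l)), z + bar z, l • z + l ^ q • bar z, ?_, ?_, ?_⟩
    · rw [hb.add, hb.invol, add_comm]
    · rw [hb.add, hb.smul, hb.smul, hb.invol, hF.pow_pow, add_comm]
    · match_scalars <;> field_simp [sub_ne_zero.2 hl] <;> ring
  rcases eq_or_ne α 0 with hα | hα
  · exact Or.inl ⟨β, b, hbb, by rw [hzab, hα, zero_smul, zero_add]⟩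
  by_cases hr : (β / α) ^ q = β / α
  · refine Or.inl ⟨α, a + (β / α) • b, by rw [hb.add, hb.smul, ha, hbb, hr], ?_⟩
    rw [hzab, smul_add, smul_smul, mul_div_cancel₀ _ hα]
  have hh : herm q a b = 0 := by
    rw [hzab] at hz
    simp only [herm_add_left, hF.herm_add_right, herm_smul_left, herm_smul_right,
      RatStr.herm_self_eq_zero hF hb rfl ha, RatStr.herm_self_eq_zero hF hb rfl hbb] at hz
    have hba : herm q b a = -herm q a b := by
      rw [← hF.herm_symm a b, RatStr.herm_fix hF hb ha hbb, neg_one_mul]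
    rw [hba] at hz
    by_contra hne
    have h0 : α * β ^ q - α ^ q * β = 0 := by
      have : herm q a b * (α * β ^ q - α ^ q * β) = 0 := by linear_combination hz
      exact (mul_eq_zero.1 this).resolve_left hne
    refine hr ?_
    rw [div_pow, div_eq_div_iff (pow_ne_zero _ hα) hα]
    linear_combination h0
  by_cases hli : LinearIndependent F ![a, b]
  · exact Or.inr ⟨α, β, a, b, ha, hbb, hzab, hh, hli, hα, hr⟩
  rcases eq_or_ne a 0 with ha0 | ha0
  · exact Or.inl ⟨β, b, hbb, by rw [hzab, ha0, smul_zero, zero_add]⟩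
  rw [LinearIndependent.pair_iff' ha0] at hli
  push Not at hli
  obtain ⟨d, hd⟩ := hli
  exact Or.inl ⟨α + β * d, a, ha, by rw [hzab, ← hd]; module⟩

omit hK in
/-- An element preserving the rational lines commutes with the involution up to a scalar. -/
lemma exists_semiComm {g : UG 4 F q} (hg : ∀ a, bar a = a → ∃ μ : F, bar (g.1 a) = μ • g.1 a) :
    ∃ μ : F, ∀ w, bar (g.1 w) = μ • g.1 (bar w) := by
  have htop : IsBarStable bar (⊤ : Submodule F (Fin 4 → F)) := fun _ _ => trivial
  obtain ⟨a, -, ha, ha0⟩ := RatStr.exists_fix_not_mem hF hb htop (N := ⊥)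
    (fun h => absurd (Submodule.finrank_mono h) (by simp))
  rw [Submodule.mem_bot] at ha0
  obtain ⟨μ, hμ⟩ := hg a ha
  have hrat : ∀ b, bar b = b → bar (g.1 b) = μ • g.1 b := by
    intro b hbb
    by_cases hmem : b ∈ F ∙ a
    · obtain ⟨c, rfl⟩ := Submodule.mem_span_singleton.1 hmem
      rw [hb.smul, ha] at hbb
      have hc : c ^ q = c := smul_left_injective F ha0 hbb
      rw [map_smul, hb.smul, hμ, hc, smul_comm]
    · obtain ⟨ν, hν⟩ := hg b hbb
      obtain ⟨ρ, hρ⟩ := hg (a + b) (by rw [hb.add, ha, hbb])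
      rw [map_add, hb.add, hμ, hν] at hρ
      have h0 : (μ - ρ) • a + (ν - ρ) • b = 0 := by
        apply g.1.injective
        rw [map_add, map_smul, map_smul, map_zero]
        linear_combination (norm := module) hρ
      have hli : LinearIndependent F ![a, b] := by
        rw [LinearIndependent.pair_iff' ha0]
        exact fun c hc => hmem (Submodule.mem_span_singleton.2 ⟨c, hc⟩)
      obtain ⟨h1, h2⟩ := LinearIndependent.pair_iff.1 hli _ _ h0
      rw [hν, sub_eq_zero.1 h2, ← sub_eq_zero.1 h1]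
  refine ⟨μ, fun w => ?_⟩
  induction RatStr.mem_span_fix hF hb htop (show w ∈ ⊤ from trivial) using
      Submodule.span_induction with
  | mem x hx => rw [hrat x hx.2, hx.2]
  | zero => simp [RatStr.map_zero' hF hb]
  | add x y _ _ hx hy => rw [map_add, hb.add, hb.add, hx, hy, map_add, smul_add]
  | smul c x _ hx => rw [map_smul, hb.smul, hb.smul, hx, map_smul, smul_comm]

/-- An element not commuting with the involution up to scalars gives all of `SU`. -/
lemma SUG_le_of_not_semiComm
    (hnot : ∃ g ∈ M, ∀ μ : F, ∃ w, bar (g.1 w) ≠ μ • g.1 (bar w)) : SUG 4 F q ≤ M := by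
  obtain ⟨g, hgM, hg⟩ := hnot
  obtain ⟨c, hc, hcg⟩ : ∃ c, bar c = c ∧ ∀ μ : F, bar (g.1 c) ≠ μ • g.1 c := by
    by_contra hcon
    push Not at hcon
    obtain ⟨μ, hμ⟩ := exists_semiComm hF hb hcon
    obtain ⟨w, hw⟩ := hg μ
    exact hw (hμ w)
  have hx := (trvCentre_fix hF hb hK hc).map hF hgM
  rcases isotropic_decomp hF hb hx.1 with
    ⟨γ, d, hd, hgd⟩ | ⟨α, β, a₀, b₀, ha₀, hb₀, hgab, hab₀, hli₀, hα, hr⟩
  · exfalso
    refine hcg (γ ^ q / γ) ?_
    rw [hgd, hb.smul, hd, smul_smul]
    rcases eq_or_ne γ 0 with rfl | hγ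
    · simp [zero_pow hF.q_ne_zero]
    · rw [div_mul_cancel₀ _ hγ]
  have hl : TrvCentre hF M (a₀ + (β / α) • b₀) := by
    have := hx.smul hF α⁻¹
    convert this using 1
    rw [hgab, smul_add, inv_smul_smul₀ hα, smul_smul, div_eq_inv_mul]
  have hgood := goodPair_of_four hF hab₀ (trvCentre_fix hF hb hK ha₀) (trvCentre_fix hF hb hK hb₀)
    (trvCentre_fix hF hb hK (by rw [hb.add, ha₀, hb₀])) hr hl
  rw [SUG_eq_TG hF (by norm_num) (by omega), TG, Subgroup.closure_le]
  rintro h ⟨e, δ, he, hh⟩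
  rw [mem_TG_generator hF he hh]
  suffices TrvCentre hF M e from this.2 δ he
  rcases isotropic_decomp hF hb he.1 with
    ⟨γ, d, hd, rfl⟩ | ⟨α', β', a, b, ha, hbb, rfl, hab, hli, -, -⟩
  · exact (trvCentre_fix hF hb hK hd).smul hF γ
  · exact goodPair_all hF hb hK hgood hli₀ ha₀ hb₀ hab₀ hli ha hbb hab α' β'

omit hb hK in
/-- The subfield groups of symplectic type are maximal in `SU_4(q)`. -/
theorem suGL_sympSubfield_maximal [Fintype F] {F₀ : Subfield F} {P : GL (Fin 4) F}
    (hcard : Fintype.card F = Nat.card F₀ ^ 2) (hb' : RatStr q (-1 : F) (ratBar q P)) :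
    IsMaximalIn (suGL 4 F q) (subfieldSubgroup F₀ P ⊓ suGL 4 F q) := by
  have hcard' : Nat.card F = Nat.card F₀ ^ 2 := by rw [Nat.card_eq_fintype_card, hcard]
  have hperf := suGL_commutator hF (n := 4) (by norm_num) (by omega)
  refine ⟨lt_of_le_not_ge inf_le_right fun hle =>
    suGL_not_le_subfieldSubgroup hF (by norm_num) hperf
      (MaxSub.subfield_ne_top Nat.prime_two hcard) P (hle.trans inf_le_left), fun M hM hMK => ?_⟩
  by_cases hsemi : ∀ g ∈ M.comap (ugToGL 4 F q),
      ∃ μ : F, ∀ w, ratBar q P (g.1 w) = μ • g.1 (ratBar q P w)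
  · refine Or.inl (le_antisymm (le_inf (fun g hg => ?_) hMK) hM)
    obtain ⟨k, -, rfl⟩ := exists_ugToGL_eq (hMK hg)
    obtain ⟨μ, hμ⟩ := hsemi k hg
    exact mem_subfieldSubgroup_of_semiComm hF hcard' hμ
  refine Or.inr (le_antisymm hMK ?_)
  push Not at hsemi
  have hS : SUG 4 F q ≤ M.comap (ugToGL 4 F q) :=
    SUG_le_of_not_semiComm hF hb' (fun g hg hgc =>
      hM ⟨mem_subfieldSubgroup_of_semiComm hF hcard' (μ := 1) fun w => by
        rw [one_smul]; exact hgc w, ugToGL_mem_suGL hg⟩) hsemi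
  intro g hg
  obtain ⟨k, hk, rfl⟩ := exists_ugToGL_eq hg
  exact hS hk

end Cfsg.Agent.SU4
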