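import Cfsg.Agent.GeoClasses.UnitTotDecomp
import Cfsg.Agent.GeoClasses.UnitBase
import Cfsg.Agent.Forms.UnitaryGeom

/-!
The stabilisers of pairs of totally singular planes are maximal in `SU_4(q)`.
-/

set_option autoImplicit false
set_option linter.style.haveILetI false
set_option linter.unusedSectionVars false

namespace Cfsg.Agent.SU4

open Matrix Cfsg.Geo Cfsg.Agent.Classical.U Cfsg.Agent.ClassicalMax Cfsg.Agent.GeoClasses Module
open Cfsg.Agent.Forms (hperp mem_hperp finrank_hperp hperp_hperp herm_comm_zero)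
open scoped MatrixGroups Matrix

universe u

variable {F : Type u} [Field F] {q : ℕ}

/-- Two complementary totally singular planes, and a group containing the part of their common
stabiliser in `SU`. -/
structure TotPair (q : ℕ) (A B : Submodule F (Fin 4 → F)) (M : Subgroup (UG 4 F q)) : Prop where
  compl : IsCompl A B
  tsA : ∀ x ∈ A, ∀ y ∈ A, herm q x y = 0
  tsB : ∀ x ∈ B, ∀ y ∈ B, herm q x y = 0
  dimA : finrank F A = 2
  dimB : finrank F B = 2
  stab : ∀ g ∈ SUG 4 F q, (∀ x ∈ A, g.1 x ∈ A) → (∀ x ∈ B, g.1 x ∈ B) → g ∈ M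

variable {A B : Submodule F (Fin 4 → F)} {M : Subgroup (UG 4 F q)}

theorem TotPair.symm (P : TotPair q A B M) : TotPair q B A M :=
  ⟨P.compl.symm, P.tsB, P.tsA, P.dimB, P.dimA, fun g hg h1 h2 => P.stab g hg h2 h1⟩

variable (hF : SqField F q) (P : TotPair q A B M)
include hF P

theorem TotPair.short {u w : Fin 4 → F} (hu : u ∈ A) (hw : w ∈ B)
    (h : UniCond q u w 0) : uni hF h ∈ M :=
  P.stab _ (det_uni hF h)
    (fun x hx => by
      rw [uni_apply, P.tsA x hx u hu, zero_smul, add_zero, zero_mul, zero_sub]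
      exact A.add_mem hx (A.smul_mem _ hu))
    (fun x hx => by
      rw [uni_apply, P.tsB x hx w hw, zero_mul, sub_zero, zero_smul, add_zero]
      exact B.add_mem hx (B.smul_mem _ hw))

theorem TotPair.exists_partner {u : Fin 4 → F} (hu : u ∈ A) (hu0 : u ≠ 0) :
    ∃ f ∈ B, herm q u f = 1 := by
  obtain ⟨f, hf, -, hfu⟩ := uni_pair_vector hF P.compl.symm P.tsA (zero_mem A) hu (p := 0)
    (by simpa [Submodule.span_singleton_eq_bot.2] using hu0)
  exact ⟨f, hf, by rw [← hF.herm_symm, hfu, one_pow]⟩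

theorem TotPair.exists_orth {v : Fin 4 → F} (hv : v ∈ B) : ∃ u ∈ A, u ≠ 0 ∧ herm q u v = 0 := by
  have := finrank_le_inf_ker (hermL q v) A
  have hd := P.dimA
  obtain ⟨u, hu, hu0⟩ := Submodule.exists_mem_ne_zero_of_ne_bot (p := A ⊓ LinearMap.ker (hermL q v))
    fun e => by rw [e, finrank_bot] at this; omega
  exact ⟨u, hu.1, hu0, hu.2⟩

/-- The annihilator of a non-zero vector of one plane is a line of the other. -/
theorem TotPair.mem_line {u x w : Fin 4 → F} (hu : u ∈ A) (hu0 : u ≠ 0) (hw : w ∈ B) (hw0 : w ≠ 0)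
    (huw : herm q u w = 0) (hx : x ∈ A) (hxw : herm q x w = 0) : x ∈ (F ∙ u) := by
  obtain ⟨a, ha, haw⟩ := TotPair.exists_partner hF P.symm hw hw0
  set K := A ⊓ LinearMap.ker (hermL q w)
  have hlt : K < A := lt_of_le_of_ne inf_le_left fun e => by
    have : herm q a w = 0 := (e.symm ▸ ha : a ∈ K).2
    rw [← hF.herm_symm, haw, one_pow] at this
    exact one_ne_zero this
  have := Submodule.finrank_lt_finrank_of_lt hlt
  rw [P.dimA] at this
  have he : (F ∙ u) = K := Submodule.eq_of_le_of_finrank_le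
    ((Submodule.span_singleton_le_iff_mem _ _).2 ⟨hu, huw⟩) (by rw [finrank_span_singleton hu0]; omega)
  rw [he]
  exact ⟨hx, hxw⟩

/-- A torus element on a hyperbolic pair of the two planes. -/
theorem TotPair.torus {e f : Fin 4 → F} (he : e ∈ A) (hf : f ∈ B) (hef : herm q e f = 1) {ν : F}
    (hν : ν ^ q = ν) (hν0 : ν ≠ 0) :
    ∃ t ∈ M, (∀ y, herm q y e = 0 → herm q y f = 0 → t.1 y = y) ∧ t.1 e = (-ν) • e ∧
      t.1 f = (-ν⁻¹) • f := by
  have hfe : herm q f e = 1 := by rw [← hF.herm_symm, hef, one_pow]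
  have hee := P.tsA e he e he
  have hff := P.tsB f hf f hf
  obtain ⟨δ, hδ0, hδ⟩ := hF.exists_skew
  have hW : ∀ d : F, d ≠ 0 → d ^ q = -d → ∃ g ∈ SUG 4 F q, g.1 e = (-d⁻¹) • f ∧ g.1 f = d • e ∧
      ∀ y, herm q y e = 0 → herm q y f = 0 → g.1 y = y := by
    intro d hd0 hd
    have c1 : TrvCond q e d := ⟨hee, hd⟩
    have c2 : TrvCond q f (-d⁻¹) := ⟨hff, by rw [hF.neg_pow, inv_pow, hd, inv_neg]⟩
    refine ⟨trv hF c1 * trv hF c2 * trv hF c1,
      mul_mem (mul_mem (det_uni hF _) (det_uni hF _)) (det_uni hF _), ?_, ?_, fun y hye hyf => ?_⟩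
    · simp only [Subgroup.coe_mul, LinearEquiv.mul_apply, trv_apply, herm_add_left, herm_smul_left,
        hef, hfe, hee, hff]
      match_scalars <;> field_simp <;> ring
    · simp only [Subgroup.coe_mul, LinearEquiv.mul_apply, trv_apply, herm_add_left, herm_smul_left,
        hef, hfe, hee, hff]
      match_scalars <;> field_simp <;> ring
    · simp [Subgroup.coe_mul, LinearEquiv.mul_apply, trv_apply, hye, hyf]
  obtain ⟨g₁, hg₁, e₁, f₁, fix₁⟩ := hW δ hδ0 hδ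
  obtain ⟨g₂, hg₂, e₂, f₂, fix₂⟩ := hW (ν * δ) (mul_ne_zero hν0 hδ0) (by rw [mul_pow, hν, hδ]; ring)
  set t := g₂ * g₁ with ht
  have hte : t.1 e = (-ν) • e := by
    rw [ht, Subgroup.coe_mul, LinearEquiv.mul_apply, e₁, map_smul, f₂, smul_smul]
    congr 1; field_simp
  have htf : t.1 f = (-ν⁻¹) • f := by
    rw [ht, Subgroup.coe_mul, LinearEquiv.mul_apply, f₁, map_smul, e₂, smul_smul]
    congr 1; field_simp
  have hfix : ∀ y, herm q y e = 0 → herm q y f = 0 → t.1 y = y := fun y h1 h2 => by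
    rw [ht, Subgroup.coe_mul, LinearEquiv.mul_apply, fix₁ y h1 h2, fix₂ y h1 h2]
  refine ⟨t, P.stab t (mul_mem hg₂ hg₁) (fun y hy => ?_) (fun y hy => ?_), hfix, hte, htf⟩
  · have h := hfix (y - herm q y f • e) (by rw [herm_sub_left, herm_smul_left, P.tsA y hy e he, hee]; ring)
      (by rw [herm_sub_left, herm_smul_left, hef, mul_one, sub_self])
    rw [map_sub, map_smul, hte, sub_eq_iff_eq_add] at h
    rw [h]
    exact A.add_mem (A.sub_mem hy (A.smul_mem _ he)) (A.smul_mem _ (A.smul_mem _ he))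
  · have h := hfix (y - herm q y e • f) (by rw [herm_sub_left, herm_smul_left, hfe, mul_one, sub_self])
      (by rw [herm_sub_left, herm_smul_left, P.tsB y hy f hf, hff]; ring)
    rw [map_sub, map_smul, htf, sub_eq_iff_eq_add] at h
    rw [h]
    exact B.add_mem (B.sub_mem hy (B.smul_mem _ hf)) (B.smul_mem _ (B.smul_mem _ hf))

theorem TotPair.scale {u : Fin 4 → F} (hu : u ∈ A) (hu0 : u ≠ 0) {δ : F} (h : TrvCond q u δ)
    (hm : trv hF h ∈ M) {ν : F} (hν : ν ^ q = ν) (hν0 : ν ≠ 0) :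
    ∃ h' : TrvCond q u (ν * ν * δ), trv hF h' ∈ M := by
  obtain ⟨f, hf, huf⟩ := P.exists_partner hF hu hu0
  obtain ⟨t, htM, -, hte, -⟩ := P.torus hF hu hf huf hν hν0
  have h' : TrvCond q u (ν * ν * δ) := ⟨h.1, by rw [mul_pow, mul_pow, hν, h.2]; ring⟩
  refine ⟨h', ?_⟩
  convert mul_mem (mul_mem htM hm) (inv_mem htM) using 1
  rw [eq_mul_inv_iff_mul_eq]
  refine Subtype.ext (LinearEquiv.ext fun w => ?_)
  simp only [Subgroup.coe_mul, LinearEquiv.mul_apply, trv_apply, map_add, map_smul]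
  rw [hte]
  have e : herm q (t.1 w) u = (-ν⁻¹) * herm q w u := by
    have h1 := UG_app t w u
    rw [hte, herm_smul_right, hF.neg_pow, hν] at h1
    rw [← h1]; field_simp
  rw [e]
  match_scalars
  · ring
  · field_simp

/-- One transvection at a point of the planes gives all of them. -/
theorem TotPair.centre_of_one {u : Fin 4 → F} (hu : u ∈ A) (hu0 : u ≠ 0) {δ₀ : F} (hδ₀ : δ₀ ≠ 0)
    (h₀ : TrvCond q u δ₀) (hm : trv hF h₀ ∈ M) : ∀ (δ : F) (h : TrvCond q u δ), trv hF h ∈ M := by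
  intro δ h
  set c := δ / δ₀ with hc
  have hcq : c ^ q = c := by rw [hc, div_pow, h.2, h₀.2, neg_div_neg_eq]
  have hδ : δ = c * δ₀ := by rw [hc, div_mul_cancel₀ _ hδ₀]
  have hsq : ∀ ν : F, ν ^ q = ν → ∃ h' : TrvCond q u (ν * ν * δ₀), trv hF h' ∈ M := by
    intro ν hν
    rcases eq_or_ne ν 0 with rfl | hν0
    · refine ⟨⟨h₀.1, by rw [mul_zero, zero_mul, zero_pow hF.q_ne_zero, neg_zero]⟩, ?_⟩
      convert one_mem M using 1
      refine Subtype.ext (LinearEquiv.ext fun w => ?_)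
      simp [trv_apply]
    · exact P.scale hF hu hu0 h₀ hm hν hν0
  obtain ⟨x, y, hx, hy, hxy⟩ : ∃ x y : F, x ^ q = x ∧ y ^ q = y ∧ c = x * x - y * y := by
    rcases ne_or_eq (2 : F) 0 with h2 | h2
    · have h2q : (2 : F) ^ q = 2 := by rw [show (2 : F) = 1 + 1 by norm_num, hF.add_pow, one_pow]
      exact ⟨(c + 1) / 2, (c - 1) / 2, by rw [div_pow, hF.add_pow, hcq, one_pow, h2q],
        by rw [div_pow, hF.sub_pow, hcq, one_pow, h2q],
        by
          have h4 : (4 : F) ≠ 0 := by rw [show (4 : F) = 2 * 2 by norm_num]; exact mul_ne_zero h2 h2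
          field_simp
          ring⟩
    · obtain ⟨p, e, hp, hch, he⟩ := hF.exists_char
      haveI := hch
      have hp2 : p = 2 :=
        (Nat.prime_dvd_prime_iff_eq hp Nat.prime_two).1 ((CharP.cast_eq_zero_iff F p 2).1 (by exact_mod_cast h2))
      have hlt := hF.one_lt
      obtain ⟨e, rfl⟩ : ∃ e', e = e' + 1 := ⟨e - 1, by rcases e with _ | e <;> simp at he ⊢; omega⟩
      rw [hp2, pow_succ] at he
      refine ⟨c ^ (2 ^ e), 0, ?_, zero_pow hF.q_ne_zero, ?_⟩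
      · rw [← pow_mul, mul_comm, pow_mul, hcq]
      · rw [← pow_add, ← two_mul, mul_comm 2, ← he, hcq]; ring
  obtain ⟨h1, m1⟩ := hsq x hx
  obtain ⟨h2, m2⟩ := hsq y hy
  convert mul_mem m1 (inv_mem m2) using 1
  rw [eq_mul_inv_iff_mul_eq]
  refine Subtype.ext (LinearEquiv.ext fun w => ?_)
  simp only [Subgroup.coe_mul, LinearEquiv.mul_apply, trv_apply, herm_add_left, herm_smul_left,
    h₀.1, hδ, hxy]
  module

/-- A product of transvections at orthogonal points of the two planes separates. -/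
theorem TotPair.separate (hq : 4 ≤ q) {u w : Fin 4 → F} (hu : u ∈ A) (hu0 : u ≠ 0) (hw : w ∈ B)
    (hw0 : w ≠ 0) (huw : herm q u w = 0) {α β : F} (hα : TrvCond q u α) (hβ : TrvCond q w β)
    (hne : α ≠ 0 ∨ β ≠ 0) (hm : trv hF hα * trv hF hβ ∈ M) :
    (∃ u ∈ A, u ≠ 0 ∧ ∀ (δ : F) (h : TrvCond q u δ), trv hF h ∈ M) ∨
      ∃ u ∈ B, u ≠ 0 ∧ ∀ (δ : F) (h : TrvCond q u δ), trv hF h ∈ M := by
  by_cases hβ0 : β = 0
  · refine Or.inl ⟨u, hu, hu0, P.centre_of_one hF hu hu0 (hne.resolve_right (fun h => h hβ0)) hα ?_⟩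
    convert hm using 1
    refine Subtype.ext (LinearEquiv.ext fun v => ?_)
    simp [Subgroup.coe_mul, LinearEquiv.mul_apply, trv_apply, hβ0]
  obtain ⟨a, ha, haw⟩ := TotPair.exists_partner hF P.symm hw hw0
  have haw' : herm q a w = 1 := by rw [← hF.herm_symm, haw, one_pow]
  obtain ⟨ν, hν, hν0, hν2⟩ : ∃ ν : F, ν ^ q = ν ∧ ν ≠ 0 ∧ ν * ν ≠ 1 := by
    classical
    haveI : Finite F := hF.1
    haveI : Fintype F := Fintype.ofFinite F
    by_contra hcon
    push Not at hcon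
    have h := hF.card_fixed_units
    rw [Nat.card_eq_fintype_card, Fintype.card_subtype] at h
    have hle : (Finset.univ.filter fun x : F => x ^ (q - 1) = 1) ⊆ {1, -1} := fun x hx => by
      simp only [Finset.mem_filter, Finset.mem_univ, true_and] at hx
      have hx0 : x ≠ 0 := fun e => by
        rw [e, zero_pow (by omega)] at hx; exact zero_ne_one hx
      have h := hcon x ((hF.fixed_iff hx0).2 hx) hx0
      simp only [Finset.mem_insert, Finset.mem_singleton]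
      have h' : (x - 1) * (x + 1) = 0 := by linear_combination h
      exact (mul_eq_zero.1 h').imp sub_eq_zero.1 eq_neg_of_add_eq_zero_left
    have := (Finset.card_le_card hle).trans Finset.card_le_two
    omega
  obtain ⟨t, htM, hfix, -, htw⟩ := P.torus hF ha hw haw' hν hν0
  have htu : t.1 u = u := hfix u (P.tsA u hu a ha) huw
  set β' := β / (ν * ν) - β with hβ'
  have hβ'c : TrvCond q w β' := ⟨hβ.1, by
    rw [hβ', hF.sub_pow, div_pow, mul_pow, hν, hβ.2]; ring⟩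
  have hk : trv hF hβ'c ∈ M := by
    convert mul_mem (mul_mem (mul_mem htM hm) (inv_mem htM)) (inv_mem hm) using 1
    rw [eq_mul_inv_iff_mul_eq, eq_mul_inv_iff_mul_eq]
    refine Subtype.ext (LinearEquiv.ext fun v => ?_)
    have hhw : ∀ z, herm q (t.1 z) w = (-ν) * herm q z w := fun z => by
      have h1 := UG_app t z w
      rw [htw, herm_smul_right, hF.neg_pow, inv_pow, hν] at h1
      rw [← h1]; field_simp
    have hhu : ∀ z, herm q (t.1 z) u = herm q z u := fun z => by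
      have h1 := UG_app t z u
      rwa [htu] at h1
    simp only [Subgroup.coe_mul, LinearEquiv.mul_apply, trv_apply, map_add, map_smul, herm_add_left,
      herm_smul_left, htu, htw, hhu, hhw, huw, herm_comm_zero hF huw, hβ.1, hα.1]
    match_scalars <;> (try simp only [hβ']) <;> field_simp <;> ring
  refine Or.inr ⟨w, hw, hw0, TotPair.centre_of_one hF P.symm hw hw0 ?_ hβ'c hk⟩
  rw [hβ', sub_ne_zero]
  intro e
  rw [div_eq_iff (mul_ne_zero hν0 hν0)] at e
  exact hν2 (mul_left_cancel₀ hβ0 (by rw [← e, mul_one]))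

/-- A transvection at `g w` corrects `g` on the first plane. -/
theorem TotPair.exists_correct {g : UG 4 F q} {u w : Fin 4 → F} (hu : u ∈ A) (hu0 : u ≠ 0) (hw : w ∈ B)
    (hw0 : w ≠ 0) (huw : herm q u w = 0) (hgu : g.1 u ∈ A) (hgw : g.1 w ∈ B) :
    ∃ β : F, β ^ q = -β ∧ ∀ x ∈ A, g.1 x + (β * herm q (g.1 x) (g.1 w)) • g.1 w ∈ A := by
  obtain ⟨a', ha', haw⟩ := TotPair.exists_partner hF P.symm hw hw0
  have haw' : herm q a' w = 1 := by rw [← hF.herm_symm, haw, one_pow]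
  obtain ⟨a, ha, b, hb, hab⟩ :=
    Submodule.mem_sup.1 (show g.1 a' ∈ A ⊔ B by rw [P.compl.sup_eq_top]; trivial)
  have hgu0 : g.1 u ≠ 0 := fun e => hu0 (g.1.injective (by rw [e, map_zero]))
  have hgw0 : g.1 w ≠ 0 := fun e => hw0 (g.1.injective (by rw [e, map_zero]))
  have huv : herm q (g.1 w) (g.1 u) = 0 := by rw [UG_app, herm_comm_zero hF huw]
  have hbu : herm q b (g.1 u) = 0 := by
    have h : herm q (g.1 a') (g.1 u) = 0 := by rw [UG_app, P.tsA a' ha' u hu]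
    rwa [← hab, herm_add_left, P.tsA a ha _ hgu, zero_add] at h
  obtain ⟨f, hf⟩ := Submodule.mem_span_singleton.1
    (TotPair.mem_line hF P.symm hgw hgw0 hgu hgu0 huv hb hbu)
  have haw0 : herm q a (g.1 w) = 1 := by
    have h : herm q (g.1 a') (g.1 w) = 1 := by rw [UG_app, haw']
    rwa [← hab, herm_add_left, P.tsB b hb _ hgw, add_zero] at h
  have hskew : f + f ^ q = 0 := by
    have h : herm q (g.1 a') (g.1 a') = 0 := by rw [UG_app, P.tsA a' ha' a' ha']
    rw [← hab, ← hf] at h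
    simp only [herm_add_left, hF.herm_add_right, herm_smul_left, herm_smul_right, P.tsA a ha a ha,
      P.tsB _ hgw _ hgw, haw0, ← hF.herm_symm a (g.1 w), one_pow] at h
    linear_combination h
  refine ⟨-f, by rw [hF.neg_pow]; linear_combination -hskew, fun x hx => ?_⟩
  have hr : x - herm q x w • a' ∈ (F ∙ u) := P.mem_line hF hu hu0 hw hw0 huw
    (A.sub_mem hx (A.smul_mem _ ha')) (by rw [herm_sub_left, herm_smul_left, haw', mul_one, sub_self])
  obtain ⟨c, hc⟩ := Submodule.mem_span_singleton.1 hr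
  have hgx : g.1 x = c • g.1 u + herm q x w • (a + f • g.1 w) := by
    rw [hf, hab, ← map_smul, ← map_smul, ← map_add, hc, sub_add_cancel]
  rw [UG_app, hgx]
  convert A.add_mem (A.smul_mem c hgu) (A.smul_mem (herm q x w) ha) using 1
  module

/-- An element mapping some short root plane to another one, not fixing the planes. -/
theorem TotPair.centre_of_adapted (hq : 4 ≤ q) {g : UG 4 F q} (hgS : g ∈ SUG 4 F q) (hg : g ∈ M)
    (hno : ¬ ((∀ x ∈ A, g.1 x ∈ A) ∧ ∀ x ∈ B, g.1 x ∈ B))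
    {u w : Fin 4 → F} (hu : u ∈ A) (hu0 : u ≠ 0) (hw : w ∈ B) (hw0 : w ≠ 0) (huw : herm q u w = 0)
    (hgu : g.1 u ∈ A) (hgw : g.1 w ∈ B) :
    (∃ u ∈ A, u ≠ 0 ∧ ∀ (δ : F) (h : TrvCond q u δ), trv hF h ∈ M) ∨
      ∃ u ∈ B, u ≠ 0 ∧ ∀ (δ : F) (h : TrvCond q u δ), trv hF h ∈ M := by
  obtain ⟨β, hβ, hβA⟩ := P.exists_correct hF hu hu0 hw hw0 huw hgu hgw
  obtain ⟨α, hα, hαB⟩ := TotPair.exists_correct hF P.symm hw hw0 hu hu0 (herm_comm_zero hF huw) hgw hgu
  have cα : TrvCond q (g.1 u) α := ⟨P.tsA _ hgu _ hgu, hα⟩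
  have cβ : TrvCond q (g.1 w) β := ⟨P.tsB _ hgw _ hgw, hβ⟩
  set r := trv hF cα * trv hF cβ with hr
  have huv : herm q (g.1 u) (g.1 w) = 0 := by rw [UG_app, huw]
  have hvu := herm_comm_zero hF huv
  have hrA : ∀ x ∈ A, (r * g).1 x ∈ A := fun x hx => by
    rw [hr, Subgroup.coe_mul, LinearEquiv.mul_apply, Subgroup.coe_mul, LinearEquiv.mul_apply,
      trv_apply, trv_apply, herm_add_left, herm_smul_left, hvu, UG_app g x u, P.tsA x hx u hu,
      mul_zero, add_zero, mul_zero, zero_smul, add_zero]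
    exact hβA x hx
  have hrB : ∀ x ∈ B, (r * g).1 x ∈ B := fun x hx => by
    rw [hr, Subgroup.coe_mul, LinearEquiv.mul_apply, Subgroup.coe_mul, LinearEquiv.mul_apply,
      trv_apply, trv_apply, herm_add_left, herm_smul_left, hvu, mul_zero, add_zero, UG_app g x w,
      P.tsB x hx w hw, mul_zero, zero_smul, add_zero]
    exact hαB x hx
  have hne : α ≠ 0 ∨ β ≠ 0 := by
    by_contra hcon
    push Not at hcon
    exact hno ⟨fun x hx => by simpa [hcon.2] using hβA x hx, fun x hx => by simpa [hcon.1] using hαB x hx⟩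
  have hk := mul_mem (P.stab _ (mul_mem (mul_mem (det_uni hF _) (det_uni hF _)) hgS) hrA hrB) (inv_mem hg)
  rw [mul_inv_cancel_right] at hk
  exact P.separate hF hq hgu (fun e => hu0 (g.1.injective (by rw [e, map_zero]))) hgw
    (fun e => hw0 (g.1.injective (by rw [e, map_zero]))) huv cα cβ hne hk

/-- An element outside the stabiliser of the pair gives a centre in one of the planes. -/
theorem TotPair.exists_centre (hq : 4 ≤ q) {s : UG 4 F q} (hsS : s ∈ SUG 4 F q) (hs : s ∈ M)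
    (hsA : ∀ x ∈ A, s.1 x ∈ B) (hsB : ∀ x ∈ B, s.1 x ∈ A)
    {g : UG 4 F q} (hgS : g ∈ SUG 4 F q) (hg : g ∈ M)
    (hno : ¬ ((∀ x ∈ A, g.1 x ∈ A) ∧ ∀ x ∈ B, g.1 x ∈ B))
    (hno' : ¬ ((∀ x ∈ A, g.1 x ∈ B) ∧ ∀ x ∈ B, g.1 x ∈ A)) :
    (∃ u ∈ A, u ≠ 0 ∧ ∀ (δ : F) (h : TrvCond q u δ), trv hF h ∈ M) ∨
      ∃ u ∈ B, u ≠ 0 ∧ ∀ (δ : F) (h : TrvCond q u δ), trv hF h ∈ M := by
  haveI : Finite F := hF.1
  -- a vector mapped into the first plane, with orthogonal parts
  obtain ⟨a₁, ha₁, ha₁0⟩ := Submodule.exists_mem_ne_zero_of_ne_bot (p := A) fun e => by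
    have := P.dimA
    rw [e, finrank_bot] at this
    omega
  obtain ⟨a₂, ha₂, ha₂₁⟩ : ∃ a₂ ∈ A, a₂ ∉ (F ∙ a₁) := SetLike.not_le_iff_exists.1 fun h => by
    have := Submodule.finrank_mono h
    rw [finrank_span_singleton ha₁0, P.dimA] at this
    omega
  set y₁ := g.1.symm a₁ with hy₁
  set y₂ := g.1.symm a₂ with hy₂
  obtain ⟨p₁, hp₁, r₁, hr₁, e₁⟩ :=
    Submodule.mem_sup.1 (show y₁ ∈ A ⊔ B by rw [P.compl.sup_eq_top]; trivial)
  obtain ⟨p₂, hp₂, r₂, hr₂, e₂⟩ :=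
    Submodule.mem_sup.1 (show y₂ ∈ A ⊔ B by rw [P.compl.sup_eq_top]; trivial)
  obtain ⟨v, a, ha, b, hb, hv, hv0, hgv, hab⟩ : ∃ v a, a ∈ A ∧ ∃ b ∈ B, a + b = v ∧ v ≠ 0 ∧
      g.1 v ∈ A ∧ herm q a b = 0 := by
    have hsk : ∀ {a b a' b' y y' : Fin 4 → F}, a ∈ A → b ∈ B → a' ∈ A → b' ∈ B → a + b = y →
        a' + b' = y' → g.1 y ∈ A → g.1 y' ∈ A → herm q a b' ^ q = -herm q a' b := by
      intro a b a' b' y y' ha hb ha' hb' e e' hy hy'
      have h : herm q (g.1 y') (g.1 y) = 0 := P.tsA _ hy' _ hy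
      rw [UG_app, ← e, ← e', herm_add_left, hF.herm_add_right, hF.herm_add_right, P.tsA a' ha' a ha,
        P.tsB b' hb' b hb, ← hF.herm_symm a b'] at h
      linear_combination h
    have hgy₁ : g.1 y₁ ∈ A := by rw [hy₁, LinearEquiv.apply_symm_apply]; exact ha₁
    have hgy₂ : g.1 y₂ ∈ A := by rw [hy₂, LinearEquiv.apply_symm_apply]; exact ha₂
    set S₁₁ := herm q p₁ r₁
    set S₁₂ := herm q p₁ r₂
    set S₂₁ := herm q p₂ r₁
    set S₂₂ := herm q p₂ r₂
    rcases eq_or_ne S₁₁ 0 with h11 | h11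
    · exact ⟨y₁, p₁, hp₁, r₁, hr₁, e₁, fun e => ha₁0 (by
        rw [← g.1.apply_symm_apply a₁, ← hy₁, e, map_zero]), hgy₁, h11⟩
    have q11 : S₁₁ ^ q = -S₁₁ := hsk hp₁ hr₁ hp₁ hr₁ e₁ e₁ hgy₁ hgy₁
    have q12 : S₁₂ ^ q = -S₂₁ := hsk hp₁ hr₁ hp₂ hr₂ e₁ e₂ hgy₁ hgy₂
    have q21 : S₂₁ ^ q = -S₁₂ := hsk hp₂ hr₂ hp₁ hr₁ e₂ e₁ hgy₂ hgy₁
    have q22 : S₂₂ ^ q = -S₂₂ := hsk hp₂ hr₂ hp₂ hr₂ e₂ e₂ hgy₂ hgy₂
    obtain ⟨l, hl⟩ := hF.exists_norm (c := -(S₂₂ * S₁₁ - S₁₂ * S₂₁) / (S₁₁ * S₁₁)) (by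
      rw [div_pow, hF.neg_pow, hF.sub_pow, mul_pow, mul_pow, mul_pow, q11, q12, q21, q22]; ring)
    rw [pow_succ'] at hl
    set x := l - S₂₁ / S₁₁ with hx
    refine ⟨x • y₁ + y₂, x • p₁ + p₂, A.add_mem (A.smul_mem _ hp₁) hp₂, x • r₁ + r₂,
      B.add_mem (B.smul_mem _ hr₁) hr₂, by rw [← e₁, ← e₂]; module, ?_, ?_, ?_⟩
    · intro e
      refine ha₂₁ (Submodule.mem_span_singleton.2 ⟨-x, ?_⟩)
      have := congrArg g.1 e
      rw [map_add, map_smul, map_zero, hy₁, hy₂, LinearEquiv.apply_symm_apply,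
        LinearEquiv.apply_symm_apply] at this
      rw [neg_smul]
      exact neg_eq_of_add_eq_zero_right this
    · rw [map_add, map_smul]; exact A.add_mem (A.smul_mem _ hgy₁) hgy₂
    · simp only [herm_add_left, hF.herm_add_right, herm_smul_left, herm_smul_right]
      change x ^ q * (x * S₁₁ + S₂₁) + (x * S₁₂ + S₂₂) = 0
      rw [hx, hF.sub_pow, div_pow, q21, q11]
      have hll : l * l ^ q * (S₁₁ * S₁₁) = -(S₂₂ * S₁₁ - S₁₂ * S₂₁) := by
        rw [hl, div_mul_cancel₀ _ (mul_ne_zero h11 h11)]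
      field_simp
      linear_combination hll
  -- a short root plane containing it
  obtain ⟨u, hu, hu0, w, hw, hw0, huw, hvu, hvw⟩ : ∃ u ∈ A, u ≠ 0 ∧ ∃ w ∈ B, w ≠ 0 ∧ herm q u w = 0 ∧
      herm q v u = 0 ∧ herm q v w = 0 := by
    rcases eq_or_ne a 0 with rfl | ha0
    · rw [zero_add] at hv
      subst hv
      obtain ⟨u, hu, hu0, hub⟩ := P.exists_orth hF hb
      exact ⟨u, hu, hu0, b, hb, hv0, hub, herm_comm_zero hF hub, P.tsB b hb b hb⟩
    rcases eq_or_ne b 0 with rfl | hb0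
    · rw [add_zero] at hv
      subst hv
      obtain ⟨w, hw, hw0, hwa⟩ := TotPair.exists_orth hF P.symm ha
      exact ⟨a, ha, ha0, w, hw, hw0, herm_comm_zero hF hwa, P.tsA a ha a ha, herm_comm_zero hF hwa⟩
    · refine ⟨a, ha, ha0, b, hb, hb0, hab, ?_, ?_⟩
      · rw [← hv, herm_add_left, P.tsA a ha a ha, herm_comm_zero hF hab, add_zero]
      · rw [← hv, herm_add_left, P.tsB b hb b hb, hab, add_zero]
  set u₀ := g.1 v with hu₀
  have hu₀0 : u₀ ≠ 0 := fun e => hv0 (g.1.injective (by rw [← hu₀, e, map_zero]))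
  obtain ⟨b₀, hb₀, hb₀0, hb₀u⟩ := TotPair.exists_orth hF P.symm hgv
  have hu₀b₀ := herm_comm_zero hF hb₀u
  have hconj : ∀ μ : F, ∃ h : UniCond q (g.1 u) (μ • g.1 w) 0, uni hF h ∈ M := by
    intro μ
    have hμw : herm q u (μ • w) = 0 := by rw [herm_smul_right, huw, mul_zero]
    have hc1 : UniCond q u (μ • w) 0 := uni_short_cond hF (P.tsA u hu u hu)
      (P.tsB _ (B.smul_mem μ hw) _ (B.smul_mem μ hw)) hμw
    have hmem := mul_mem (mul_mem hg (P.short hF hu (B.smul_mem μ hw) hc1)) (inv_mem hg)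
    rw [uni_conj] at hmem
    have h : UniCond q (g.1 u) (μ • g.1 w) 0 := by
      rw [← map_smul]
      exact ⟨by rw [UG_app]; exact hc1.1, by rw [UG_app]; exact hc1.2.1, by rw [UG_app]; exact hc1.2.2⟩
    refine ⟨h, ?_⟩
    convert hmem using 1
    exact uni_congr hF _ _ rfl (by rw [map_smul]) rfl
  obtain ⟨hc0, hh0⟩ := hconj 1
  by_cases hmove : (uni hF hc0).1 b₀ ∉ B
  · refine Or.inl (GeoClasses.exists_trv_centre hF P.compl P.tsA P.tsB
      (fun x hx y hy _ h => P.short hF hx hy h) hc0 hh0 ⟨b₀, hb₀, hmove, u₀, ⟨⟨hgv, ?_⟩, ?_⟩, hu₀0, hu₀b₀⟩)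
    · show herm q u₀ (g.1 u) = 0
      rw [UG_app, hvu]
    · show herm q u₀ ((1 : F) • g.1 w) = 0
      rw [one_smul, UG_app, hvw]
  rw [not_not] at hmove
  have hgu0 : g.1 u ≠ 0 := fun e => hu0 (g.1.injective (by rw [e, map_zero]))
  have hgw0 : g.1 w ≠ 0 := fun e => hw0 (g.1.injective (by rw [e, map_zero]))
  have hu₀u : herm q u₀ (g.1 u) = 0 := by rw [UG_app, hvu]
  have hu₀w : herm q u₀ (g.1 w) = 0 := by rw [UG_app, hvw]
  have hgug : herm q (g.1 u) (g.1 u) = 0 := by rw [UG_app, P.tsA u hu u hu]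
  have hgwg : herm q (g.1 w) (g.1 w) = 0 := by rw [UG_app, P.tsB w hw w hw]
  have hguw : herm q (g.1 u) (g.1 w) = 0 := by rw [UG_app, huw]
  have hli : ∀ c : F, g.1 u ≠ c • g.1 w := fun c e => hu0 (Submodule.disjoint_def.1 P.compl.disjoint u hu (by
    rw [← map_smul] at e
    rw [g.1.injective e]
    exact B.smul_mem _ hw))
  -- the image plane
  obtain ⟨hb₀gu, hb₀gw⟩ : herm q b₀ (g.1 u) = 0 ∧ herm q b₀ (g.1 w) = 0 := by
    set d := herm q b₀ (g.1 u) • g.1 w - herm q b₀ (g.1 w) • g.1 u with hd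
    have hdB : d ∈ B := by
      have := B.sub_mem hmove hb₀
      convert this using 1
      rw [uni_apply, hd, one_smul]; module
    have hdu : herm q d u₀ = 0 := by
      rw [hd, herm_sub_left, herm_smul_left, herm_smul_left, herm_comm_zero hF hu₀w,
        herm_comm_zero hF hu₀u]
      ring
    obtain ⟨c, hc⟩ := Submodule.mem_span_singleton.1
      (TotPair.mem_line hF P.symm hb₀ hb₀0 hgv hu₀0 hb₀u hdB hdu)
    rcases eq_or_ne c 0 with rfl | hc0'
    · rw [zero_smul, hd] at hc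
      by_cases h : herm q b₀ (g.1 u) = 0
      · rw [h, zero_smul, zero_sub, eq_comm, neg_eq_zero, smul_eq_zero] at hc
        exact ⟨h, hc.resolve_right hgu0⟩
      · exfalso
        by_cases h' : herm q b₀ (g.1 w) = 0
        · rw [h', zero_smul, sub_zero, eq_comm, smul_eq_zero] at hc
          exact hc.elim h hgw0
        · refine hli (herm q b₀ (g.1 u) / herm q b₀ (g.1 w)) ?_
          rw [div_eq_inv_mul, mul_smul, sub_eq_zero.1 hc.symm, inv_smul_smul₀ h']
    · have h1 : herm q (c • b₀) (g.1 u) = 0 ∧ herm q (c • b₀) (g.1 w) = 0 := by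
        rw [hc, hd]
        simp [herm_sub_left, herm_smul_left, hgug, hgwg, hguw, herm_comm_zero hF hguw]
      rw [herm_smul_left, herm_smul_left] at h1
      exact ⟨(mul_eq_zero.1 h1.1).resolve_left hc0', (mul_eq_zero.1 h1.2).resolve_left hc0'⟩
  have hin : ∀ x, herm q x u₀ = 0 → herm q x b₀ = 0 → ∃ s t : F, s • u₀ + t • b₀ = x := by
    intro x h1 h2
    have hle : Submodule.span F ({u₀, b₀} : Set (Fin 4 → F)) ≤ hperp q (Submodule.span F {u₀, b₀}) := by
      refine Submodule.span_le.2 fun z hz => ?_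
      intro z' hz'
      obtain ⟨s, t, rfl⟩ := Submodule.mem_span_pair.1 hz'
      rcases hz with rfl | rfl <;>
        simp [hF.herm_add_right, herm_smul_right, P.tsA _ hgv _ hgv, P.tsB _ hb₀ _ hb₀, hu₀b₀, hb₀u]
    have h2' : finrank F (Submodule.span F ({u₀, b₀} : Set (Fin 4 → F))) = 2 := by
      have hli2 : LinearIndependent F ![u₀, b₀] :=
        (LinearIndependent.pair_iff' hu₀0).2 fun c e => hb₀0
          (Submodule.disjoint_def.1 P.compl.disjoint b₀ (e ▸ A.smul_mem c hgv) hb₀)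
      have := finrank_span_eq_card hli2
      rwa [Matrix.range_cons, Matrix.range_cons, Matrix.range_empty, Set.union_empty,
        Set.singleton_union, Fintype.card_fin] at this
    have heq := Submodule.eq_of_le_of_finrank_le hle (by rw [finrank_hperp hF, h2'])
    have hx : x ∈ hperp q (Submodule.span F ({u₀, b₀} : Set (Fin 4 → F))) := fun z hz => by
      obtain ⟨s, t, rfl⟩ := Submodule.mem_span_pair.1 hz
      simp [hF.herm_add_right, herm_smul_right, h1, h2]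
    rw [← heq] at hx
    exact Submodule.mem_span_pair.1 hx
  obtain ⟨a₁', b₁', hgu⟩ := hin _ (herm_comm_zero hF hu₀u) (herm_comm_zero hF hb₀gu)
  obtain ⟨a₂', b₂', hgw⟩ := hin _ (herm_comm_zero hF hu₀w) (herm_comm_zero hF hb₀gw)
  obtain ⟨ξ, hξ⟩ := exists_qConj_moved hF
  rw [qConj_apply] at hξ
  by_cases hz : a₁' ^ q * a₂' ≠ 0 ∨ b₁' ^ q * b₂' ≠ 0
  · -- a long root element
    obtain ⟨μ, hμ⟩ : ∃ μ : F, μ * (a₁' ^ q * a₂') - (μ * (a₁' ^ q * a₂')) ^ q ≠ 0 ∨
        μ * (b₁' ^ q * b₂') - (μ * (b₁' ^ q * b₂')) ^ q ≠ 0 := by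
      rcases hz with h | h
      · exact ⟨ξ / (a₁' ^ q * a₂'), Or.inl (by rw [div_mul_cancel₀ _ h]; exact sub_ne_zero.2 (Ne.symm hξ))⟩
      · exact ⟨ξ / (b₁' ^ q * b₂'), Or.inr (by rw [div_mul_cancel₀ _ h]; exact sub_ne_zero.2 (Ne.symm hξ))⟩
    set α := μ * (a₁' ^ q * a₂') - (μ * (a₁' ^ q * a₂')) ^ q
    set β := μ * (b₁' ^ q * b₂') - (μ * (b₁' ^ q * b₂')) ^ q
    set γ := μ * a₁' ^ q * b₂' - μ ^ q * a₂' ^ q * b₁'
    have cα : TrvCond q u₀ α := ⟨P.tsA _ hgv _ hgv, by simp only [α, hF.sub_pow, hF.pow_pow]; ring⟩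
    have cβ : TrvCond q b₀ β := ⟨P.tsB _ hb₀ _ hb₀, by simp only [β, hF.sub_pow, hF.pow_pow]; ring⟩
    have cγ : UniCond q u₀ (γ • b₀) 0 := uni_short_cond hF (P.tsA _ hgv _ hgv)
      (P.tsB _ (B.smul_mem γ hb₀) _ (B.smul_mem γ hb₀)) (by rw [herm_smul_right, hu₀b₀, mul_zero])
    obtain ⟨hcμ, hhμ⟩ := hconj μ
    refine P.separate hF hq hgv hu₀0 hb₀ hb₀0 hu₀b₀ cα cβ hμ ?_
    convert mul_mem hhμ (inv_mem (P.short hF hgv (B.smul_mem γ hb₀) cγ)) using 1
    rw [eq_mul_inv_iff_mul_eq]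
    refine Subtype.ext (LinearEquiv.ext fun z => ?_)
    simp only [Subgroup.coe_mul, LinearEquiv.mul_apply, uni_apply, trv_apply, herm_add_left,
      herm_smul_left, herm_smul_right, hb₀u, hu₀b₀, P.tsA _ hgv _ hgv, P.tsB _ hb₀ _ hb₀]
    rw [← hgu, ← hgw]
    simp only [herm_add_left, hF.herm_add_right, herm_smul_left, herm_smul_right, α, β, γ, mul_pow,
      hF.pow_pow, hF.sub_pow]
    module
  push Not at hz
  obtain ⟨hza, hzb⟩ := hz
  rw [mul_eq_zero, pow_eq_zero_iff hF.q_ne_zero] at hza hzb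
  rcases hza with h1 | h2
  · -- the planes are interchanged
    rw [h1, zero_smul, zero_add] at hgu
    have hb1 : b₁' ≠ 0 := fun e => hgu0 (by rw [← hgu, e, zero_smul])
    rw [hzb.resolve_left hb1, zero_smul, add_zero] at hgw
    have hinj : ∀ x, s.1 x ∈ A → x ∈ B := fun x hx => by
      obtain ⟨a, ha, b, hb, rfl⟩ :=
        Submodule.mem_sup.1 (show x ∈ A ⊔ B by rw [P.compl.sup_eq_top]; trivial)
      have : s.1 a = 0 := Submodule.disjoint_def.1 P.compl.disjoint _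
        (by have := A.sub_mem hx (hsB b hb); rwa [map_add, add_sub_cancel_right] at this) (hsA a ha)
      rw [show a = 0 from s.1.injective (by rw [this, map_zero]), zero_add]
      exact hb
    have hinj' : ∀ x, s.1 x ∈ B → x ∈ A := fun x hx => by
      obtain ⟨a, ha, b, hb, rfl⟩ :=
        Submodule.mem_sup.1 (show x ∈ A ⊔ B by rw [P.compl.sup_eq_top]; trivial)
      have : s.1 b = 0 := Submodule.disjoint_def.1 P.compl.disjoint _ (hsB b hb)
        (by have := B.sub_mem hx (hsA a ha); rwa [map_add, add_sub_cancel_left] at this)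
      rw [show b = 0 from s.1.injective (by rw [this, map_zero]), add_zero]
      exact ha
    refine P.centre_of_adapted hF hq (mul_mem hsS hgS) (mul_mem hs hg) (fun h => hno' ⟨fun x hx => hinj _ ?_,
      fun x hx => hinj' _ ?_⟩) hu hu0 hw hw0 huw ?_ ?_
    · exact h.1 x hx
    · exact h.2 x hx
    · rw [Subgroup.coe_mul, LinearEquiv.mul_apply, ← hgu]
      exact hsB _ (B.smul_mem _ hb₀)
    · rw [Subgroup.coe_mul, LinearEquiv.mul_apply, ← hgw]
      exact hsA _ (A.smul_mem _ hgv)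
  · rw [h2, zero_smul, zero_add] at hgw
    have hb2 : b₂' ≠ 0 := fun e => hgw0 (by rw [← hgw, e, zero_smul])
    rw [hzb.resolve_right hb2, zero_smul, add_zero] at hgu
    exact P.centre_of_adapted hF hq hgS hg hno hu hu0 hw hw0 huw
      (by rw [← hgu]; exact A.smul_mem _ hgv) (by rw [← hgw]; exact B.smul_mem _ hb₀)

omit P

/-- Stabilisers of pairs of totally singular planes are maximal. -/
theorem suGL_totDecomp_maximal (hq : 4 ≤ q) {D : Fin 2 → Submodule F (Fin 4 → F)}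
    (hD : IsMDecomposition 2 D)
    (hts : ∀ i, IsTotallySingularFor (Cfsg.hermForm 4 F q) (D i)) :
    IsMaximalIn (suGL 4 F q) (decompositionStabilizer D ⊓ suGL 4 F q) := by
  refine ⟨lt_of_le_not_ge inf_le_right fun hle =>
    suGL_not_le_decompositionStabilizer hF hD le_rfl (hle.trans inf_le_left),
    fun M hM hMK => ?_⟩
  by_cases hMW : M ≤ decompositionStabilizer D
  · exact Or.inl (le_antisymm (le_inf hMW hMK) hM)
  refine Or.inr (le_antisymm hMK ?_)
  set M' := M.comap (ugToGL 4 F q) with hM'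
  suffices hS : SUG 4 F q ≤ M' by
    intro g hg
    obtain ⟨k, hk, rfl⟩ := exists_ugToGL_eq hg
    exact hS hk
  have hmemK : ∀ g ∈ SUG 4 F q, ∀ σ : Equiv.Perm (Fin 2),
      (∀ i, ∀ x ∈ D i, g.1 x ∈ D (σ i)) → g ∈ M' := fun g hg σ hσ =>
    hM ⟨mem_decompositionStabilizer_two hD σ fun i x hx => by
      rw [ugToGL_mulVec]; exact hσ i x hx, ugToGL_mem_suGL hg⟩
  have P : TotPair q (D 0) (D 1) M' :=
    ⟨mdecomp_isCompl hD, hts 0, hts 1, hD.finrank_eq 0, hD.finrank_eq 1, fun g hg h0 h1 =>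
      hmemK g hg 1 (by rw [Fin.forall_fin_two]; exact ⟨h0, h1⟩)⟩
  obtain ⟨s, hsU, hsA, hsB⟩ := exists_swap_halves_unitary hF P.compl P.tsA P.tsB (P.dimA.trans P.dimB.symm)
  have hsM : s ∈ M' := hmemK s hsU (Equiv.swap 0 1) (by
    rw [Fin.forall_fin_two]; simpa using ⟨hsA, hsB⟩)
  obtain ⟨g0, hg0M, hg0D⟩ := SetLike.not_le_iff_exists.1 hMW
  obtain ⟨g, hgS, rfl⟩ := exists_ugToGL_eq (hMK hg0M)
  have hno : ∀ σ : Equiv.Perm (Fin 2), ¬ ∀ i, ∀ x ∈ D i, g.1 x ∈ D (σ i) := fun σ h =>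
    hg0D (mem_decompositionStabilizer_two hD σ fun i x hx => by rw [ugToGL_mulVec]; exact h i x hx)
  obtain ⟨u₀, hu₀, hu₀0, hτ⟩ : ∃ u ∈ D 0, u ≠ 0 ∧
      ∀ (δ : F) (h : TrvCond q u δ), trv hF h ∈ M' := by
    rcases P.exists_centre hF hq hsU hsM hsA hsB hgS (show g ∈ M' from hg0M)
        (fun h => hno 1 (by rw [Fin.forall_fin_two]; exact h))
        (fun h => hno (Equiv.swap 0 1) (by rw [Fin.forall_fin_two]; simpa using h)) with h | ⟨u, hu, hu0, hτ⟩
    · exact h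
    refine ⟨s.1 u, hsB u hu, fun h0 => hu0 (s.1.injective (by simpa using h0)), fun δ hδ => ?_⟩
    have hδ' : TrvCond q u δ := ⟨P.tsB u hu u hu, hδ.2⟩
    have hm := mul_mem (mul_mem hsM (hτ δ hδ')) (inv_mem hsM)
    rw [trv, uni_conj] at hm
    convert hm using 1
    exact uni_congr hF _ _ rfl (map_zero _).symm rfl
  exact GeoClasses.SUG_le_of_half_centre hF le_rfl P.compl P.tsA P.tsB (P.dimA.trans P.dimB.symm)
    P.dimA.ge (fun x hx y hy _ h => P.short hF hx hy h) hsM hsA hu₀ hu₀0 hτ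

end Cfsg.Agent.SU4
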